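import Cfsg.Agent.H861.ExtraEngine
import Cfsg.Agent.H861.TwoCentral
import Cfsg.Agent.J2.ExtQuot

/-!
# The Baby Monster by elimination

`hyp_of_centralizer` : the centraliser of an involution with a self-centralising normal extraspecial subgroup of order
`2 ^ (2 w + 1)` and known order gives the hypotheses of the engine.
-/

set_option autoImplicit false

namespace Cfsg.Agent.H861.BabyElim

open Subgroup Cfsg Cfsg.Agent.H861.ExtraEngine
open Cfsg.Agent.OrdDiv (Real Grp spor OrderTable)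

universe u

variable {G : Type u} [Group G] [Finite G]

/-- The 2-part of `|G|` is the 2-part of `|C_G(t)|`. -/
theorem two_part {t : G} (ht : IsTwoCentralInvolution t) (k : ℕ) :
    2 ^ k ∣ Nat.card (centralizer ({t} : Set G)) ↔ 2 ^ k ∣ Nat.card G := by
  constructor
  · exact fun h => h.trans (card_subgroup_dvd_card _)
  · intro h
    obtain ⟨-, P, -, hP⟩ := ht
    have h2 : Fact (Nat.Prime 2) := ⟨Nat.prime_two⟩
    have h1 : 2 ^ k ∣ Nat.card P := by
      rw [P.card_eq_multiplicity]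
      exact pow_dvd_pow 2 ((Nat.prime_two.pow_dvd_iff_le_factorization Nat.card_pos.ne').1 h)
    refine h1.trans (card_dvd_of_le ?_)
    intro x hx
    exact mem_centralizer_singleton_iff.2 (hP x hx)

theorem hyp_of_centralizer {w k : ℕ} (t : G) (ht : orderOf t = 2) (Q : Subgroup (centralizer ({t} : Set G)))
    [Q.Normal] (hQ : IsExtraspecial 2 Q) (hcard : Nat.card Q = 2 ^ (2 * w + 1))
    (h2c : centralizer (Q : Set (centralizer ({t} : Set G))) ≤ Q)
    (h1 : 2 ^ k ∣ Nat.card (centralizer ({t} : Set G)))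
    (h2 : ¬ 2 ^ (k + 1) ∣ Nat.card (centralizer ({t} : Set G))) : Hyp w k G := by
  have htc := TwoCentral.isTwoCentral t ht Q hQ.1.1 hQ.2 h2c
  let e : Q ≃* Q.map (centralizer ({t} : Set G)).subtype :=
    Q.equivMapOfInjective _ (centralizer ({t} : Set G)).subtype_injective
  refine ⟨⟨Q.map (centralizer ({t} : Set G)).subtype,
    Cfsg.Agent.J2.ExtQuot.isExtraspecial_of_equiv e hQ, ?_⟩, ?_, ?_⟩
  · rw [← hcard]
    exact (Nat.card_congr e.toEquiv).symm
  · exact (two_part htc k).1 h1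
  · exact fun h => h2 ((two_part htc (k + 1)).2 h)

/-- 2 ^ 42 divides n!/2 for large n -/
theorem alt_two {n : ℕ} (hn : 2048 ≤ n) (h : Real (.alt n) G) : 2 ^ 42 ∣ Nat.card G := by
  obtain ⟨e⟩ := h
  have h1 := Cfsg.Agent.OrdDiv.alt_card (by omega) e
  have h2 : Nat.factorial 48 ∣ Nat.factorial n := Nat.factorial_dvd_factorial (by omega)
  have h3 : 2 * 2 ^ 42 ∣ Nat.factorial 48 := by decide +kernel
  have h4 := h3.trans h2
  rw [h1] at h4
  exact Nat.dvd_of_mul_dvd_mul_left (by norm_num) h4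

theorem tri {n f : ℕ} (h : f * (n * (n - 1) / 2) = 41) : n * (n - 1) / 2 = 1 := by
  have h1 : (n * (n - 1) / 2) ∣ 41 := Dvd.intro_left _ h
  have h2 : Nat.Prime 41 := by norm_num
  rcases (Nat.dvd_prime h2).1 h1 with h3 | h3
  · exact h3
  · exfalso
    have h4 : n ≤ 9 ∨ 10 ≤ n := by omega
    rcases h4 with h4 | h4
    · interval_cases n <;> simp at h3
    · have h5 : 10 * 9 ≤ n * (n - 1) := Nat.mul_le_mul h4 (by omega)
      omega

/-- **Elimination**: the Baby Monster is the only group with an extraspecial subgroup of order `2 ^ 23`, Sylow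
2-subgroups of order `2 ^ 41` and order divisible by 5. -/
theorem elim (T : OrderTable.{u}) (hk : IsKnownSimple' G) (hna : ¬ IsMulCommutative G) (H : Hyp 11 41 G)
    (h5 : 5 ∣ Nat.card G) : Spor.IsoB G := by
  have hF : ∀ f a : ℕ, f * a = 41 → a = 1 ∨ a = 41 := by
    intro f a h
    exact (Nat.dvd_prime (by norm_num)).1 (Dvd.intro_left _ h)
  have hsq : ∀ m : ℕ, 2 ≤ m → m ^ 2 ≠ 1 ∧ m ^ 2 ≠ 41 := by
    intro m hm
    refine ⟨by nlinarith, fun h => ?_⟩
    have h4 : m ≤ 6 ∨ 7 ≤ m := by omega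
    rcases h4 with h4 | h4
    · interval_cases m <;> simp at h
    · nlinarith
  have hmm : ∀ m : ℕ, 4 ≤ m → m * (m - 1) ≠ 1 ∧ m * (m - 1) ≠ 41 := by
    intro m hm
    have h1 : 4 * 3 ≤ m * (m - 1) := Nat.mul_le_mul hm (by omega)
    refine ⟨by omega, fun h => ?_⟩
    have h4 : m ≤ 6 ∨ 7 ≤ m := by omega
    rcases h4 with h4 | h4
    · interval_cases m <;> simp at h
    · have h1 : 7 * 6 ≤ m * (m - 1) := Nat.mul_le_mul h4 (by omega)
      omega
  rcases engine T hk hna H with ⟨n, -, h, hn⟩ | ⟨n, hn, hk⟩ | hn | ⟨n, f, hn, h, hk⟩ | ⟨m, f, hm, h, hk⟩ |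
    ⟨n, f, hn, h, hk⟩ | ⟨m, f, hm, h, hk⟩ | ⟨m, f, hm, h, hk⟩ | ⟨f, h, hk⟩ | ⟨f, h, hk⟩ | ⟨f, h, hk⟩ |
    ⟨f, h, hk⟩ | ⟨f, h, hk⟩ | ⟨f, h, hk⟩ | ⟨f, h, hk⟩ | ⟨f, h, hk⟩ | ⟨f, h, hk⟩ | ⟨x, hx, h, hc⟩
  · exact absurd (alt_two (by simpa using hn) h) H.h2
  · exfalso
    have h1 : n ^ 2 ≤ 43 ^ 2 := Nat.pow_le_pow_left hk 2
    norm_num at hn h1
    omega
  · norm_num at hn
  · exfalso
    have h1 := tri hk
    have h2 : n = 2 := by
      by_contra hcon
      have h3 : 3 * 2 ≤ n * (n - 1) := Nat.mul_le_mul (by omega) (by omega)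
      omega
    subst h2
    have h3 : f = 41 := by simpa using hk
    subst h3
    obtain ⟨F, _, _, hq, ⟨e⟩⟩ := h
    have h4 := S0243.result hq 2 le_rfl
    rw [← Nat.card_congr e.toEquiv] at h4
    have h6 : 5 ∣ ∏ i : Fin 2, ((2 ^ 41) ^ 2 - (2 ^ 41) ^ (i : ℕ)) := by
      rw [← h4]
      exact (h5.mul_left _).mul_left _
    rw [Fin.prod_univ_two] at h6
    revert h6
    decide +kernel
  · exfalso
    rcases hF _ _ hk with h1 | h1
    · exact (hsq m hm).1 h1
    · exact (hsq m hm).2 h1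
  · exfalso
    have h1 := tri hk
    have h3 : 3 * 2 ≤ n * (n - 1) := Nat.mul_le_mul (by omega) (by omega)
    omega
  · exfalso
    rcases hF _ _ hk with h1 | h1
    · exact (hmm m hm).1 h1
    · exact (hmm m hm).2 h1
  · exfalso
    rcases hF _ _ hk with h1 | h1
    · exact (hmm m hm).1 h1
    · exact (hmm m hm).2 h1
  · omega
  · omega
  · omega
  · omega
  · omega
  · omega
  · omega
  · omega
  · omega
  · have h1 := H.h1
    have h2 := H.h2
    rw [hc] at h1 h2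
    have key : ∀ y ∈ spor, 2 ^ 41 ∣ y.2 → ¬ 2 ^ (41 + 1) ∣ y.2 → y.1 = Grp.b := by decide +kernel
    have h3 := key x hx h1 h2
    rw [h3] at h
    exact h

end Cfsg.Agent.H861.BabyElim
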