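import Cfsg.Agent.H861.KnownRep
import Cfsg.Agent.OrdDiv.Main

/-!
# Known simple groups with an extraspecial 2-subgroup and a given exact 2-part of the order

`G` known simple non-abelian, `Q ≤ G` extraspecial of order `2 ^ (2 w + 1)`, `2 ^ k` exactly divides `|G|`.
`engine`: one of the cases of `Case w k G`.
-/

set_option autoImplicit false

namespace Cfsg.Agent.H861.ExtraEngine

open Subgroup Cfsg Cfsg.Agent.H861.ExtraRep Cfsg.Agent.H861.TwoArith Cfsg.Agent.H861.KnownRep
open Cfsg.Agent.OrdDiv (Real Grp spor OrderTable)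

universe u

/-- the possible cases -/
inductive Case (w k : ℕ) (G : Type u) [Group G] : Prop
  /-- alternating -/
  | alt (n : ℕ) (h5 : 5 ≤ n) (h : Real (.alt n) G) (hn : 2 ^ w ≤ n)
  /-- classical in odd characteristic: the natural dimension `n` is at most `k + 2` -/
  | cls (n : ℕ) (hn : 2 ^ w ≤ n ^ 2) (hk : n ≤ k + 2)
  /-- exceptional in odd characteristic -/
  | exc (hn : 2 ^ w ≤ 248)
  | psl (n f : ℕ) (hn : 2 ≤ n) (h : Real (.psl n (2 ^ f)) G) (hk : f * (n * (n - 1) / 2) = k)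
  | psp (m f : ℕ) (hm : 2 ≤ m) (h : Real (.psp m (2 ^ f)) G) (hk : f * (m ^ 2) = k)
  | psu (n f : ℕ) (hn : 3 ≤ n) (h : Real (.psu n (2 ^ f)) G) (hk : f * (n * (n - 1) / 2) = k)
  | oplus (m f : ℕ) (hm : 4 ≤ m) (h : Real (.oplus m (2 ^ f)) G) (hk : f * (m * (m - 1)) = k)
  | ominus (m f : ℕ) (hm : 4 ≤ m) (h : Real (.ominus m (2 ^ f)) G) (hk : f * (m * (m - 1)) = k)
  | g2 (f : ℕ) (h : Real (.g2 (2 ^ f)) G) (hk : f * 6 = k)
  | f4 (f : ℕ) (h : Real (.f4 (2 ^ f)) G) (hk : f * 24 = k)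
  | e6 (f : ℕ) (h : Real (.e6 (2 ^ f)) G) (hk : f * 36 = k)
  | e7 (f : ℕ) (h : Real (.e7 (2 ^ f)) G) (hk : f * 63 = k)
  | e8 (f : ℕ) (h : Real (.e8 (2 ^ f)) G) (hk : f * 120 = k)
  | te6 (f : ℕ) (h : Real (.te6 (2 ^ f)) G) (hk : f * 36 = k)
  | td4 (f : ℕ) (h : Real (.td4 (2 ^ f)) G) (hk : f * 12 = k)
  | sz (f : ℕ) (h : Real (.sz (2 ^ f)) G) (hk : f * 2 = k)
  | tf4 (f : ℕ) (h : Real (.tf4 (2 ^ f)) G) (hk : f * 12 = k)
  | spor (x : Grp × ℕ) (hx : x ∈ OrdDiv.spor) (h : Real x.1 G) (hc : Nat.card G = x.2)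

/-- a finite field of even order has order a power of two -/
theorem card_two_pow {F : Type} [Field F] [Fintype F] (h : ¬ Odd (Fintype.card F)) :
    ∃ f, f ≠ 0 ∧ Fintype.card F = 2 ^ f := by
  obtain ⟨p, f, hp, hf, he⟩ := (Fintype.isPrimePow_card_of_field (α := F))
  rw [← Nat.prime_iff] at hp
  refine ⟨f, hf.ne', ?_⟩
  rw [← he] at h ⊢
  rcases hp.eq_two_or_odd' with rfl | h1
  · rfl
  · exact absurd h1.pow h

theorem pow_of_pow {q e f : ℕ} (he : e ≠ 0) (hf : f ≠ 0) (h : q ^ e = 2 ^ f) : ∃ g, g ≠ 0 ∧ q = 2 ^ g := by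
  have h1 : q ∣ 2 ^ f := h ▸ dvd_pow_self q he
  obtain ⟨g, -, rfl⟩ := (Nat.dvd_prime_pow Nat.prime_two).1 h1
  refine ⟨g, ?_, rfl⟩
  rintro rfl
  rw [pow_zero, one_pow] at h
  have : 1 < 2 ^ f := Nat.one_lt_two_pow hf
  omega

theorem even_two_pow {f : ℕ} (hf : f ≠ 0) : Even (2 ^ f) := (Nat.even_pow).2 ⟨even_two, hf⟩

theorem odd_gcd_mul {n q k : ℕ} (hk : Odd k) : Odd (Nat.gcd n k) ∧ Odd (Nat.gcd q k) :=
  ⟨hk.of_dvd_nat (Nat.gcd_dvd_right _ _), hk.of_dvd_nat (Nat.gcd_dvd_right _ _)⟩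

theorem odd_prod {n : ℕ} {f : ℕ → ℕ} (h : ∀ i < n, Odd (f i)) : Odd (∏ i ∈ Finset.range n, f i) := by
  induction n with
  | zero => exact odd_one
  | succ n ih =>
    rw [Finset.prod_range_succ]
    exact (ih fun i hi => h i (by omega)).mul (h n (by omega))

theorem le_of_two_pow {c k n : ℕ} (h1 : 2 ^ n ∣ c) (h2 : ¬ 2 ^ (k + 1) ∣ c) : n ≤ k := by
  by_contra hcon
  exact h2 ((pow_dvd_pow 2 (by omega)).trans h1)

section

variable {G : Type u} [Group G] {w k : ℕ}

/-- the hypotheses -/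
structure Hyp (w k : ℕ) (G : Type u) [Group G] : Prop where
  Q : ∃ Q : Subgroup G, IsExtraspecial 2 Q ∧ Nat.card Q = 2 ^ (2 * w + 1)
  h1 : 2 ^ k ∣ Nat.card G
  h2 : ¬ 2 ^ (k + 1) ∣ Nat.card G

theorem Hyp.bound (H : Hyp w k G) {d : ℕ} (h : HasRep G d) : 2 ^ w ≤ d := by
  obtain ⟨Q, hQ, hw⟩ := H.Q
  exact h.bound Q hQ hw

theorem psl (H : Hyp w k G) {F : Type} [Field F] [Fintype F] {n : ℕ} (hn : 2 ≤ n)
    (e : G ≃* Matrix.ProjectiveSpecialLinearGroup (Fin n) F) : Case w k G := by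
  have hc := S0243.result (F := F) rfl n hn
  rw [← Nat.card_congr e.toEquiv, gl_prod] at hc
  have hq0 : 0 < Fintype.card F := Fintype.card_pos
  by_cases ho : Odd (Fintype.card F)
  · refine Case.cls n (H.bound (hasRep_psl ho e)) ?_
    obtain ⟨n', rfl⟩ : ∃ n', n = n' + 2 := ⟨n - 2, by omega⟩
    have hq1 : 1 < Fintype.card F := Fintype.one_lt_card
    have h3 := cancel hc (d := 2 ^ (n' + 1)) (e := (Fintype.card F - 1) ^ 2)
      (by rw [pow_two]; exact Nat.mul_dvd_mul_right (Nat.gcd_dvd_right _ _) _)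
      ((prA ho).trans (Dvd.intro_left _ rfl))
      (Nat.mul_pos (Nat.gcd_pos_of_pos_left _ (by omega)) (by omega))
    have := le_of_two_pow h3 H.h2
    omega
  · obtain ⟨f, hf, he⟩ := card_two_pow ho
    refine Case.psl n f hn ⟨F, inferInstance, inferInstance, he, ⟨e⟩⟩ ?_
    have hev : Even (2 ^ f) := even_two_pow hf
    rw [he] at hc
    have ho1 : Odd (2 ^ f - 1) := by
      have := odd_sub (k := 1) hev (by positivity) one_ne_zero
      rwa [pow_one] at this
    rw [← mul_assoc] at hc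
    exact even_case hc ((odd_gcd_mul (q := n) ho1).1.mul ho1)
      (odd_prod fun i _ => odd_sub hev (by positivity) (by omega)) H.h1 H.h2

theorem psp (H : Hyp w k G) {F : Type} [Field F] [Fintype F] {m : ℕ} (hm : 2 ≤ m)
    (e : G ≃* PSp m F) : Case w k G := by
  have hq0 : 0 < Fintype.card F := Fintype.card_pos
  have hc : Nat.gcd 2 (Fintype.card F - 1) * Nat.card G =
      Fintype.card F ^ (m ^ 2) * ∏ i ∈ Finset.range m, (Fintype.card F ^ (2 * (i + 1)) - 1) := by
    have h1 := S0245.result (F := F) rfl m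
    have h2 := S0246.result (F := F) rfl m (by omega)
    have h3 := Subgroup.card_eq_card_quotient_mul_card_subgroup
      (Subgroup.center (Matrix.symplecticGroup (Fin m) F))
    rw [h1, h2] at h3
    rw [Nat.card_congr e.toEquiv, mul_comm]
    exact h3.symm
  by_cases ho : Odd (Fintype.card F)
  · refine Case.cls (2 * m) (H.bound (hasRep_psp ho e)) ?_
    have h3 : 8 ^ m ∣ Nat.gcd 2 (Fintype.card F - 1) * Nat.card G := by
      rw [hc]
      exact (pow_dvd_prod fun i _ => eight_dvd ho).trans (Dvd.intro_left _ rfl)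
    have h4 : 2 ^ (3 * m) ∣ 2 * Nat.card G := by
      rw [pow_mul]
      exact h3.trans (Nat.mul_dvd_mul_right (Nat.gcd_dvd_left _ _) _)
    have h5 : 2 ^ (3 * m - 1) ∣ Nat.card G := by
      rw [show 3 * m = (3 * m - 1) + 1 by omega, pow_succ, mul_comm] at h4
      exact Nat.dvd_of_mul_dvd_mul_left (by norm_num) h4
    have := le_of_two_pow h5 H.h2
    omega
  · obtain ⟨f, hf, he⟩ := card_two_pow ho
    refine Case.psp m f hm ⟨F, inferInstance, inferInstance, he, ⟨e⟩⟩ ?_
    have hev : Even (2 ^ f) := even_two_pow hf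
    rw [he] at hc
    have ho1 : Odd (2 ^ f - 1) := by
      have := odd_sub (k := 1) hev (by positivity) one_ne_zero
      rwa [pow_one] at this
    exact even_case hc (odd_gcd_mul (q := m) ho1).1
      (odd_prod fun i _ => odd_sub hev (by positivity) (by omega)) H.h1 H.h2

theorem psu (H : Hyp w k G) {F : Type} [Field F] [Fintype F] {n q : ℕ} (hF : Fintype.card F = q ^ 2) (hn : 3 ≤ n)
    (e : G ≃* PSU n F q) : Case w k G := by
  have hc := S0280.result (F := F) hF n (by omega)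
  rw [← Nat.card_congr e.toEquiv] at hc
  have hq0 : 0 < Fintype.card F := Fintype.card_pos
  by_cases ho : Odd (Fintype.card F)
  · refine Case.cls n (H.bound (hasRep_psu ho e)) ?_
    have hoq : Odd q := by
      rw [hF] at ho
      exact Nat.Odd.of_mul_left (by rwa [pow_two] at ho)
    obtain ⟨n', rfl⟩ : ∃ n', n = n' + 2 := ⟨n - 2, by omega⟩
    have h3 := cancel hc (d := 2 ^ (n' + 1)) (e := (q + 1) ^ 2)
      (by rw [pow_two]; exact Nat.mul_dvd_mul_right (Nat.gcd_dvd_right _ _) _)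
      ((prU hoq).trans (Dvd.intro_left _ rfl))
      (Nat.mul_pos (Nat.gcd_pos_of_pos_left _ (by omega)) (by omega))
    have := le_of_two_pow h3 H.h2
    omega
  · obtain ⟨f, hf, he⟩ := card_two_pow ho
    obtain ⟨g, hg, rfl⟩ := pow_of_pow two_ne_zero hf (hF ▸ he)
    refine Case.psu n g hn ⟨F, inferInstance, inferInstance, hF, ⟨e⟩⟩ ?_
    have hev : Even (2 ^ g) := even_two_pow hg
    have ho1 : Odd (2 ^ g + 1) := hev.add_one
    rw [← mul_assoc] at hc
    refine even_case hc ((odd_gcd_mul (q := n) ho1).1.mul ho1) (odd_prod fun i _ => ?_) H.h1 H.h2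
    split_ifs
    · exact odd_add hev (by omega)
    · exact odd_sub hev (by positivity) (by omega)

theorem oodd (H : Hyp w k G) {F : Type} [Field F] [Fintype F] {m : ℕ} (hm : 3 ≤ m) (ho : Odd (Fintype.card F))
    (e : G ≃* POmega F (quadFormOdd m F)) : Case w k G := by
  have hc := S0292.result (F := F) rfl ho m hm
  rw [← Nat.card_congr e.toEquiv] at hc
  have hr := hasRep_pomega ho e
  rw [Fintype.card_sum, Fintype.card_sum, Fintype.card_fin, Fintype.card_unit] at hr
  refine Case.cls (1 + (m + m)) (H.bound hr) ?_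
  have h3 : 2 ^ (3 * m) ∣ 2 * Nat.card G := by
    rw [pow_mul, hc]
    exact (pow_dvd_prod fun i _ => eight_dvd ho).trans (Dvd.intro_left _ rfl)
  have h5 : 2 ^ (3 * m - 1) ∣ Nat.card G := by
    rw [show 3 * m = (3 * m - 1) + 1 by omega, pow_succ, mul_comm] at h3
    exact Nat.dvd_of_mul_dvd_mul_left (by norm_num) h3
  have := le_of_two_pow h5 H.h2
  omega

theorem dvd_orth {d a b c r : ℕ} (h : d * c = a * b * r) (hd : d ∣ b) (hpos : 0 < d) : r ∣ c := by
  obtain ⟨x, rfl⟩ := hd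
  have h1 : d * c = d * (a * x * r) := by rw [h]; ring
  have h2 := Nat.eq_of_mul_eq_mul_left hpos h1
  rw [h2]
  exact Dvd.intro_left _ rfl

theorem oplus (H : Hyp w k G) {F : Type} [Field F] [Fintype F] {m : ℕ} (hm : 4 ≤ m)
    (e : G ≃* POmega F (quadFormPlus m F)) : Case w k G := by
  have hc := S0293.result (F := F) rfl m hm
  rw [← Nat.card_congr e.toEquiv] at hc
  by_cases ho : Odd (Fintype.card F)
  · have hr := hasRep_pomega ho e
    rw [Fintype.card_sum, Fintype.card_fin] at hr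
    refine Case.cls (m + m) (H.bound hr) ?_
    have h3 : 2 ^ (3 * (m - 1)) ∣ Nat.card G := by
      rw [pow_mul]
      exact (pow_dvd_prod fun i _ => eight_dvd ho).trans
        (dvd_orth hc (Nat.gcd_dvd_right _ _) (Nat.gcd_pos_of_pos_left _ (by norm_num)))
    have := le_of_two_pow h3 H.h2
    omega
  · obtain ⟨f, hf, he⟩ := card_two_pow ho
    refine Case.oplus m f hm ⟨F, inferInstance, inferInstance, he, ⟨e⟩⟩ ?_
    have hev : Even (2 ^ f) := even_two_pow hf
    rw [he, mul_assoc] at hc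
    have ho1 : Odd ((2 ^ f) ^ m - 1) := odd_sub hev (by positivity) (by omega)
    exact even_case hc (odd_gcd_mul (q := m) ho1).1
      (ho1.mul (odd_prod fun i _ => odd_sub hev (by positivity) (by omega))) H.h1 H.h2

theorem ominus (H : Hyp w k G) {F : Type} [Field F] [Fintype F] {m : ℕ} (hm : 4 ≤ m) {a b : F}
    (hab : ∀ z₁ z₂ : F, z₁ ^ 2 + a * z₁ * z₂ + b * z₂ ^ 2 = 0 → z₁ = 0 ∧ z₂ = 0)
    (e : G ≃* POmega F (quadFormMinus (m - 1) F a b)) : Case w k G := by
  have hc := S0294.result (F := F) rfl m hm a b hab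
  rw [← Nat.card_congr e.toEquiv] at hc
  by_cases ho : Odd (Fintype.card F)
  · have hr := hasRep_pomega ho e
    rw [Fintype.card_sum, Fintype.card_sum, Fintype.card_fin, Fintype.card_fin] at hr
    refine Case.cls (m - 1 + (m - 1) + 2) (H.bound hr) ?_
    have h3 : 2 ^ (3 * (m - 1)) ∣ Nat.card G := by
      rw [pow_mul]
      exact (pow_dvd_prod fun i _ => eight_dvd ho).trans
        (dvd_orth hc (Nat.gcd_dvd_right _ _) (Nat.gcd_pos_of_pos_left _ (by norm_num)))
    have := le_of_two_pow h3 H.h2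
    omega
  · obtain ⟨f, hf, he⟩ := card_two_pow ho
    refine Case.ominus m f hm ⟨F, inferInstance, inferInstance, a, b, he, hab, ⟨e⟩⟩ ?_
    have hev : Even (2 ^ f) := even_two_pow hf
    rw [he, mul_assoc] at hc
    have ho1 : Odd ((2 ^ f) ^ m + 1) := odd_add hev (by omega)
    exact even_case hc (odd_gcd_mul (q := m) ho1).1
      (ho1.mul (odd_prod fun i _ => odd_sub hev (by positivity) (by omega))) H.h1 H.h2

/-! ### exceptional groups -/

theorem exc_of (H : Hyp w k G) {n : Type} [Fintype n] [DecidableEq n] {F : Type} [Field F] [Fintype F]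
    (ho : Odd (Fintype.card F)) (A : Subgroup (GL n F)) (e : G ≃* A) (hn : Fintype.card n ≤ 248) : Case w k G :=
  Case.exc (H.bound ((hasRep_GL (two_ne ho) A e).mono hn))

theorem card_idx (D : Lie.ChevalleyDatum) : Fintype.card D.Idx = D.rank + D.nroots := by
  rw [Fintype.card_sum, Fintype.card_fin, Fintype.card_fin]

theorem g2 (T : OrderTable.{u}) (H : Hyp w k G) {F : Type} [Field F] [Fintype F] (e : G ≃* Lie.chevG2.group F) :
    Case w k G := by
  by_cases ho : Odd (Fintype.card F)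
  · exact exc_of H ho _ e (by rw [card_idx]; show 2 + 12 ≤ 248; norm_num)
  · obtain ⟨f, hf, he⟩ := card_two_pow ho
    refine Case.g2 f ⟨F, inferInstance, inferInstance, he, ⟨e⟩⟩ ?_
    have hev : Even (2 ^ f) := even_two_pow hf
    have hc := T.g2 F
    rw [← Nat.card_congr e.toEquiv, he, mul_assoc] at hc
    exact even_case ((one_mul _).trans hc) odd_one
      ((odd_sub hev (by positivity) (by norm_num)).mul (odd_sub hev (by positivity) (by norm_num))) H.h1 H.h2

theorem f4 (T : OrderTable.{u}) (H : Hyp w k G) {F : Type} [Field F] [Fintype F] (e : G ≃* Lie.chevF4.group F) :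
    Case w k G := by
  by_cases ho : Odd (Fintype.card F)
  · exact exc_of H ho _ e (by rw [card_idx]; show 4 + 48 ≤ 248; norm_num)
  · obtain ⟨f, hf, he⟩ := card_two_pow ho
    refine Case.f4 f ⟨F, inferInstance, inferInstance, he, ⟨e⟩⟩ ?_
    have hev : Even (2 ^ f) := even_two_pow hf
    have hs : ∀ j, j ≠ 0 → Odd ((2 ^ f) ^ j - 1) := fun j hj => odd_sub hev (by positivity) hj
    have hc := T.f4 F _ he
    rw [← Nat.card_congr e.toEquiv] at hc
    simp only [mul_assoc] at hc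
    exact even_case ((one_mul _).trans hc) odd_one
      ((hs 2 (by norm_num)).mul ((hs 6 (by norm_num)).mul ((hs 8 (by norm_num)).mul (hs 12 (by norm_num)))))
      H.h1 H.h2

theorem e6 (T : OrderTable.{u}) (H : Hyp w k G) {F : Type} [Field F] [Fintype F] (e : G ≃* Lie.chevE6.group F) :
    Case w k G := by
  by_cases ho : Odd (Fintype.card F)
  · exact exc_of H ho _ e (by rw [card_idx]; show 6 + 72 ≤ 248; norm_num)
  · obtain ⟨f, hf, he⟩ := card_two_pow ho
    refine Case.e6 f ⟨F, inferInstance, inferInstance, he, ⟨e⟩⟩ ?_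
    have hev : Even (2 ^ f) := even_two_pow hf
    have hs : ∀ j, j ≠ 0 → Odd ((2 ^ f) ^ j - 1) := fun j hj => odd_sub hev (by positivity) hj
    have hc := T.e6 F _ he
    rw [← Nat.card_congr e.toEquiv] at hc
    simp only [mul_assoc] at hc
    have ho1 : Odd (2 ^ f - 1) := by
      have := hs 1 one_ne_zero
      rwa [pow_one] at this
    exact even_case hc (odd_gcd_mul (q := 3) ho1).1
      ((hs 2 (by norm_num)).mul ((hs 5 (by norm_num)).mul ((hs 6 (by norm_num)).mul ((hs 8 (by norm_num)).mul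
        ((hs 9 (by norm_num)).mul (hs 12 (by norm_num))))))) H.h1 H.h2

theorem e7 (T : OrderTable.{u}) (H : Hyp w k G) {F : Type} [Field F] [Fintype F] (e : G ≃* Lie.chevE7.group F) :
    Case w k G := by
  by_cases ho : Odd (Fintype.card F)
  · exact exc_of H ho _ e (by rw [card_idx]; show 7 + 126 ≤ 248; norm_num)
  · obtain ⟨f, hf, he⟩ := card_two_pow ho
    refine Case.e7 f ⟨F, inferInstance, inferInstance, he, ⟨e⟩⟩ ?_
    have hev : Even (2 ^ f) := even_two_pow hf
    have hs : ∀ j, j ≠ 0 → Odd ((2 ^ f) ^ j - 1) := fun j hj => odd_sub hev (by positivity) hj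
    have hc := T.e7 F _ he
    rw [← Nat.card_congr e.toEquiv] at hc
    simp only [mul_assoc] at hc
    have ho1 : Odd (2 ^ f - 1) := by
      have := hs 1 one_ne_zero
      rwa [pow_one] at this
    exact even_case hc (odd_gcd_mul (q := 2) ho1).1
      ((hs 2 (by norm_num)).mul ((hs 6 (by norm_num)).mul ((hs 8 (by norm_num)).mul ((hs 10 (by norm_num)).mul
        ((hs 12 (by norm_num)).mul ((hs 14 (by norm_num)).mul (hs 18 (by norm_num)))))))) H.h1 H.h2

theorem e8 (T : OrderTable.{u}) (H : Hyp w k G) {F : Type} [Field F] [Fintype F] (e : G ≃* Lie.chevE8.group F) :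
    Case w k G := by
  by_cases ho : Odd (Fintype.card F)
  · exact exc_of H ho _ e (by rw [card_idx]; show 8 + 240 ≤ 248; norm_num)
  · obtain ⟨f, hf, he⟩ := card_two_pow ho
    refine Case.e8 f ⟨F, inferInstance, inferInstance, he, ⟨e⟩⟩ ?_
    have hev : Even (2 ^ f) := even_two_pow hf
    have hs : ∀ j, j ≠ 0 → Odd ((2 ^ f) ^ j - 1) := fun j hj => odd_sub hev (by positivity) hj
    have hc := T.e8 F _ he
    rw [← Nat.card_congr e.toEquiv] at hc
    simp only [mul_assoc] at hc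
    exact even_case ((one_mul _).trans hc) odd_one
      ((hs 2 (by norm_num)).mul ((hs 8 (by norm_num)).mul ((hs 12 (by norm_num)).mul ((hs 14 (by norm_num)).mul
        ((hs 18 (by norm_num)).mul ((hs 20 (by norm_num)).mul ((hs 24 (by norm_num)).mul
          (hs 30 (by norm_num))))))))) H.h1 H.h2

theorem te6 (T : OrderTable.{u}) (H : Hyp w k G) {F : Type} [Field F] [Fintype F] {q : ℕ} (hq : IsPrimePow q)
    (hF : Fintype.card F = q ^ 2) (e : G ≃* Lie.twistedE6 F q) : Case w k G := by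
  by_cases ho : Odd (Fintype.card F)
  · exact exc_of H ho _ e (by rw [card_idx]; show 6 + 72 ≤ 248; norm_num)
  · obtain ⟨f, hf, he⟩ := card_two_pow ho
    obtain ⟨g, hg, rfl⟩ := pow_of_pow two_ne_zero hf (hF ▸ he)
    refine Case.te6 g ⟨F, inferInstance, inferInstance, hF, ⟨e⟩⟩ ?_
    have hev : Even (2 ^ g) := even_two_pow hg
    have hs : ∀ j, j ≠ 0 → Odd ((2 ^ g) ^ j - 1) := fun j hj => odd_sub hev (by positivity) hj
    have ha : ∀ j, j ≠ 0 → Odd ((2 ^ g) ^ j + 1) := fun j hj => odd_add hev hj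
    have hc := T.te6 F _ hq hF
    rw [← Nat.card_congr e.toEquiv] at hc
    simp only [mul_assoc] at hc
    exact even_case hc (odd_gcd_mul (q := 3) hev.add_one).1
      ((hs 2 (by norm_num)).mul ((ha 5 (by norm_num)).mul ((hs 6 (by norm_num)).mul ((hs 8 (by norm_num)).mul
        ((ha 9 (by norm_num)).mul (hs 12 (by norm_num))))))) H.h1 H.h2

theorem td4 (T : OrderTable.{u}) (H : Hyp w k G) {F : Type} [Field F] [Fintype F] {q : ℕ} (hq : IsPrimePow q)
    (hF : Fintype.card F = q ^ 3) (e : G ≃* Lie.twistedD4 F q) : Case w k G := by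
  by_cases ho : Odd (Fintype.card F)
  · exact exc_of H ho _ e (by rw [card_idx]; show 4 + 24 ≤ 248; norm_num)
  · obtain ⟨f, hf, he⟩ := card_two_pow ho
    obtain ⟨g, hg, rfl⟩ := pow_of_pow three_ne_zero hf (hF ▸ he)
    refine Case.td4 g ⟨F, inferInstance, inferInstance, hF, ⟨e⟩⟩ ?_
    have hev : Even (2 ^ g) := even_two_pow hg
    have hs : ∀ j, j ≠ 0 → Odd ((2 ^ g) ^ j - 1) := fun j hj => odd_sub hev (by positivity) hj
    have hc := T.td4 F _ hq hF
    rw [← Nat.card_congr e.toEquiv] at hc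
    simp only [mul_assoc] at hc
    have h8 : Odd ((2 ^ g) ^ 8 + (2 ^ g) ^ 4 + 1) :=
      (((Nat.even_pow).2 ⟨hev, by norm_num⟩).add ((Nat.even_pow).2 ⟨hev, by norm_num⟩)).add_one
    exact even_case ((one_mul _).trans hc) odd_one
      ((hs 2 (by norm_num)).mul ((hs 6 (by norm_num)).mul h8)) H.h1 H.h2

theorem suz (T : OrderTable.{u}) (H : Hyp w k G) {F : Type} [Field F] [Fintype F] {m : ℕ} (hm : 1 ≤ m)
    (hF : Fintype.card F = 2 ^ (2 * m + 1)) (e : G ≃* Lie.Sz F (2 ^ (m + 1))) : Case w k G := by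
  refine Case.sz (2 * m + 1) ⟨F, inferInstance, inferInstance, m, hm, hF, rfl, ⟨e⟩⟩ ?_
  have hev : Even (2 ^ (2 * m + 1)) := even_two_pow (by omega)
  have hc := T.sz F m hm hF
  rw [← Nat.card_congr e.toEquiv, mul_assoc] at hc
  have ho1 : Odd (2 ^ (2 * m + 1) - 1) := by
    have := odd_sub (k := 1) hev (by positivity) one_ne_zero
    rwa [pow_one] at this
  exact even_case ((one_mul _).trans hc) odd_one (ho1.mul (odd_add hev (by norm_num))) H.h1 H.h2

theorem tf4 (T : OrderTable.{u}) (H : Hyp w k G) {F : Type} [Field F] [Fintype F] {m : ℕ} (hm : 1 ≤ m)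
    (hF : Fintype.card F = 2 ^ (2 * m + 1)) (e : G ≃* Lie.twistedF4 F (2 ^ m)) : Case w k G := by
  refine Case.tf4 (2 * m + 1) ⟨F, inferInstance, inferInstance, m, hm, hF, rfl, ⟨e⟩⟩ ?_
  have hev : Even (2 ^ (2 * m + 1)) := even_two_pow (by omega)
  have hs : ∀ j, j ≠ 0 → Odd ((2 ^ (2 * m + 1)) ^ j - 1) := fun j hj => odd_sub hev (by positivity) hj
  have ha : ∀ j, j ≠ 0 → Odd ((2 ^ (2 * m + 1)) ^ j + 1) := fun j hj => odd_add hev hj
  have hc := T.tf4 F m hm hF
  rw [← Nat.card_congr e.toEquiv] at hc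
  simp only [mul_assoc] at hc
  have ho1 : Odd (2 ^ (2 * m + 1) - 1) := by
    have := hs 1 one_ne_zero
    rwa [pow_one] at this
  exact even_case ((one_mul _).trans hc) odd_one
    (ho1.mul ((ha 3 (by norm_num)).mul ((hs 4 (by norm_num)).mul (ha 6 (by norm_num))))) H.h1 H.h2

theorem ree (H : Hyp w k G) {F : Type} [Field F] [Fintype F] {m : ℕ}
    (hF : Fintype.card F = 3 ^ (2 * m + 1)) (e : G ≃* Lie.twistedG2 F (3 ^ m)) : Case w k G := by
  have ho : Odd (Fintype.card F) := by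
    rw [hF]
    exact Odd.pow (by decide)
  exact exc_of H ho _ e (by rw [card_idx]; show 2 + 12 ≤ 248; norm_num)

/-- **The engine.** -/
theorem engine (T : OrderTable.{u}) (hk : IsKnownSimple' G) (hna : ¬ IsMulCommutative G) (H : Hyp w k G) :
    Case w k G := by
  have key : ∀ (g : Grp), g ∈ spor.map (fun x => x.1) → Real g G → Case w k G := fun g hg hr => by
    obtain ⟨x, hx, rfl⟩ := List.mem_map.1 hg
    exact Case.spor x hx hr (T.spor G x hx hr)
  rcases hk with h | h | h | h | h | h | h | h | h | h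
  · exfalso
    have : Fact (Nat.card G).Prime := ⟨h⟩
    have : IsCyclic G := isCyclic_of_prime_card (p := Nat.card G) rfl
    exact hna (IsCyclic.isMulCommutative (α := G))
  · obtain ⟨n, hn, ⟨e⟩⟩ := h
    exact Case.alt n hn ⟨e⟩ (H.bound (hasRep_alt e))
  · obtain ⟨F, _, _, n, hn, -, ⟨e⟩⟩ := h
    exact psl H hn e
  · obtain ⟨F, _, _, n, hn, -, ⟨e⟩⟩ := h
    exact psp H hn e
  · obtain ⟨F, _, _, n, q, hF, hn, -, ⟨e⟩⟩ := h
    exact psu H hF hn e
  · obtain ⟨F, _, _, n, hn, ho, ⟨e⟩⟩ := h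
    exact oodd H hn ho e
  · obtain ⟨F, _, _, n, hn, ⟨e⟩⟩ := h
    exact oplus H hn e
  · obtain ⟨F, _, _, n, a, b, hn, hab, ⟨e⟩⟩ := h
    exact ominus H hn hab e
  · rcases h with h | h | h | h | h | h | h | h | h | h | h
    · obtain ⟨F, _, _, -, ⟨e⟩⟩ := h
      exact g2 T H e
    · obtain ⟨F, _, _, ⟨e⟩⟩ := h
      exact f4 T H e
    · obtain ⟨F, _, _, ⟨e⟩⟩ := h
      exact e6 T H e
    · obtain ⟨F, _, _, ⟨e⟩⟩ := h
      exact e7 T H e
    · obtain ⟨F, _, _, ⟨e⟩⟩ := h
      exact e8 T H e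
    · obtain ⟨F, _, _, q, hq, hF, ⟨e⟩⟩ := h
      exact te6 T H hq hF e
    · obtain ⟨F, _, _, q, hq, hF, ⟨e⟩⟩ := h
      exact td4 T H hq hF e
    · obtain ⟨F, _, _, m, hm, hF, ⟨e⟩⟩ := h
      exact suz T H hm hF e
    · obtain ⟨F, _, _, m, hm, hF, ⟨e⟩⟩ := h
      exact ree H hF e
    · obtain ⟨F, _, _, m, hm, hF, ⟨e⟩⟩ := h
      exact tf4 T H hm hF e
    · exact key .tits (by decide) h
  · rcases h with h | h | h | h | h | h | h | h | h | h | h | h | h | h | h | h | h | h | h | h | h | h | h | h | h | h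
    · exact key .m11 (by decide) h
    · exact key .m12 (by decide) h
    · exact key .m22 (by decide) h
    · exact key .m23 (by decide) h
    · exact key .m24 (by decide) h
    · exact key .j1 (by decide) h
    · exact key .j2 (by decide) h
    · exact key .j3 (by decide) h
    · exact key .j4 (by decide) h
    · exact key .co1 (by decide) h
    · exact key .co2 (by decide) h
    · exact key .co3 (by decide) h
    · exact key .mcl (by decide) h
    · exact key .hs (by decide) h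
    · exact key .suz (by decide) h
    · exact key .he (by decide) h
    · exact key .ru (by decide) h
    · exact key .on (by decide) h
    · exact key .ly (by decide) h
    · exact key .fi22 (by decide) h
    · exact key .fi23 (by decide) h
    · exact key .fi24 (by decide) h
    · exact key .hn (by decide) h
    · exact key .th (by decide) h
    · exact key .b (by decide) h
    · exact key .m (by decide) h

end

end Cfsg.Agent.H861.ExtraEngine
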