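import Cfsg.Agent.KFacts.MM.OutAut
import Cfsg.Agent.SporadicA.MathieuRecog

/-!
# From `C/N ≅ Aut(M22)`, `N/Q` of order 3 not complemented in `C/Q`, to `2^{1+12}.(3·M22).2`
-/

set_option autoImplicit false

namespace Cfsg.Agent.H861.JFour

open Subgroup Cfsg Cfsg.Agent.J4Type.Aut22 Cfsg.Agent.KFacts.MM.OutI

/-- A group of order 3 has abelian automorphism group. -/
theorem mulAut_comm {A : Type*} [Group A] (h : Nat.card A = 3) (a b : MulAut A) : a * b = b * a := by
  have : Fact (Nat.Prime 3) := ⟨Nat.prime_three⟩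
  have : IsCyclic A := isCyclic_of_prime_card h
  have : Finite A := Nat.finite_of_card_ne_zero (by rw [h]; norm_num)
  have e := IsCyclic.mulAutMulEquiv A
  apply e.injective
  rw [map_mul, map_mul, mul_comm]

/-- The commutator subgroup of a subgroup centralises a normal subgroup of order 3. -/
theorem comm_le_centralizer {A : Type*} [Group A] (T M : Subgroup A) [T.Normal] (h : Nat.card T = 3) :
    ⁅M, M⁆ ≤ centralizer (T : Set A) := by
  have h1 : ⁅(⊤ : Subgroup A), (⊤ : Subgroup A)⁆ ≤ (MulAut.conjNormal (H := T)).ker := by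
    rw [commutator_le]
    intro a _ b _
    rw [MonoidHom.mem_ker, map_commutatorElement, commutatorElement_eq_one_iff_mul_comm]
    exact mulAut_comm h _ _
  intro x hx
  have h2 : x ∈ (MulAut.conjNormal (H := T)).ker := h1 (commutator_mono le_top le_top hx)
  rw [mem_centralizer_iff]
  intro t ht
  have h3 : MulAut.conjNormal x (⟨t, ht⟩ : T) = ⟨t, ht⟩ := by
    rw [MonoidHom.mem_ker.1 h2]; rfl
  have h4 : x * t * x⁻¹ = t := by
    have := congrArg Subtype.val h3
    rwa [MulAut.conjNormal_apply] at this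
  rw [mul_inv_eq_iff_eq_mul] at h4
  exact h4.symm

theorem index_six {A : Type*} [Group A] (T M D : Subgroup A) [T.Normal] [D.Normal] (hDTM : D ⊔ T = M)
    (hDT : D ⊓ T = ⊥) (hT : Nat.card T = 3) (hM : M.index = 2) : D.index = 6 := by
  have hDM : D ≤ M := hDTM ▸ le_sup_left
  have h1 := relIndex_mul_index hDM
  have h2 : D.relIndex M = 3 := by
    rw [← hDTM, relIndex_sup_left, ← inf_relIndex_right, hDT, relIndex_bot_left, hT]
  rw [← h1, h2, hM]

theorem exists_compl {A : Type*} [Group A] [Finite A] (T M D : Subgroup A) [T.Normal] [D.Normal] (hDTM : D ⊔ T = M)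
    (hDT : D ⊓ T = ⊥) (hT : Nat.card T = 3) (hM : M.index = 2) :
    ∃ K : Subgroup A, K ⊓ T = ⊥ ∧ K ⊔ T = ⊤ := by
  have h6 := index_six T M D hDTM hDT hT hM
  have : Fact (Nat.Prime 2) := ⟨Nat.prime_two⟩
  have hc : Nat.card (A ⧸ D) = 6 := h6
  obtain ⟨x, hx⟩ := exists_prime_orderOf_dvd_card' (G := A ⧸ D) 2 (by rw [hc]; norm_num)
  refine ⟨(zpowers x).comap (QuotientGroup.mk' D), ?_, ?_⟩
  · rw [eq_bot_iff]
    intro t ht
    obtain ⟨ht1, ht2⟩ := mem_inf.1 ht
    rw [mem_comap] at ht1
    have h3 : t ^ 3 = 1 := by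
      have := pow_card_eq_one' (x := (⟨t, ht2⟩ : T))
      rw [hT] at this
      exact congrArg Subtype.val this
    have h2 : (QuotientGroup.mk' D t) ^ 2 = 1 := by
      obtain ⟨n, hn⟩ := mem_zpowers_iff.1 ht1
      rw [← hn, ← zpow_natCast, ← zpow_mul, mul_comm, zpow_mul, zpow_natCast, ← hx, pow_orderOf_eq_one, one_zpow]
    have h3' : (QuotientGroup.mk' D t) ^ 3 = 1 := by rw [← map_pow, h3, map_one]
    have h1 : QuotientGroup.mk' D t = 1 := by
      rw [pow_succ, h2, one_mul] at h3'
      exact h3'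
    have h4 : t ∈ D := (QuotientGroup.eq_one_iff t).1 h1
    exact hDT ▸ mem_inf.2 ⟨h4, ht2⟩
  · rw [← index_eq_one]
    set K := (zpowers x).comap (QuotientGroup.mk' D) with hK
    have hKi : K.index = 3 := by
      have h1 : K.index = (zpowers x).index := index_comap_of_surjective _ (QuotientGroup.mk'_surjective D)
      have h2 := card_mul_index (zpowers x)
      rw [Nat.card_zpowers, hx, hc] at h2
      omega
    have hDK : D ≤ K := by
      intro d hd
      rw [hK, mem_comap]
      have : QuotientGroup.mk' D d = 1 := (QuotientGroup.eq_one_iff d).2 hd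
      rw [this]; exact one_mem _
    have h1 : (K ⊔ T).index ∣ 3 := hKi ▸ index_dvd_of_le le_sup_left
    have h2 : (K ⊔ T).index ∣ 2 := by
      rw [← hM, ← hDTM]
      exact index_dvd_of_le (sup_le_sup_right hDK T)
    have h3 := Nat.dvd_gcd h1 h2
    norm_num at h3
    exact index_eq_one.2 h3

/-- The heart, modulo `Q`. -/
theorem key_bar {A : Type*} [Group A] [Finite A] (T M : Subgroup A) [T.Normal] [M.Normal] (hTM : T ≤ M)
    (hT : Nat.card T = 3) (hM : M.index = 2) (hp : M ≤ ⁅M, M⁆ ⊔ T)
    (hns : ∀ K : Subgroup A, K ⊓ T = ⊥ → K ⊔ T = ⊤ → False) :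
    ⁅M, T⁆ = ⊥ ∧ M ≤ ⁅M, M⁆ := by
  have hD : ⁅M, M⁆ ≤ centralizer (T : Set A) := comm_le_centralizer T M hT
  have : Fact (Nat.Prime 3) := ⟨Nat.prime_three⟩
  have : IsCyclic T := isCyclic_of_prime_card hT
  have hTT : T ≤ centralizer (T : Set A) := by
    intro x hx
    rw [mem_centralizer_iff]
    intro t ht
    have h := (IsCyclic.commGroup (α := T)).mul_comm (⟨t, ht⟩ : T) ⟨x, hx⟩
    exact congrArg Subtype.val h
  have hMT : M ≤ centralizer (T : Set A) := hp.trans (sup_le hD hTT)
  refine ⟨?_, ?_⟩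
  · rw [commutator_eq_bot_iff_le_centralizer]
    exact hMT
  · by_cases hle : T ≤ ⁅M, M⁆
    · exact hp.trans (sup_le le_rfl hle)
    · exfalso
      have hDn : (⁅M, M⁆ : Subgroup A).Normal := commutator_normal M M
      have hDM : ⁅M, M⁆ ≤ M := commutator_le_left M M
      have hDT : ⁅M, M⁆ ⊓ T = ⊥ := by
        have h1 : Nat.card (⁅M, M⁆ ⊓ T : Subgroup A) ∣ Nat.card T := card_dvd_of_le inf_le_right
        rw [hT, Nat.dvd_prime Nat.prime_three] at h1
        rcases h1 with h1 | h1
        · exact card_eq_one.1 h1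
        · exfalso
          have h2 : ⁅M, M⁆ ⊓ T = T := eq_of_le_of_card_ge inf_le_right (by rw [h1, hT])
          exact hle (h2 ▸ inf_le_left)
      have hDTM : ⁅M, M⁆ ⊔ T = M := le_antisymm (sup_le hDM hTM) hp
      obtain ⟨K, hK1, hK2⟩ := exists_compl T M ⁅M, M⁆ hDTM hDT hT hM
      exact hns K hK1 hK2


theorem not_comm : ¬ IsMulCommutative Spor.M22 := by
  intro h
  have hs : IsSimpleGroup Spor.M22 := Cfsg.Agent.SporadicA.MathieuRecog.simple_M22
  have hc := Cfsg.Agent.SporadicA.MathieuRecog.card_M22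
  have hf : Finite Spor.M22 := Nat.finite_of_card_ne_zero (by rw [hc]; norm_num)
  let _ : CommGroup Spor.M22 := { (inferInstance : Group Spor.M22) with mul_comm := h.1.1 }
  have hp := IsSimpleGroup.prime_card (α := Spor.M22)
  rw [hc] at hp
  exact absurd hp (by norm_num)

/-- The statement for `Q ≤ N ⊴ C` and a homomorphism to `Aut(M22)` (as permutations of the 24 points). -/
theorem main {C : Type*} [Group C] [Finite C] (Q N : Subgroup C) [Q.Normal] [N.Normal] (hQN : Q ≤ N)
    (hN3 : Nat.card N = 3 * Nat.card Q) (hns : ∀ K : Subgroup C, K ⊓ N = Q → K ⊔ N = ⊤ → False)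
    (f : C →* Equiv.Perm GolayPt) (hr : f.range = D22) (hk : f.ker = N) :
    N ≤ (Spor.M22).comap f ∧ ((Spor.M22).comap f).index = 2 ∧ ⁅(Spor.M22).comap f, N⁆ ≤ Q ∧
      (Spor.M22).comap f ≤ ⁅(Spor.M22).comap f, (Spor.M22).comap f⁆ ⊔ Q ∧
      Spor.IsoM22 (↥((Spor.M22).comap f) ⧸ N.subgroupOf ((Spor.M22).comap f)) := by
  set M : Subgroup C := (Spor.M22).comap f with hMdef
  have hNM : N ≤ M := by
    intro x hx
    rw [hMdef, mem_comap]
    rw [← hk, MonoidHom.mem_ker] at hx
    rw [hx]
    exact one_mem _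
  have hidx : M.index = 2 := idx hr
  have hMn : M.Normal := normal_of_index_eq_two hidx
  have hQM : Q ≤ M := hQN.trans hNM
  -- `M/N ≅ M22`
  have hmap : M.map f = Spor.M22 := by
    rw [hMdef, map_comap_eq, hr]
    exact inf_eq_right.2 M22_le_D22
  have hsimple : IsSimpleGroup Spor.M22 := Cfsg.Agent.SporadicA.MathieuRecog.simple_M22
  -- `M = [M, M] N`
  have hperf0 : ⁅(Spor.M22 : Subgroup (Equiv.Perm GolayPt)), Spor.M22⁆ = Spor.M22 := by
    have h1 : commutator Spor.M22 = ⊤ := by
      rcases (inferInstance : (commutator Spor.M22).Normal).eq_bot_or_eq_top with h | h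
      · exfalso
        have h5 : Subgroup.center Spor.M22 = ⊤ := by
          rw [eq_top_iff]
          intro x _
          rw [mem_center_iff]
          intro y
          have h6 := commutator_mem_commutator (mem_top y) (mem_top x)
          rw [← _root_.commutator_def, h, mem_bot] at h6
          exact commutatorElement_eq_one_iff_mul_comm.1 h6
        have h8 : IsMulCommutative Spor.M22 := ⟨⟨fun a b => (mem_center_iff.1 (h5 ▸ mem_top b) a)⟩⟩
        exact not_comm h8
      · exact h
    have h2 := congrArg (Subgroup.map (Spor.M22).subtype) h1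
    rw [_root_.commutator_def, map_commutator, ← MonoidHom.range_eq_map, range_subtype] at h2
    exact h2
  have hMN : M ≤ ⁅M, M⁆ ⊔ N := by
    have h1 : (⁅M, M⁆).map f = Spor.M22 := by rw [map_commutator, hmap, hperf0]
    intro m hm
    have h2 : f m ∈ (⁅M, M⁆).map f := by rw [h1]; exact hm
    obtain ⟨c, hc, hcm⟩ := h2
    have h3 : c⁻¹ * m ∈ N := by
      rw [← hk, MonoidHom.mem_ker, map_mul, map_inv, hcm, inv_mul_cancel]
    have h4 : m = c * (c⁻¹ * m) := by group
    rw [h4]
    exact mul_mem (mem_sup_left hc) (mem_sup_right h3)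
  -- pass to `C/Q`
  let π : C →* C ⧸ Q := QuotientGroup.mk' Q
  have hπ : Function.Surjective π := QuotientGroup.mk'_surjective Q
  have hπk : π.ker = Q := QuotientGroup.ker_mk' Q
  have hTn : (N.map π).Normal := Normal.map inferInstance π hπ
  have hM'n : (M.map π).Normal := Normal.map hMn π hπ
  have hT : Nat.card (N.map π) = 3 := by
    have h1 : Nat.card (N.map π) * Nat.card Q = Nat.card N := by
      have h3 := card_mul_index (π.comp N.subtype).ker
      rw [index_ker, mul_comm] at h3
      have h4 : (π.comp N.subtype).ker = Q.subgroupOf N := by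
        ext x
        rw [MonoidHom.mem_ker, mem_subgroupOf]
        exact QuotientGroup.eq_one_iff (x : C)
      have h5 : (π.comp N.subtype).range = N.map π := by
        rw [MonoidHom.range_comp, range_subtype]
      rw [h4, h5] at h3
      rw [← h3]
      congr 1
      exact (Nat.card_congr (subgroupOfEquivOfLe hQN).toEquiv).symm
    have h2 : 0 < Nat.card Q := Nat.card_pos
    rw [hN3] at h1
    exact Nat.eq_of_mul_eq_mul_right h2 h1
  have hcm : ∀ H : Subgroup C, Q ≤ H → (H.map π).comap π = H := by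
    intro H hH
    rw [comap_map_eq, hπk, sup_eq_left.2 hH]
  have hidx' : (M.map π).index = 2 := by
    rw [← index_comap_of_surjective (M.map π) hπ, hcm M hQM, hidx]
  have hp' : M.map π ≤ ⁅M.map π, M.map π⁆ ⊔ N.map π := by
    rw [← map_commutator, ← Subgroup.map_sup]
    exact map_mono hMN
  have hns' : ∀ K : Subgroup (C ⧸ Q), K ⊓ N.map π = ⊥ → K ⊔ N.map π = ⊤ → False := by
    intro K h1 h2
    apply hns (K.comap π)
    · have h3 := congrArg (Subgroup.comap π) h1
      rw [comap_inf, hcm N hQN, MonoidHom.comap_bot, hπk] at h3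
      exact h3
    · have h3 : (K.comap π ⊔ N).map π = ⊤ := by
        rw [Subgroup.map_sup, map_comap_eq_self_of_surjective hπ, h2]
      have h4 := congrArg (Subgroup.comap π) h3
      rw [hcm _ (hQN.trans le_sup_right), comap_top] at h4
      exact h4
  obtain ⟨k1, k2⟩ := key_bar (N.map π) (M.map π) (map_mono hNM) hT hidx' hp' hns'
  refine ⟨hNM, hidx, ?_, ?_, ?_⟩
  · rw [← map_commutator, Subgroup.map_eq_bot_iff, hπk] at k1
    exact k1
  · rw [← map_commutator] at k2
    have h1 := comap_mono (f := π) k2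
    rw [hcm M hQM, comap_map_eq, hπk] at h1
    exact h1
  · let g : M →* Spor.M22 := (f.comp M.subtype).codRestrict Spor.M22 (fun m => m.2)
    have hg : Function.Surjective g := by
      intro y
      have h1 : (y : Equiv.Perm GolayPt) ∈ M.map f := by rw [hmap]; exact y.2
      obtain ⟨m, hm, hmy⟩ := h1
      exact ⟨⟨m, hm⟩, Subtype.ext hmy⟩
    have hgk : g.ker = N.subgroupOf M := by
      ext m
      rw [MonoidHom.mem_ker, mem_subgroupOf, ← hk, MonoidHom.mem_ker, Subtype.ext_iff]
      rfl
    exact ⟨(QuotientGroup.quotientMulEquivOfEq hgk.symm).trans (QuotientGroup.quotientKerEquivOfSurjective g hg)⟩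

end Cfsg.Agent.H861.JFour
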