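import Mathlib

/-!
# The 2-part of the orders of the classical groups: arithmetic
-/

set_option autoImplicit false

namespace Cfsg.Agent.H861.TwoArith

open Finset

/-- In characteristic two the 2-part of the order is the power of `q`. -/
theorem even_case {d c r N f k : ℕ} (h : d * c = (2 ^ f) ^ N * r) (hd : Odd d) (hr : Odd r)
    (h1 : 2 ^ k ∣ c) (h2 : ¬ 2 ^ (k + 1) ∣ c) : f * N = k := by
  rw [← pow_mul] at h
  have hcd : Nat.Coprime (2 ^ (f * N)) d := Nat.Coprime.pow_left _ (Nat.coprime_two_left.2 hd)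
  have h3 : 2 ^ (f * N) ∣ c := hcd.dvd_of_dvd_mul_left (Dvd.intro _ h.symm)
  have h4 : f * N ≤ k := by
    by_contra hcon
    exact h2 ((pow_dvd_pow 2 (by omega)).trans h3)
  have h5 : 2 ^ k ∣ 2 ^ (f * N) * r := h ▸ (h1.mul_left d)
  have hcr : Nat.Coprime (2 ^ k) r := Nat.Coprime.pow_left _ (Nat.coprime_two_left.2 hr)
  have h6 : 2 ^ k ∣ 2 ^ (f * N) := hcr.dvd_of_dvd_mul_right h5
  have h7 := (Nat.pow_dvd_pow_iff_le_right (by norm_num : 1 < 2)).1 h6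
  omega

/-- `∏ (q ^ n - q ^ i) = q ^ (n (n - 1) / 2) ∏ (q ^ (i + 1) - 1)` -/
theorem gl_prod (n q : ℕ) : ∏ i : Fin n, (q ^ n - q ^ (i : ℕ)) =
    q ^ (n * (n - 1) / 2) * ∏ i ∈ range n, (q ^ (i + 1) - 1) := by
  rw [Fin.prod_univ_eq_prod_range (fun i => q ^ n - q ^ i) n]
  have h1 : ∏ i ∈ range n, (q ^ n - q ^ i) = ∏ i ∈ range n, (q ^ i * (q ^ (n - 1 - i + 1) - 1)) := by
    apply prod_congr rfl
    intro i hi
    rw [mem_range] at hi
    rw [Nat.mul_sub, mul_one, ← pow_add]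
    congr 2
    omega
  rw [h1, prod_mul_distrib, prod_pow_eq_pow_sum, sum_range_id,
    prod_range_reflect (fun i => q ^ (i + 1) - 1) n]

theorem odd_sub {q k : ℕ} (hq : Even q) (hq0 : 0 < q) (hk : k ≠ 0) : Odd (q ^ k - 1) := by
  apply Nat.Even.sub_odd (Nat.one_le_pow _ _ hq0) _ odd_one
  exact (Nat.even_pow).2 ⟨hq, hk⟩

theorem odd_add {q k : ℕ} (hq : Even q) (hk : k ≠ 0) : Odd (q ^ k + 1) :=
  ((Nat.even_pow).2 ⟨hq, hk⟩).add_one

theorem even_sub {q k : ℕ} (hq : Odd q) : 2 ∣ q ^ k - 1 := by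
  have := hq.pow (n := k)
  rw [Nat.odd_iff] at this
  omega

theorem even_add {q k : ℕ} (hq : Odd q) : 2 ∣ q ^ k + 1 := by
  have := hq.pow (n := k)
  rw [Nat.odd_iff] at this
  omega

theorem eight_dvd {q k : ℕ} (hq : Odd q) : 8 ∣ q ^ (2 * (k + 1)) - 1 := by
  have h1 := hq.pow (n := k + 1)
  have h2 := Nat.eight_dvd_sq_sub_one_of_odd h1
  rwa [← pow_mul, mul_comm (k + 1) 2] at h2

theorem pow_dvd_prod {s n : ℕ} {f : ℕ → ℕ} (h : ∀ i < n, s ∣ f i) : s ^ n ∣ ∏ i ∈ range n, f i := by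
  rw [← card_range n, ← prod_const]
  rw [card_range]
  exact prod_dvd_prod_of_dvd _ _ fun i hi => h i (mem_range.1 hi)

/-- `2 ^ (n - 1) (q - 1) ^ 2 ∣ ∏ (q ^ (i + 1) - 1)`, `q` odd -/
theorem prA {q n : ℕ} (hq : Odd q) : 2 ^ (n + 1) * (q - 1) ^ 2 ∣ ∏ i ∈ range (n + 2), (q ^ (i + 1) - 1) := by
  rw [prod_range_succ', prod_range_succ']
  have h1 : 2 ^ n ∣ ∏ k ∈ range n, (q ^ (k + 1 + 1 + 1) - 1) := pow_dvd_prod fun i _ => even_sub hq
  have h2 : 2 * (q - 1) ∣ q ^ (0 + 1 + 1) - 1 := by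
    have h3 : q ^ (0 + 1 + 1) - 1 = (q + 1) * (q - 1) := by
      rw [zero_add, show (1 + 1 : ℕ) = 2 from rfl, ← Nat.sq_sub_sq, one_pow]
    rw [h3]
    exact Nat.mul_dvd_mul_right (by rw [Nat.odd_iff] at hq; omega) _
  have h4 := Nat.mul_dvd_mul (Nat.mul_dvd_mul h1 h2) (dvd_refl (q ^ (0 + 1) - 1))
  refine dvd_trans (dvd_of_eq ?_) h4
  rw [zero_add, pow_one]
  ring

/-- `2 ^ (n - 1) (q + 1) ^ 2 ∣ ∏ (q ^ (i + 1) - (-1) ^ (i + 1))`, `q` odd -/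
theorem prU {q n : ℕ} (hq : Odd q) : 2 ^ (n + 1) * (q + 1) ^ 2 ∣
    ∏ i ∈ range (n + 2), (if Even i then q ^ (i + 1) + 1 else q ^ (i + 1) - 1) := by
  rw [prod_range_succ', prod_range_succ']
  have h1 : 2 ^ n ∣ ∏ k ∈ range n, (if Even (k + 1 + 1) then q ^ (k + 1 + 1 + 1) + 1 else q ^ (k + 1 + 1 + 1) - 1) :=
    pow_dvd_prod fun i _ => by
      split_ifs
      · exact even_add hq
      · exact even_sub hq
  have h2 : 2 * (q + 1) ∣ (if Even (0 + 1) then q ^ (0 + 1 + 1) + 1 else q ^ (0 + 1 + 1) - 1) := by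
    rw [if_neg (by decide)]
    have h3 : q ^ (0 + 1 + 1) - 1 = (q - 1) * (q + 1) := by
      rw [zero_add, show (1 + 1 : ℕ) = 2 from rfl, mul_comm, ← Nat.sq_sub_sq, one_pow]
    rw [h3]
    exact Nat.mul_dvd_mul_right (by rw [Nat.odd_iff] at hq; omega) _
  have h4 := Nat.mul_dvd_mul (Nat.mul_dvd_mul h1 h2) (dvd_refl (if Even 0 then q ^ (0 + 1) + 1 else q ^ (0 + 1) - 1))
  refine dvd_trans (dvd_of_eq ?_) h4
  rw [if_pos (by decide), zero_add, pow_one]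
  ring

/-- cancel the denominator -/
theorem cancel {a b c d e x : ℕ} (h : a * (b * c) = x) (hab : a * b ∣ e) (he : d * e ∣ x) (hpos : 0 < a * b) :
    d ∣ c := by
  obtain ⟨k, rfl⟩ := hab
  rw [← h, ← mul_assoc a b c] at he
  have h1 : (a * b) * (d * k) ∣ (a * b) * c := by
    refine dvd_trans (dvd_of_eq ?_) he
    ring
  exact (Dvd.intro _ rfl).trans (Nat.dvd_of_mul_dvd_mul_left hpos h1)

end Cfsg.Agent.H861.TwoArith
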