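import Cfsg.Agent.H861.ExtraRep
import Cfsg.Agent.H861.TwoArith
import Cfsg.Agent.S0243
import Cfsg.Agent.S0245
import Cfsg.Agent.S0246
import Cfsg.Agent.S0280
import Cfsg.Agent.S0292
import Cfsg.Agent.S0293
import Cfsg.Agent.S0294
import Cfsg.Prelude.Def_Classification2

/-!
# Extraspecial 2-subgroups of the groups of Lie type in odd characteristic and of the alternating groups

`HasRep G d`: a faithful representation of dimension at most `d` in characteristic not two.
`HasRep.bound`: an extraspecial subgroup of order `2 ^ (2 w + 1)` needs `2 ^ w ≤ d`.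
-/

set_option autoImplicit false

namespace Cfsg.Agent.H861.KnownRep

open Subgroup Cfsg Cfsg.Agent.H861.ExtraRep Cfsg.Agent.H861.TwoArith

universe u

/-- `G` has a faithful representation of dimension at most `d` in characteristic not two -/
def HasRep (G : Type u) [Group G] (d : ℕ) : Prop :=
  ∃ (F : Type) (_ : Field F) (V : Type) (_ : AddCommGroup V) (_ : Module F V) (_ : FiniteDimensional F V)
    (ρ : G →* Module.End F V), (2 : F) ≠ 0 ∧ Function.Injective ρ ∧ Module.finrank F V ≤ d

variable {G : Type u} [Group G]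

theorem HasRep.mono {d e : ℕ} (h : HasRep G d) (hde : d ≤ e) : HasRep G e := by
  obtain ⟨F, i1, V, i2, i3, i4, ρ, h2, hρ, hd⟩ := h
  exact ⟨F, i1, V, i2, i3, i4, ρ, h2, hρ, hd.trans hde⟩

theorem HasRep.of_inj {d : ℕ} {H : Type*} [Group H] (h : HasRep H d) (f : G →* H) (hf : Function.Injective f) :
    HasRep G d := by
  obtain ⟨F, i1, V, i2, i3, i4, ρ, h2, hρ, hd⟩ := h
  exact ⟨F, i1, V, i2, i3, i4, ρ.comp f, h2, hρ.comp hf, hd⟩

/-- the bound -/
theorem HasRep.bound {d : ℕ} (h : HasRep G d) (Q : Subgroup G) (hQ : IsExtraspecial 2 Q) {w : ℕ}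
    (hw : Nat.card Q = 2 ^ (2 * w + 1)) : 2 ^ w ≤ d := by
  obtain ⟨F, i1, V, i2, i3, i4, ρ, h2, hρ, hd⟩ := h
  exact (dim_bound hQ hw h2 (ρ.comp Q.subtype) (hρ.comp Q.subtype_injective)).trans hd

/-- matrix groups -/
theorem hasRep_matrix {n : Type} [Fintype n] [DecidableEq n] {F : Type} [Field F] (h2 : (2 : F) ≠ 0)
    (ι : G →* Matrix n n F) (hι : Function.Injective ι) : HasRep G (Fintype.card n) := by
  refine ⟨F, inferInstance, n → F, inferInstance, inferInstance, inferInstance,
    (Matrix.toLinAlgEquiv' (R := F) (n := n)).toMonoidHom.comp ι, h2, ?_, ?_⟩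
  · exact (Matrix.toLinAlgEquiv' (R := F) (n := n)).injective.comp hι
  · rw [Module.finrank_fintype_fun_eq_card]

theorem hasRep_GL {n : Type} [Fintype n] [DecidableEq n] {F : Type} [Field F] (h2 : (2 : F) ≠ 0)
    (H : Subgroup (GL n F)) (e : G ≃* H) : HasRep G (Fintype.card n) :=
  (hasRep_matrix h2 ((Units.coeHom (Matrix n n F)).comp H.subtype)
    (Units.val_injective.comp H.subtype_injective)).of_inj e.toMonoidHom e.injective

/-- projective groups -/
theorem hasRep_proj {n : Type} [Fintype n] [DecidableEq n] {F : Type} [Field F] (h2 : (2 : F) ≠ 0)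
    {H : Type*} [Group H] (ι : H →* Matrix n n F) (hι : Function.Injective ι) (e : G ≃* H ⧸ center H) :
    HasRep G (Fintype.card n ^ 2) := by
  obtain ⟨V, ρ, hρ⟩ := exists_conj_rep ι hι
  refine ⟨F, inferInstance, V, inferInstance, inferInstance, inferInstance, ρ.comp e.toMonoidHom, h2,
    hρ.comp e.injective, ?_⟩
  refine (Submodule.finrank_le V).trans ?_
  rw [Module.finrank_matrix, Module.finrank_self, mul_one, pow_two]

theorem two_ne {F : Type} [Field F] [Fintype F] (h : Odd (Fintype.card F)) : (2 : F) ≠ 0 := by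
  intro e
  have h1 : addOrderOf (1 : F) ∣ 2 := by
    rw [addOrderOf_dvd_iff_nsmul_eq_zero, nsmul_one]
    exact_mod_cast e
  have h2 : addOrderOf (1 : F) ∣ Fintype.card F := addOrderOf_dvd_card
  have h3 := (Nat.dvd_prime Nat.prime_two).1 h1
  rcases h3 with h3 | h3
  · rw [AddMonoid.addOrderOf_eq_one_iff] at h3
    exact one_ne_zero h3
  · rw [h3] at h2
    rw [Nat.odd_iff] at h
    omega

/-! ### alternating groups -/

theorem hasRep_alt {n : ℕ} (e : G ≃* alternatingGroup (Fin n)) : HasRep G n := by
  have h1 : HasRep (Equiv.Perm (Fin n)) n := by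
    let ρ : Equiv.Perm (Fin n) →* Matrix (Fin n) (Fin n) ℚ :=
      { toFun := fun σ => (σ⁻¹).permMatrix ℚ
        map_one' := by rw [inv_one]; simp
        map_mul' := fun a b => by rw [mul_inv_rev, Matrix.permMatrix_mul] }
    have hρ : Function.Injective ρ := by
      intro a b hab
      have h2 : (a⁻¹).permMatrix ℚ = (b⁻¹).permMatrix ℚ := hab
      apply inv_injective
      apply Equiv.ext
      intro i
      have h3 := congrFun (congrFun h2 i) (a⁻¹ i)
      simp only [Equiv.Perm.permMatrix, PEquiv.toMatrix_apply, Equiv.toPEquiv_apply, Option.mem_def,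
        Option.some.injEq, if_true] at h3
      by_contra hcon
      rw [if_neg (fun h => hcon h.symm)] at h3
      exact one_ne_zero h3
    have := hasRep_matrix (F := ℚ) (by norm_num) ρ hρ
    rwa [Fintype.card_fin] at this
  exact h1.of_inj ((alternatingGroup (Fin n)).subtype.comp e.toMonoidHom)
    ((alternatingGroup (Fin n)).subtype_injective.comp e.injective)

/-! ### classical groups -/

theorem hasRep_psl {F : Type} [Field F] [Fintype F] (h : Odd (Fintype.card F)) {n : ℕ}
    (e : G ≃* Matrix.ProjectiveSpecialLinearGroup (Fin n) F) : HasRep G (n ^ 2) := by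
  have := hasRep_proj (two_ne h) (H := Matrix.SpecialLinearGroup (Fin n) F)
    (slToMat n F) (Units.val_injective.comp Matrix.SpecialLinearGroup.toGL_injective) e
  rwa [Fintype.card_fin] at this

theorem hasRep_psp {F : Type} [Field F] [Fintype F] (h : Odd (Fintype.card F)) {m : ℕ}
    (e : G ≃* PSp m F) : HasRep G ((2 * m) ^ 2) := by
  have := hasRep_proj (two_ne h) (H := Matrix.symplecticGroup (Fin m) F)
    (Matrix.symplecticGroup (Fin m) F).subtype (Subtype.val_injective) e
  rwa [Fintype.card_sum, Fintype.card_fin, ← two_mul] at this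

theorem hasRep_psu {F : Type} [Field F] [Fintype F] (h : Odd (Fintype.card F)) {n q : ℕ}
    (e : G ≃* PSU n F q) : HasRep G (n ^ 2) := by
  have := hasRep_proj (two_ne h) (H := SU n F q)
    ((slToMat n F).comp (SU n F q).subtype)
    ((Units.val_injective.comp Matrix.SpecialLinearGroup.toGL_injective).comp (SU n F q).subtype_injective) e
  rwa [Fintype.card_fin] at this

theorem hasRep_pomega {ι : Type} [Fintype ι] [DecidableEq ι] {F : Type} [Field F] [Fintype F]
    (h : Odd (Fintype.card F)) {Q : (ι → F) → F}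
    (e : G ≃* POmega F Q) : HasRep G (Fintype.card ι ^ 2) :=
  hasRep_proj (two_ne h) (H := Omega F Q)
    (((Units.coeHom (Matrix ι ι F)).comp (isometryGroup F Q).subtype).comp (Omega F Q).subtype)
    ((Units.val_injective.comp (isometryGroup F Q).subtype_injective).comp (Omega F Q).subtype_injective) e

end Cfsg.Agent.H861.KnownRep
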