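import Cfsg.Agent.H861.RIso
import Cfsg.Agent.MonsterU.EmbedAbs
import Cfsg.Agent.MonsterU.PlaneGeo
import Cfsg.Agent.MonsterU.AmalHom

/-!
# From the graphs to homomorphisms, relative to a subgroup `C'` of the target
-/

set_option autoImplicit false

namespace Cfsg.Agent.H861.RHom

open Cfsg.Agent.MonsterU Cfsg.Agent.MonsterU.AmalPin
open Cfsg.Agent.MonsterU.AmalSide (four NoTwo)
open Cfsg.Agent.H861.RSide Cfsg.Agent.H861.RSide.Side
open Cfsg.Agent.H861.RQuot Cfsg.Agent.H861.RTwo Cfsg.Agent.H861.RGraph Cfsg.Agent.H861.RIso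
open Cfsg.Agent.MonsterU.AmalIso (NN)
open Cfsg.Agent.MonsterU.AmalHom (NN_eq)

variable {G G' : Type*} [Group G] [Group G']

section

variable {C Q E : Subgroup G} {z y τ x u q₀ e₁ a₁ : G} {C' Q' E' : Subgroup G'}
  {z' y' τ' x' u' q₀' e₁' a₁' : G'} {D : Subgroup (G × G')}
  (h : Side C Q E z y τ x u q₀ e₁ a₁) (h' : Side C' Q' E' z' y' τ' x' u' q₀' e₁' a₁')
  (t : Two C Q E z y x q₀ C' Q' E' z' y' x' q₀' D)

theorem PP_le_NN : PP C z y ≤ NN z y := fun _ hc => hc.2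

include h in
theorem τ_mem_NN : τ ∈ NN z y := ⟨fun _ hv => h.four_τ hv, fun _ hv => h.four_τ' hv⟩

include h in
theorem q₀_mem_NN : q₀ ∈ NN z y := PP_le_NN (C := C) (Q_le_PP h h.q₀Q)

theorem DN_fst {g : G × G'} (hg : g ∈ DN h h' t) : g.1 ∈ NN z y := by
  obtain ⟨a, ha, s, hs, rfl⟩ := hg
  refine Subgroup.mul_mem _ (PP_le_NN (cent_le_PP h (DB_B h h' t ha).1)) ?_
  obtain ⟨i, j, -, -, rfl⟩ := SS_cases h h' t hs
  show τ ^ i * q₀ ^ j ∈ NN z y
  exact Subgroup.mul_mem _ (Subgroup.pow_mem _ (τ_mem_NN h) i) (Subgroup.pow_mem _ (q₀_mem_NN h) j)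

include h h' t

/-- **The homomorphisms.** -/
theorem exists_homs (hodd : Odd ((PP C z y).relIndex C)) (hC : C = Subgroup.centralizer {z}) :
    ∃ (α : PlaneGeo.K z →* G') (β : PlaneGeo.N z y →* G'),
      (∀ c (hc : c ∈ PlaneGeo.K z) (hn : c ∈ PlaneGeo.N z y), α ⟨c, hc⟩ = β ⟨c, hn⟩) ∧
      Function.Injective α ∧ α.range = C' ∧
      (∀ c (hc : c ∈ PlaneGeo.K z), ((c, α ⟨c, hc⟩) : G × G') ∈ Gam C C' D) ∧
      (∀ d ∈ D, ∀ hc : d.1 ∈ PlaneGeo.K z, α ⟨d.1, hc⟩ = d.2) ∧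
      ∀ hτ : τ ∈ PlaneGeo.N z y, β ⟨τ, hτ⟩ = τ' := by
  obtain ⟨DC, h1, h2, h3, h4, h5, h6⟩ := exists_DC h h' t hodd
  have memC : ∀ c : G, c ∈ C ↔ c * z = z * c := fun c => by
    rw [hC, Subgroup.mem_centralizer_singleton_iff]
  have memK : ∀ c : G, c ∈ PlaneGeo.K z ↔ c ∈ C := fun c => by
    rw [memC]
    show c ∈ Subgroup.centralizer {z} ↔ _
    rw [Subgroup.mem_centralizer_singleton_iff]
  obtain ⟨α, hα⟩ := EmbedAbs.exists_hom_of_graph (K := PlaneGeo.K z) DC (fun c => by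
    rw [memK]
    exact ⟨h5 c, fun ⟨c', hc'⟩ => (h1 hc').1⟩) h3
  obtain ⟨β, hβ⟩ := EmbedAbs.exists_hom_of_graph (K := PlaneGeo.N z y) (DN h h' t) (fun c => by
    rw [← NN_eq]
    exact ⟨DN_surj h h' t fun c hc => (memC c).2 hc, fun ⟨c', hc'⟩ => DN_fst h h' t hc'⟩)
    (fun c' hc' => DN_one h h' t hc')
  have huniq : ∀ (D : Subgroup (G × G')), (∀ c', ((1 : G), c') ∈ D → c' = 1) → ∀ (c : G) (a b : G'),
      (c, a) ∈ D → (c, b) ∈ D → a = b := by
    intro D h2 c a b h3 h4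
    have h5 := D.mul_mem (D.inv_mem h3) h4
    have h6 := h2 (a⁻¹ * b) (by
      have e : ((1 : G), a⁻¹ * b) = (c, a)⁻¹ * (c, b) := by
        refine Prod.ext ?_ rfl
        show (1 : G) = c⁻¹ * c
        rw [inv_mul_cancel]
      rw [e]; exact h5)
    rw [inv_mul_eq_one] at h6
    exact h6
  have hN1 : ∀ c', ((1 : G), c') ∈ DN h h' t → c' = 1 := fun c' hc' => DN_one h h' t hc'
  refine ⟨α, β, ?_, ?_, ?_, fun c hc => h1 (hα c hc), ?_, ?_⟩
  · intro c hc hn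
    have hcP : c ∈ PP C z y := ⟨(memK c).1 hc, by rw [← NN_eq] at hn; exact hn⟩
    obtain ⟨c', hc'⟩ := DP_surj h h' t hcP
    rw [huniq DC h3 c _ _ (hα c hc) (h2 hc'), huniq _ hN1 c _ _ (hβ c hn) (DP_le_DN h h' t hc')]
  · rw [injective_iff_map_eq_one]
    rintro ⟨c, hc⟩ e
    have := hα c hc
    rw [e] at this
    exact Subtype.ext (h4 c this)
  · ext g
    constructor
    · rintro ⟨⟨c, hc⟩, rfl⟩
      exact (h1 (hα c hc)).2.1
    · intro hg
      obtain ⟨c, hc⟩ := h6 g hg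
      have hcK : c ∈ PlaneGeo.K z := (memK c).2 (h1 hc).1
      exact ⟨⟨c, hcK⟩, huniq DC h3 c _ _ (hα c hcK) hc⟩
  · intro d hd hc
    exact huniq DC h3 d.1 _ _ (hα d.1 hc) (h2 (D_le_DP h h' t hd))
  · intro hτ
    exact huniq _ hN1 τ _ _ (hβ τ hτ) (T_mem_DN h h' t)

end

/-- An absolute side is a relative side. -/
theorem side_of_abs {Q E : Subgroup G} {z y τ x u q₀ e₁ a₁ : G}
    (h : AmalSide.Side Q E z y τ x u q₀ e₁ a₁) :
    Side (Subgroup.centralizer {z}) Q E z y τ x u q₀ e₁ a₁ := by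
  have hc : ∀ c : G, c ∈ Subgroup.centralizer ({z} : Set G) ↔ c * z = z * c := fun c =>
    Subgroup.mem_centralizer_singleton_iff
  have hB : ∀ b : G, b ∈ cent2 (Subgroup.centralizer {z}) z y ↔ b ∈ AmalSide.cent2 z y := fun b => by
    rw [mem_cent2, AmalSide.mem_cent2, hc]
    tauto
  have hBe : cent2 (Subgroup.centralizer {z}) z y = AmalSide.cent2 z y := by
    ext b; exact hB b
  exact
    { Cz := fun c h => (hc c).1 h
      QC := fun q hq => (hc q).2 (h.Qz q hq)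
      z_sq := h.z_sq
      z_ne := h.z_ne
      y_sq := h.y_sq
      y_ne := h.y_ne
      y_ne_z := h.y_ne_z
      yQ := h.yQ
      zQ := h.zQ
      Qz := h.Qz
      Qn := fun c hcc => h.Qn c ((hc c).1 hcc)
      Qsq := h.Qsq
      Qcomm := h.Qcomm
      centQ := fun c hcc => h.centQ c ((hc c).1 hcc)
      τ3 := h.τ3
      τz := h.τz
      τy := h.τy
      Bτ := fun b hb => (hB _).2 (h.B_τ ((hB b).1 hb))
      Bτ' := fun b hb => (hB _).2 (h.B_τ' ((hB b).1 hb))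
      q₀Q := h.q₀Q
      q₀_sq := h.q₀_sq
      q₀y := h.q₀y
      q₀τ := h.q₀τ
      q₀x := h.q₀x
      xB := (hB _).2 h.xB
      uB := (hB _).2 h.uB
      x23 := h.x23
      τx := h.τx
      ux := h.ux
      EQ := h.EQ
      En := fun b hb => h.En b ((hB b).1 hb)
      zE := h.zE
      yE := h.yE
      Ey := h.Ey
      Eab := h.Eab
      Eτ := h.Eτ
      Eself := h.Eself
      Einf := h.Einf
      cent := fun b hb => h.cent b ((hB b).1 hb)
      sep0 := fun a ha hay hs => h.sep0 a ha hay fun s hs' hB' => hs s hs' ((hB _).2 hB')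
      sep1 := fun s hs hB' => h.sep1 s hs ((hB _).1 hB')
      e₁E := h.e₁E
      genE := h.genE
      a₁Q := h.a₁Q
      a₁y := h.a₁y
      gen0 := h.gen0
      qrE := h.qrE
      qr0 := h.qr0
      perf := by rw [hBe]; exact h.perf
      comm0 := by rw [hBe]; exact h.comm0
      commQ := by
        intro a ha
        have := h.commQ a ha
        refine Subgroup.closure_mono ?_ this
        rintro _ ⟨q, hq, c, hcc, rfl⟩
        exact ⟨q, hq, c, (hc c).2 hcc, rfl⟩ }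

end Cfsg.Agent.H861.RHom
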