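import Cfsg.Agent.MonsterU.Chart

/-!
# Charts relative to a subgroup `C` centralising `z`

The notion of `MonsterU.Ch.Chart` with `C_G(z)` replaced by a subgroup `C` of `C_G(z)` containing `Q`.
-/

set_option autoImplicit false

namespace Cfsg.Agent.H861.RCh

open Cfsg Cfsg.Spor Cfsg.Agent.LeechMat.Core Cfsg.Agent.MonsterU.Lam2 Cfsg.Agent.Co2Type.Quad
open Cfsg.Agent.MonsterU

/-- `Q` is an extraspecial 2-group with centre `⟨z⟩`, normalised by `C`, `C_C(Q) ≤ Q`. -/
structure Large {G : Type*} [Group G] (C Q : Subgroup G) (z : G) : Prop where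
  z_mem : z ∈ Q
  z_ne : z ≠ 1
  z_sq : z * z = 1
  comm_z : ∀ x ∈ Q, x * z = z * x
  conj_mem : ∀ g ∈ C, ∀ x ∈ Q, g * x * g⁻¹ ∈ Q
  sq : ∀ x ∈ Q, x * x = 1 ∨ x * x = z
  comm : ∀ x ∈ Q, ∀ y ∈ Q, x * y = y * x ∨ x * y = y * x * z
  cent : ∀ x ∈ Q, (∀ y ∈ Q, x * y = y * x) → x = 1 ∨ x = z
  self : ∀ g ∈ C, (∀ x ∈ Q, g * x = x * g) → g ∈ Q

/-- A chart of `Q` and `C`. -/
structure Chart {G : Type*} [Group G] (C Q : Subgroup G) (z : G) (eta : G → L2)
    (pi : C →* Co1) : Prop where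
  Cz : ∀ c ∈ C, c * z = z * c
  QC : Q ≤ C
  large : Large C Q z
  fin : Finite Q
  eta_mul : ∀ x ∈ Q, ∀ y ∈ Q, eta (x * y) = eta x + eta y
  eta_zero : ∀ x ∈ Q, eta x = 0 ↔ x = 1 ∨ x = z
  eta_surj : ∀ v : L2, ∃ x ∈ Q, eta x = v
  eta_conj : ∀ (c : C), ∀ x ∈ Q, eta ((c : G) * x * (c : G)⁻¹) = pi c • eta x
  pi_surj : Function.Surjective pi

namespace Chart

variable {G : Type*} [Group G] {C Q : Subgroup G} {z : G} {eta : G → L2} {pi : C →* Co1}

theorem zC (h : Chart C Q z eta pi) : z ∈ C := h.QC h.large.z_mem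

/-- The absolute chart in the group `C`. -/
theorem toAbs (h : Chart C Q z eta pi) :
    Ch.Chart (Q.subgroupOf C) (⟨z, h.zC⟩ : C) (fun c : C => eta (c : G))
      (pi.comp (Subgroup.centralizer ({(⟨z, h.zC⟩ : C)} : Set C)).subtype) where
  large :=
    { z_mem := h.large.z_mem
      z_ne := fun e => h.large.z_ne (congrArg Subtype.val e)
      z_sq := Subtype.ext h.large.z_sq
      comm_z := fun x hx => Subtype.ext (h.large.comm_z x hx)
      conj_mem := fun g _ x hx => h.large.conj_mem g g.2 x hx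
      sq := fun x hx => (h.large.sq x hx).imp Subtype.ext Subtype.ext
      comm := fun x hx y hy => (h.large.comm x hx y hy).imp Subtype.ext Subtype.ext
      cent := fun x hx hc => (h.large.cent x hx fun y hy =>
        congrArg Subtype.val (hc ⟨y, h.QC hy⟩ hy)).imp Subtype.ext Subtype.ext
      self := fun g _ hc => h.large.self g g.2 fun x hx => congrArg Subtype.val (hc ⟨x, h.QC hx⟩ hx) }
  fin := by
    have := h.fin
    refine Finite.of_injective (fun x : Q.subgroupOf C => (⟨(x : C), x.2⟩ : Q)) fun x y e => ?_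
    have e' : ((x : C) : G) = ((y : C) : G) := congrArg (fun t : Q => (t : G)) e
    exact Subtype.ext (Subtype.ext e')
  eta_mul x hx y hy := h.eta_mul x hx y hy
  eta_zero x hx := by
    rw [h.eta_zero x hx]
    exact ⟨fun t => t.imp Subtype.ext Subtype.ext,
      fun t => t.imp (congrArg Subtype.val) (congrArg Subtype.val)⟩
  eta_surj v := by
    obtain ⟨x, hx, e⟩ := h.eta_surj v
    exact ⟨⟨x, h.QC hx⟩, hx, e⟩
  eta_conj c x hx := h.eta_conj (c : C) x hx
  pi_surj := by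
    intro s
    obtain ⟨c, hc⟩ := h.pi_surj s
    exact ⟨⟨c, Subgroup.mem_centralizer_singleton_iff.2 (Subtype.ext (h.Cz c c.2))⟩, hc⟩

theorem eta_one (h : Chart C Q z eta pi) : eta 1 = 0 := (h.eta_zero 1 Q.one_mem).2 (Or.inl rfl)

theorem eta_z (h : Chart C Q z eta pi) : eta z = 0 := (h.eta_zero z h.large.z_mem).2 (Or.inr rfl)

theorem eta_inv (h : Chart C Q z eta pi) {x : G} (hx : x ∈ Q) : eta x⁻¹ = eta x := by
  have := h.eta_mul x hx x⁻¹ (Q.inv_mem hx)
  rw [mul_inv_cancel, h.eta_one] at this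
  exact (eq_of_add_eq_zero this.symm).symm

theorem eta_eq (h : Chart C Q z eta pi) {x y : G} (hx : x ∈ Q) (hy : y ∈ Q) :
    eta x = eta y ↔ x = y ∨ x = y * z := by
  constructor
  · intro he
    have h1 : eta (y⁻¹ * x) = 0 := by
      rw [h.eta_mul _ (Q.inv_mem hy) _ hx, h.eta_inv hy, he, add_self]
    rcases (h.eta_zero _ (Q.mul_mem (Q.inv_mem hy) hx)).1 h1 with h2 | h2
    · exact Or.inl (inv_mul_eq_one.1 h2).symm
    · right; rw [← h2]; group
  · rintro (rfl | rfl)
    · rfl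
    · rw [h.eta_mul y hy z h.large.z_mem, h.eta_z, add_zero]

/-- `x² = 1` in terms of the lattice -/
theorem sq_one (h : Chart C Q z eta pi) {x : G} (hx : x ∈ Q) : x * x = 1 ↔ qf (eta x) = 0 := by
  have h1 := h.toAbs.sq_one (x := ⟨x, h.QC hx⟩) hx
  rw [← h1]
  exact ⟨fun e => Subtype.ext e, fun e => congrArg Subtype.val e⟩

theorem sq_z (h : Chart C Q z eta pi) {x : G} (hx : x ∈ Q) : x * x = z ↔ qf (eta x) = 1 := by
  have h1 := h.toAbs.sq_z (x := ⟨x, h.QC hx⟩) hx
  rw [← h1]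
  exact ⟨fun e => Subtype.ext e, fun e => congrArg Subtype.val e⟩

/-- commuting in terms of the lattice -/
theorem comm_iff (h : Chart C Q z eta pi) {x y : G} (hx : x ∈ Q) (hy : y ∈ Q) :
    x * y = y * x ↔ bf (eta x) (eta y) = 0 := by
  have h1 := h.toAbs.comm_iff (x := ⟨x, h.QC hx⟩) (y := ⟨y, h.QC hy⟩) hx hy
  rw [← h1]
  exact ⟨fun e => Subtype.ext e, fun e => congrArg Subtype.val e⟩

theorem comm_z_iff (h : Chart C Q z eta pi) {x y : G} (hx : x ∈ Q) (hy : y ∈ Q) :
    x * y = y * x * z ↔ bf (eta x) (eta y) = 1 := by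
  have h1 := h.toAbs.comm_z_iff (x := ⟨x, h.QC hx⟩) (y := ⟨y, h.QC hy⟩) hx hy
  rw [← h1]
  exact ⟨fun e => Subtype.ext e, fun e => congrArg Subtype.val e⟩

/-- every element of `C` centralises `z` in the group `C` -/
theorem mem_cz (h : Chart C Q z eta pi) (c : C) :
    c ∈ Subgroup.centralizer ({(⟨z, h.zC⟩ : C)} : Set C) :=
  Subgroup.mem_centralizer_singleton_iff.2 (Subtype.ext (h.Cz c c.2))

/-- the kernel of `pi` -/
theorem pi_eq_one (h : Chart C Q z eta pi) (c : C) : pi c = 1 ↔ (c : G) ∈ Q :=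
  h.toAbs.pi_eq_one ⟨c, h.mem_cz c⟩

theorem pi_eq (h : Chart C Q z eta pi) {c d : C} : pi c = pi d ↔ (c : G)⁻¹ * d ∈ Q := by
  have : pi c = pi d ↔ pi (c⁻¹ * d) = 1 := by rw [map_mul, map_inv, inv_mul_eq_one]
  rw [this, h.pi_eq_one]
  rfl

/-- the order of `Q` -/
theorem card_Q (h : Chart C Q z eta pi) : Nat.card Q = 2 ^ 25 := by
  rw [← h.toAbs.card_Q]
  exact (Nat.card_congr (Subgroup.subgroupOfEquivOfLe h.QC).toEquiv).symm

/-- change of the chart by an element of `Co1` -/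
theorem smul (h : Chart C Q z eta pi) (g : Co1) :
    Chart C Q z (fun x => g • eta x) ((MulAut.conj g).toMonoidHom.comp pi) where
  Cz := h.Cz
  QC := h.QC
  large := h.large
  fin := h.fin
  eta_mul x hx y hy := by
    show g • eta (x * y) = g • eta x + g • eta y
    rw [h.eta_mul x hx y hy, smul_add]
  eta_zero x hx := by
    show g • eta x = 0 ↔ _
    rw [← h.eta_zero x hx]
    constructor
    · intro h1
      have : g⁻¹ • g • eta x = g⁻¹ • (0 : L2) := by rw [h1]
      rwa [inv_smul_smul, smul_zero] at this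
    · intro h1; rw [h1, smul_zero]
  eta_surj v := by
    obtain ⟨x, hx, hxv⟩ := h.eta_surj (g⁻¹ • v)
    exact ⟨x, hx, by show g • eta x = v; rw [hxv, smul_inv_smul]⟩
  eta_conj c x hx := by
    show g • eta (c * x * (c : G)⁻¹) = (g * pi c * g⁻¹) • (g • eta x)
    rw [h.eta_conj c x hx, smul_smul, smul_smul]
    congr 1
    group
  pi_surj := by
    intro k
    obtain ⟨c, hc⟩ := h.pi_surj (g⁻¹ * k * g)
    refine ⟨c, ?_⟩
    show g * pi c * g⁻¹ = k
    rw [hc]; group

/-- An absolute chart is a relative chart. -/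
theorem ofAbs {Q : Subgroup G} {z : G} {eta : G → L2} {pi : Subgroup.centralizer ({z} : Set G) →* Co1}
    (h : Ch.Chart Q z eta pi) : Chart (Subgroup.centralizer ({z} : Set G)) Q z eta pi where
  Cz _ hc := Subgroup.mem_centralizer_singleton_iff.1 hc
  QC _ hq := Subgroup.mem_centralizer_singleton_iff.2 (h.large.comm_z _ hq)
  large :=
    { z_mem := h.large.z_mem
      z_ne := h.large.z_ne
      z_sq := h.large.z_sq
      comm_z := h.large.comm_z
      conj_mem := fun g hg => h.large.conj_mem g (Subgroup.mem_centralizer_singleton_iff.1 hg)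
      sq := h.large.sq
      comm := h.large.comm
      cent := h.large.cent
      self := fun g hg => h.large.self g (Subgroup.mem_centralizer_singleton_iff.1 hg) }
  fin := h.fin
  eta_mul := h.eta_mul
  eta_zero := h.eta_zero
  eta_surj := h.eta_surj
  eta_conj := h.eta_conj
  pi_surj := h.pi_surj

end Chart

end Cfsg.Agent.H861.RCh
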