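import Cfsg.Agent.H861.RQuot

/-!
Two groups with a large extraspecial subgroup: from an isomorphism `Q ≃ Q'` compatible with the action
of the centralisers (given by its graph `D`) to an isomorphism of the centralisers of the four
groups, compatible with the elements of order three.
-/

set_option autoImplicit false
set_option linter.unusedSectionVars false

namespace Cfsg.Agent.H861.RTwo

open Cfsg.Agent.MonsterU.AmalPin
open Cfsg.Agent.MonsterU.AmalSide (four NoTwo)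
open Cfsg.Agent.H861.RSide Cfsg.Agent.H861.RSide.Side
open Cfsg.Agent.H861.RQuot

variable {G G' : Type*} [Group G] [Group G']

/-- The pairs acting in the same way on `Q` and on `Q'`. -/
def Gam (C : Subgroup G) (C' : Subgroup G') (D : Subgroup (G × G')) : Subgroup (G × G') where
  carrier := {g | g.1 ∈ C ∧ g.2 ∈ C' ∧
    (∀ d ∈ D, g * d * g⁻¹ ∈ D) ∧ (∀ d ∈ D, g⁻¹ * d * g ∈ D)}
  one_mem' := by
    refine ⟨C.one_mem, C'.one_mem, ?_, ?_⟩ <;> intro d hd <;> simpa using hd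
  mul_mem' := by
    rintro a b ⟨a1, a2, a3, a4⟩ ⟨b1, b2, b3, b4⟩
    refine ⟨?_, ?_, ?_, ?_⟩
    · exact C.mul_mem a1 b1
    · exact C'.mul_mem a2 b2
    · intro d hd
      have : a * b * d * (a * b)⁻¹ = a * (b * d * b⁻¹) * a⁻¹ := by group
      rw [this]; exact a3 _ (b3 d hd)
    · intro d hd
      have : (a * b)⁻¹ * d * (a * b) = b⁻¹ * (a⁻¹ * d * a) * b := by group
      rw [this]; exact b4 _ (a4 d hd)
  inv_mem' := by
    rintro a ⟨a1, a2, a3, a4⟩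
    refine ⟨?_, ?_, ?_, ?_⟩
    · exact C.inv_mem a1
    · exact C'.inv_mem a2
    · intro d hd
      rw [inv_inv]; exact a4 d hd
    · intro d hd
      rw [inv_inv]; exact a3 d hd

theorem mem_Gam {C : Subgroup G} {C' : Subgroup G'} {D : Subgroup (G × G')} {g : G × G'} :
    g ∈ Gam C C' D ↔ g.1 ∈ C ∧ g.2 ∈ C' ∧
    (∀ d ∈ D, g * d * g⁻¹ ∈ D) ∧ (∀ d ∈ D, g⁻¹ * d * g ∈ D) := Iff.rfl

/-- The facts connecting the two groups. -/
structure Two (C Q E : Subgroup G) (z y x q₀ : G) (C' Q' E' : Subgroup G') (z' y' x' q₀' : G')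
    (D : Subgroup (G × G')) : Prop where
  D1 : ∀ d ∈ D, d.1 ∈ Q
  D2 : ∀ d ∈ D, d.2 ∈ Q'
  Ds1 : ∀ q ∈ Q, ∃ q', (q, q') ∈ D
  Ds2 : ∀ q' ∈ Q', ∃ q, (q, q') ∈ D
  Di1 : ∀ q', ((1, q') : G × G') ∈ D → q' = 1
  Di2 : ∀ q, ((q, 1) : G × G') ∈ D → q = 1
  Dz : ((z, z') : G × G') ∈ D
  Dy : ((y, y') : G × G') ∈ D
  Dq : ((q₀, q₀') : G × G') ∈ D
  DE : ∀ d ∈ D, (d.1 ∈ E ↔ d.2 ∈ E')
  Γs1 : ∀ c ∈ C, ∃ c', ((c, c') : G × G') ∈ Gam C C' D
  Γs2 : ∀ c' ∈ C', ∃ c, ((c, c') : G × G') ∈ Gam C C' D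
  Γx : ((x, x') : G × G') ∈ Gam C C' D

section

variable {C Q E : Subgroup G} {z y τ x u q₀ e₁ a₁ : G} {C' Q' E' : Subgroup G'}
  {z' y' τ' x' u' q₀' e₁' a₁' : G'} {D : Subgroup (G × G')}
  (h : Side C Q E z y τ x u q₀ e₁ a₁) (h' : Side C' Q' E' z' y' τ' x' u' q₀' e₁' a₁')
  (t : Two C Q E z y x q₀ C' Q' E' z' y' x' q₀' D)

include t

/-- `D` determines the second component. -/
theorem D_inj {a b : G × G'} (ha : a ∈ D) (hb : b ∈ D) (e : a.1 = b.1) : a = b := by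
  have h1 : a⁻¹ * b ∈ D := D.mul_mem (D.inv_mem ha) hb
  have h2 : a⁻¹ * b = (1, a.2⁻¹ * b.2) := by
    refine Prod.ext ?_ rfl
    show a.1⁻¹ * b.1 = 1
    rw [e]; group
  rw [h2] at h1
  have h3 := t.Di1 _ h1
  exact Prod.ext e (inv_mul_eq_one.1 h3)

theorem D_inj' {a b : G × G'} (ha : a ∈ D) (hb : b ∈ D) (e : a.2 = b.2) : a = b := by
  have h1 : a⁻¹ * b ∈ D := D.mul_mem (D.inv_mem ha) hb
  have h2 : a⁻¹ * b = (a.1⁻¹ * b.1, 1) := by
    refine Prod.ext rfl ?_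
    show a.2⁻¹ * b.2 = 1
    rw [e]; group
  rw [h2] at h1
  have h3 := t.Di2 _ h1
  exact Prod.ext (inv_mul_eq_one.1 h3) e

include h h'

theorem D_le_Gam : D ≤ Gam C C' D := by
  intro d hd
  refine ⟨h.QC (t.D1 d hd), h'.QC (t.D2 d hd), ?_, ?_⟩
  · intro e he
    exact D.mul_mem (D.mul_mem hd he) (D.inv_mem hd)
  · intro e he
    exact D.mul_mem (D.mul_mem (D.inv_mem hd) he) hd

/-- The kernel of the first projection of `Γ`. -/
theorem Gam_one {c' : G'} (hc : ((1, c') : G × G') ∈ Gam C C' D) : c' = 1 ∨ c' = z' := by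
  obtain ⟨-, h2, h3, -⟩ := hc
  apply h'.centQ c' h2
  intro q' hq'
  obtain ⟨q, hq⟩ := t.Ds2 q' hq'
  have h4 := h3 _ hq
  have h5 := D_inj t h4 hq (by simp)
  have h6 : c' * q' * c'⁻¹ = q' := congrArg Prod.snd h5
  calc c' * q' = c' * q' * c'⁻¹ * c' := by group
    _ = q' * c' := by rw [h6]

theorem Gam_one' {c : G} (hc : ((c, 1) : G × G') ∈ Gam C C' D) : c = 1 ∨ c = z := by
  obtain ⟨h2, -, h3, -⟩ := hc
  apply h.centQ c h2
  intro q hq
  obtain ⟨q', hq'⟩ := t.Ds1 q hq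
  have h4 := h3 _ hq'
  have h5 := D_inj' t h4 hq' (by simp)
  have h6 : c * q * c⁻¹ = q := congrArg Prod.fst h5
  calc c * q = c * q * c⁻¹ * c := by group
    _ = q * c := by rw [h6]

theorem Gam_z : ((1, z') : G × G') ∈ Gam C C' D := by
  have h1 : ∀ d ∈ D, ((1, z') : G × G') * d * ((1, z') : G × G')⁻¹ = d := by
    intro d hd
    refine Prod.ext ?_ ?_
    · show 1 * d.1 * 1⁻¹ = d.1
      group
    · show z' * d.2 * z'⁻¹ = d.2
      rw [← h'.Qz _ (t.D2 d hd)]; group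
  have h2 : ∀ d ∈ D, ((1, z') : G × G')⁻¹ * d * ((1, z') : G × G') = d := by
    intro d hd
    refine Prod.ext ?_ ?_
    · show 1⁻¹ * d.1 * 1 = d.1
      group
    · show z'⁻¹ * d.2 * z' = d.2
      rw [mul_assoc, h'.Qz _ (t.D2 d hd)]; group
  refine ⟨C.one_mem, h'.QC h'.zQ, ?_, ?_⟩
  · intro d hd; rw [h1 d hd]; exact hd
  · intro d hd; rw [h2 d hd]; exact hd

/-- In `Γ` an element centralises `y` iff its partner centralises `y'`. -/
theorem Gam_y {g : G × G'} (hg : g ∈ Gam C C' D) : g.1 * y = y * g.1 ↔ g.2 * y' = y' * g.2 := by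
  have h1 := hg.2.2.1 _ t.Dy
  constructor
  · intro e
    have h2 := D_inj t h1 t.Dy (by
      show g.1 * y * g.1⁻¹ = y
      rw [e]; group)
    have h3 : g.2 * y' * g.2⁻¹ = y' := congrArg Prod.snd h2
    calc g.2 * y' = g.2 * y' * g.2⁻¹ * g.2 := by group
      _ = y' * g.2 := by rw [h3]
  · intro e
    have h2 := D_inj' t h1 t.Dy (by
      show g.2 * y' * g.2⁻¹ = y'
      rw [e]; group)
    have h3 : g.1 * y * g.1⁻¹ = y := congrArg Prod.fst h2
    calc g.1 * y = g.1 * y * g.1⁻¹ * g.1 := by group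
      _ = y * g.1 := by rw [h3]

theorem Gam_B {g : G × G'} (hg : g ∈ Gam C C' D) : g.1 ∈ cent2 C z y ↔ g.2 ∈ cent2 C' z' y' := by
  rw [mem_cent2, mem_cent2]
  have := Gam_y h h' t hg
  exact ⟨fun ⟨_, _, a⟩ => ⟨hg.2.1, h'.Cz _ hg.2.1, this.1 a⟩,
    fun ⟨_, _, a⟩ => ⟨hg.1, h.Cz _ hg.1, this.2 a⟩⟩

/-- The pairs in `B × B'`. -/
theorem GB_surj {b : G} (hb : b ∈ cent2 C z y) :
    ∃ b', b' ∈ cent2 C' z' y' ∧ ((b, b') : G × G') ∈ Gam C C' D := by
  obtain ⟨b', hb'⟩ := t.Γs1 b (mem_cent2.1 hb).1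
  exact ⟨b', (Gam_B h h' t hb').1 hb, hb'⟩

theorem GB_surj' {b' : G'} (hb : b' ∈ cent2 C' z' y') :
    ∃ b, b ∈ cent2 C z y ∧ ((b, b') : G × G') ∈ Gam C C' D := by
  obtain ⟨b, hb'⟩ := t.Γs2 b' (mem_cent2.1 hb).1
  exact ⟨b, (Gam_B h h' t hb').2 hb, hb'⟩

/-- The four groups correspond. -/
theorem four_pair {v : G} (hv : v ∈ four z y) :
    ∃ v' ∈ four z' y', ((v, v') : G × G') ∈ D := by
  rcases h.mem_four.1 hv with rfl | rfl | rfl | rfl
  · exact ⟨1, Subgroup.one_mem _, D.one_mem⟩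
  · exact ⟨z', h'.z_four, t.Dz⟩
  · exact ⟨y', h'.y_four, t.Dy⟩
  · exact ⟨z' * y', h'.zy_four, D.mul_mem t.Dz t.Dy⟩

theorem four_pair' {v' : G'} (hv : v' ∈ four z' y') :
    ∃ v ∈ four z y, ((v, v') : G × G') ∈ D := by
  rcases h'.mem_four.1 hv with rfl | rfl | rfl | rfl
  · exact ⟨1, Subgroup.one_mem _, D.one_mem⟩
  · exact ⟨z, h.z_four, t.Dz⟩
  · exact ⟨y, h.y_four, t.Dy⟩
  · exact ⟨z * y, h.zy_four, D.mul_mem t.Dz t.Dy⟩

theorem Gam_four {g : G × G'} (hg : g ∈ Gam C C' D) : g.1 ∈ four z y ↔ g.2 ∈ four z' y' := by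
  constructor
  · intro hv
    obtain ⟨v', hv', hD⟩ := four_pair h h' t hv
    have h1 : ((g.1, v') : G × G')⁻¹ * g ∈ Gam C C' D :=
      Subgroup.mul_mem _ (Subgroup.inv_mem _ (D_le_Gam h h' t hD)) hg
    have h2 : ((g.1, v') : G × G')⁻¹ * g = (1, v'⁻¹ * g.2) := by
      refine Prod.ext ?_ rfl
      show g.1⁻¹ * g.1 = 1
      group
    rw [h2] at h1
    have h3 : v'⁻¹ * g.2 ∈ four z' y' := by
      rcases Gam_one h h' t h1 with e | e <;> rw [e]
      · exact Subgroup.one_mem _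
      · exact h'.z_four
    have h4 := Subgroup.mul_mem _ hv' h3
    rwa [mul_inv_cancel_left] at h4
  · intro hv
    obtain ⟨v', hv', hD⟩ := four_pair' h h' t hv
    have h1 : ((v', g.2) : G × G')⁻¹ * g ∈ Gam C C' D :=
      Subgroup.mul_mem _ (Subgroup.inv_mem _ (D_le_Gam h h' t hD)) hg
    have h2 : ((v', g.2) : G × G')⁻¹ * g = (v'⁻¹ * g.1, 1) := by
      refine Prod.ext rfl ?_
      show g.2⁻¹ * g.2 = 1
      group
    rw [h2] at h1
    have h3 : v'⁻¹ * g.1 ∈ four z y := by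
      rcases Gam_one' h h' t h1 with e | e <;> rw [e]
      · exact Subgroup.one_mem _
      · exact h.z_four
    have h4 := Subgroup.mul_mem _ hv' h3
    rwa [mul_inv_cancel_left] at h4

/-- The isomorphism `B / V ≃ B' / V'` exists and is given by `Γ`. -/
theorem exists_phiHat : ∃ φ : Bq C z y ≃* Bq C' z' y', ∀ (g : G × G') (_ : g ∈ Gam C C' D)
    (h1 : g.1 ∈ cent2 C z y) (h2 : g.2 ∈ cent2 C' z' y'), φ (mk g.1 h1) = mk g.2 h2 := by
  let P : Subgroup (G × G') := Gam C C' D ⊓ (cent2 C z y).comap (MonoidHom.fst G G')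
  have hP : ∀ g : P, (g : G × G').1 ∈ cent2 C z y ∧ (g : G × G').2 ∈ cent2 C' z' y' := fun g =>
    ⟨g.2.2, (Gam_B h h' t g.2.1).1 g.2.2⟩
  let f : P →* Bq C z y :=
    { toFun := fun g => mk (g : G × G').1 (hP g).1
      map_one' := rfl
      map_mul' := fun _ _ => rfl }
  let f' : P →* Bq C' z' y' :=
    { toFun := fun g => mk (g : G × G').2 (hP g).2
      map_one' := rfl
      map_mul' := fun _ _ => rfl }
  have hf : Function.Surjective f := by
    intro a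
    obtain ⟨b, hb, rfl⟩ := mk_surj a
    obtain ⟨b', hb', hg⟩ := GB_surj h h' t hb
    exact ⟨⟨(b, b'), hg, hb⟩, rfl⟩
  have hf' : Function.Surjective f' := by
    intro a
    obtain ⟨b', hb', rfl⟩ := mk_surj a
    obtain ⟨b, hb, hg⟩ := GB_surj' h h' t hb'
    exact ⟨⟨(b, b'), hg, hb⟩, rfl⟩
  have hker : f.ker = f'.ker := by
    ext g
    rw [MonoidHom.mem_ker, MonoidHom.mem_ker]
    show mk (g : G × G').1 _ = 1 ↔ mk (g : G × G').2 _ = 1
    rw [mk_eq_one, mk_eq_one]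
    exact Gam_four h h' t g.2.1
  let φ : Bq C z y ≃* Bq C' z' y' :=
    (QuotientGroup.quotientKerEquivOfSurjective f hf).symm.trans
      ((QuotientGroup.quotientMulEquivOfEq hker).trans
        (QuotientGroup.quotientKerEquivOfSurjective f' hf'))
  refine ⟨φ, ?_⟩
  intro g hg h1 h2
  let g₀ : P := ⟨g, hg, h1⟩
  have e1 : (QuotientGroup.quotientKerEquivOfSurjective f hf).symm (mk g.1 h1) =
      (QuotientGroup.mk g₀ : P ⧸ f.ker) := by
    rw [MulEquiv.symm_apply_eq]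
    rfl
  show (QuotientGroup.quotientKerEquivOfSurjective f' hf')
    ((QuotientGroup.quotientMulEquivOfEq hker)
      ((QuotientGroup.quotientKerEquivOfSurjective f hf).symm (mk g.1 h1))) = _
  rw [e1]
  rfl

/-- Transport of the action on `E`. -/
theorem act_iff {g : G × G'} (hg : g ∈ Gam C C' D) {v : G × G'} (hv : v ∈ D) :
    (∀ e ∈ E, g.1 * e * g.1⁻¹ * e⁻¹ = 1 ∨ g.1 * e * g.1⁻¹ * e⁻¹ = v.1) ↔
      (∀ e ∈ E', g.2 * e * g.2⁻¹ * e⁻¹ = 1 ∨ g.2 * e * g.2⁻¹ * e⁻¹ = v.2) := by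
  constructor
  · intro H e' he'
    obtain ⟨e, he⟩ := t.Ds2 e' (h'.EQ he')
    have heE : e ∈ E := (t.DE _ he).2 he'
    have h1 : g * (e, e') * g⁻¹ * (e, e')⁻¹ ∈ D := D.mul_mem (hg.2.2.1 _ he) (D.inv_mem he)
    rcases H e heE with h2 | h2
    · left
      exact congrArg Prod.snd (D_inj t h1 D.one_mem h2)
    · right
      exact congrArg Prod.snd (D_inj t h1 hv h2)
  · intro H e he
    obtain ⟨e', he'⟩ := t.Ds1 e (h.EQ he)
    have heE : e' ∈ E' := (t.DE _ he').1 he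
    have h1 : g * (e, e') * g⁻¹ * (e, e')⁻¹ ∈ D := D.mul_mem (hg.2.2.1 _ he') (D.inv_mem he')
    rcases H e' heE with h2 | h2
    · left
      exact congrArg Prod.fst (D_inj' t h1 D.one_mem h2)
    · right
      exact congrArg Prod.fst (D_inj' t h1 hv h2)

theorem K0_iff {g : G × G'} (hg : g ∈ Gam C C' D) (h1 : g.1 ∈ cent2 C z y) :
    g.1 ∈ KK C Q z y τ 0 ↔ g.2 ∈ KK C' Q' z' y' τ' 0 := by
  have h2 := (Gam_B h h' t hg).1 h1
  have := act_iff h h' t hg t.Dz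
  exact ⟨fun a => h'.mem_K0_of h2 (this.1 (h.K0_act a)), fun a => h.mem_K0_of h1 (this.2 (h'.K0_act a))⟩

theorem K1_iff {g : G × G'} (hg : g ∈ Gam C C' D) (h1 : g.1 ∈ cent2 C z y) :
    g.1 ∈ KK C Q z y τ 1 ↔ g.2 ∈ KK C' Q' z' y' τ' 1 := by
  have h2 := (Gam_B h h' t hg).1 h1
  have := act_iff h h' t hg t.Dy
  exact ⟨fun a => h'.mem_K1_of h2 (this.1 (h.K1_act a)), fun a => h.mem_K1_of h1 (this.2 (h'.K1_act a))⟩

theorem K2_iff {g : G × G'} (hg : g ∈ Gam C C' D) (h1 : g.1 ∈ cent2 C z y) :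
    g.1 ∈ KK C Q z y τ 2 ↔ g.2 ∈ KK C' Q' z' y' τ' 2 := by
  have h2 := (Gam_B h h' t hg).1 h1
  have := act_iff h h' t hg (D.mul_mem t.Dz t.Dy)
  exact ⟨fun a => h'.mem_K2_of h2 (this.1 (h.K2_act a)), fun a => h.mem_K2_of h1 (this.2 (h'.K2_act a))⟩

theorem E_iff {g : G × G'} (hg : g ∈ Gam C C' D) (h1 : g.1 ∈ cent2 C z y) : g.1 ∈ E ↔ g.2 ∈ E' := by
  constructor
  · intro he
    obtain ⟨e', he'⟩ := t.Ds1 _ (h.EQ he)
    have heE : e' ∈ E' := (t.DE _ he').1 he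
    have h2 : ((g.1, e') : G × G')⁻¹ * g ∈ Gam C C' D :=
      Subgroup.mul_mem _ (Subgroup.inv_mem _ (D_le_Gam h h' t he')) hg
    have h3 : ((g.1, e') : G × G')⁻¹ * g = (1, e'⁻¹ * g.2) := by
      refine Prod.ext ?_ rfl
      show g.1⁻¹ * g.1 = 1
      group
    rw [h3] at h2
    have h4 : e'⁻¹ * g.2 ∈ E' := by
      rcases Gam_one h h' t h2 with e | e <;> rw [e]
      · exact Subgroup.one_mem _
      · exact h'.zE
    have h5 := Subgroup.mul_mem _ heE h4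
    rwa [mul_inv_cancel_left] at h5
  · intro he
    obtain ⟨e', he'⟩ := t.Ds2 _ (h'.EQ he)
    have heE : e' ∈ E := (t.DE _ he').2 he
    have h2 : ((e', g.2) : G × G')⁻¹ * g ∈ Gam C C' D :=
      Subgroup.mul_mem _ (Subgroup.inv_mem _ (D_le_Gam h h' t he')) hg
    have h3 : ((e', g.2) : G × G')⁻¹ * g = (e'⁻¹ * g.1, 1) := by
      refine Prod.ext rfl ?_
      show g.2⁻¹ * g.2 = 1
      group
    rw [h3] at h2
    have h4 : e'⁻¹ * g.1 ∈ E := by
      rcases Gam_one' h h' t h2 with e | e <;> rw [e]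
      · exact Subgroup.one_mem _
      · exact h.zE
    have h5 := Subgroup.mul_mem _ heE h4
    rwa [mul_inv_cancel_left] at h5

/-- The main step: `τ` and `τ'` act in the same way modulo the four groups. -/
theorem key {b : G} {b' b'' : G'} (hb : b ∈ cent2 C z y) (hg : ((b, b') : G × G') ∈ Gam C C' D)
    (hg' : ((τ * b * τ⁻¹, b'') : G × G') ∈ Gam C C' D) :
    b''⁻¹ * (τ' * b' * τ'⁻¹) ∈ four z' y' := by
  obtain ⟨φ, hφ⟩ := exists_phiHat h h' t
  have hb' : b' ∈ cent2 C' z' y' := (Gam_B h h' t hg).1 hb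
  have hτb : τ * b * τ⁻¹ ∈ cent2 C z y := h.B_τ hb
  have hb'' : b'' ∈ cent2 C' z' y' := (Gam_B h h' t hg').1 hτb
  -- transport of hat subgroups
  have trans : ∀ (S : Subgroup G) (S' : Subgroup G') (_ : four z y ≤ S) (_ : four z' y' ≤ S')
      (_ : ∀ g ∈ Gam C C' D, g.1 ∈ cent2 C z y → (g.1 ∈ S ↔ g.2 ∈ S')) (a : Bq C z y),
      a ∈ hat C z y S ↔ φ a ∈ hat C' z' y' S' := by
    intro S S' hS hS' hSS a
    obtain ⟨c, hc, rfl⟩ := mk_surj a
    obtain ⟨c', hc', hcg⟩ := GB_surj h h' t hc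
    rw [mk_mem_hat hS hc]
    have e := hφ (c, c') hcg hc hc'
    rw [e, mk_mem_hat hS' hc']
    exact hSS _ hcg hc
  have t0 := trans _ _ (four_KK h 0) (four_KK h' 0) (fun g hg h1 => K0_iff h h' t hg h1)
  have t1 := trans _ _ (four_KK h 1) (four_KK h' 1) (fun g hg h1 => K1_iff h h' t hg h1)
  have t2 := trans _ _ (four_KK h 2) (four_KK h' 2) (fun g hg h1 => K2_iff h h' t hg h1)
  have tE := trans _ _ h.fourE h'.fourE (fun g hg h1 => E_iff h h' t hg h1)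
  let θ : Bq C' z' y' ≃* Bq C' z' y' := φ.symm.trans ((tauHat h).trans φ)
  have hθ : ∀ a, θ a = φ (tauHat h (φ.symm a)) := fun _ => rfl
  have hx : φ (mk x h.xB) = mk x' h'.xB := hφ (x, x') t.Γx h.xB h'.xB
  have uniq := (pinHyp h').unique (hat C' z' y' (KK C' Q' z' y' τ' 2)) θ (tauHat h')
    (by
      intro a
      rw [hθ, hθ, hθ]
      rw [MulEquiv.symm_apply_apply, MulEquiv.symm_apply_apply, tauHat_three,
        MulEquiv.apply_symm_apply])
    (tauHat_three h')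
    (by
      rw [hθ, ← hx, MulEquiv.symm_apply_apply, tauHat_x])
    (tauHat_x h')
    (by
      intro a ha
      rw [hθ, ← t1]
      apply tauHat_hat h
      rw [t0, MulEquiv.apply_symm_apply]; exact ha)
    (by
      intro a ha
      rw [hθ, ← t2]
      apply tauHat_hat h
      rw [t1, MulEquiv.apply_symm_apply]; exact ha)
    (by
      intro a ha
      rw [hθ, ← t0]
      apply tauHat_hat2 h
      rw [t2, MulEquiv.apply_symm_apply]; exact ha)
    (fun a ha => tauHat_hat h' ha) (fun a ha => tauHat_hat h' ha) (fun a ha => tauHat_hat2 h' ha)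
    (by
      intro a ha
      rw [hθ, ← tE]
      apply tauHat_E h
      rw [tE, MulEquiv.apply_symm_apply]; exact ha)
    (fun a ha => tauHat_E h' ha)
  have e1 := uniq (mk b' hb')
  have e2 : φ.symm (mk b' hb') = mk b hb := by
    rw [MulEquiv.symm_apply_eq]
    exact (hφ (b, b') hg hb hb').symm
  have e3 : φ (mk (τ * b * τ⁻¹) hτb) = mk b'' hb'' := hφ (τ * b * τ⁻¹, b'') hg' hτb hb''
  rw [hθ, e2, tauHat_mk, tauHat_mk, e3] at e1
  have e4 := (mk_eq _ _).1 e1.symm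
  -- `four` is central, so the order does not matter
  have e5 : b''⁻¹ * (τ' * b' * τ'⁻¹) = b''⁻¹ * ((τ' * b' * τ'⁻¹) * b''⁻¹) * b'' := by group
  rw [e5]
  have := four_comm e4 (Subgroup.inv_mem _ hb'')
  rw [this]
  have e6 : τ' * b' * τ'⁻¹ * b''⁻¹ * b''⁻¹ * b'' = τ' * b' * τ'⁻¹ * b''⁻¹ := by group
  rw [e6]
  exact e4

end

end Cfsg.Agent.H861.RTwo
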