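import Cfsg.Agent.MonsterU.AmalTwoOf
import Cfsg.Agent.H861.RTwo
import Cfsg.Agent.H861.RChart

/-!
# The facts connecting two relative charts
-/

set_option autoImplicit false

namespace Cfsg.Agent.H861.RTwoOf

open Cfsg Cfsg.Spor Cfsg.Agent.MonsterU Cfsg.Agent.MonsterU.Lam2 Cfsg.Agent.Co2Type.Quad
open Cfsg.Agent.MonsterU.CoFrameL2
open Cfsg.Agent.MonsterU.CoFrame Cfsg.Agent.MonsterU.CoFrameAct Cfsg.Agent.MonsterU.CoFrame23
open Cfsg.Agent.SporadicA.Co1Simple (x23)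
open Cfsg.Agent.CoOneType.CoOneE (pr)
open Cfsg.Agent.MonsterU.AmalTwoOf (fixed_W23 fixed_unique exists_conj)

section abs

open Cfsg.Agent.MonsterU.Ch

/-- The elements needed for the isomorphism. -/
structure Five {G : Type*} [Group G] (Q : Subgroup G) (z x y q₀ : G) : Prop where
  yQ : y ∈ Q
  q₀Q : q₀ ∈ Q
  hxz : x * z = z * x
  hxy : x * y = y * x
  x23 : x ^ 23 = 1
  y_sq : y * y = 1
  q₀x : q₀ * x = x * q₀
  q₀y : q₀ * y * q₀⁻¹ = z * y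
  q₀_sq : q₀ * q₀ = 1

variable {G G' : Type*} [Group G] [Group G'] {Q : Subgroup G} {Q' : Subgroup G'}
  {z y x q₀ : G} {z' y' x' q₀' : G'}
  {eta : G → L2} {eta' : G' → L2} {pi : Subgroup.centralizer ({z} : Set G) →* Co1}
  {pi' : Subgroup.centralizer ({z'} : Set G') →* Co1}

/-- **The isomorphism of the extraspecial groups** respecting the five elements. -/
theorem exists_ph (hc : Chart Q z eta pi) (hc' : Chart Q' z' eta' pi') (h : Five Q z x y q₀)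
    (h' : Five Q' z' x' y' q₀') (hy : eta y = f0) (hy' : eta' y' = f0)
    (hx : ∀ c : Subgroup.centralizer ({z} : Set G), (c : G) = x → pi c = pr Cfsg.Agent.SporadicA.Co1Simple.x23)
    (hx' : ∀ c : Subgroup.centralizer ({z'} : Set G'), (c : G') = x' → pi' c = pr Cfsg.Agent.SporadicA.Co1Simple.x23) :
    ∃ ph : Q ≃* Q', (∀ q : Q, eta' (ph q) = eta q) ∧ (ph ⟨y, h.yQ⟩ : G') = y' ∧
      (ph ⟨q₀, h.q₀Q⟩ : G') = q₀' ∧ Rel ph z z' x x' := by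
  have hxz := h.hxz
  have hxy := h.hxy
  have hxz' := h'.hxz
  have hxy' := h'.hxy
  have hL := hc.large
  have hL' := hc'.large
  have := hc.fin
  have := hc'.fin
  have hxC : x ∈ Subgroup.centralizer ({z} : Set G) := Subgroup.mem_centralizer_singleton_iff.2 hxz
  have hxC' : x' ∈ Subgroup.centralizer ({z'} : Set G') := Subgroup.mem_centralizer_singleton_iff.2 hxz'
  have hpx : pi ⟨x, hxC⟩ = pr x23 := hx _ rfl
  have hpx' : pi' ⟨x', hxC'⟩ = pr x23 := hx' _ rfl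
  -- the first isomorphism
  obtain ⟨psi, hpsi, hpsiy⟩ := exists_psi_of hc hc' h.yQ h'.yQ (hy.trans hy'.symm) (by rw [hy]; exact f0_ne)
  have H : Good hc hc' psi := ⟨hpsi⟩
  -- a partner of `x` of order 23
  obtain ⟨x₁, hx₁, hx₁23⟩ : ∃ x₁, Rel psi z z' x x₁ ∧ x₁ ^ 23 = 1 := by
    obtain ⟨x₁, hx₁⟩ := H.exists_right hxz
    have hpow : ∀ n : ℕ, Rel psi z z' (x ^ n) (x₁ ^ n) := by
      intro n
      induction n with
      | zero => rw [pow_zero, pow_zero]; exact Rel.one psi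
      | succ n ih => rw [pow_succ, pow_succ]; exact Rel.mul hL ih hx₁
    have h23 := hpow 23
    rw [h.x23] at h23
    rcases Rel.unique_right hL hL' (Rel.one psi) h23 with h1 | h1
    · exact ⟨x₁, hx₁, h1⟩
    · refine ⟨x₁ * z', Rel.mul_z_right hL' hx₁, ?_⟩
      have hcz : Commute x₁ z' := hx₁.2.1
      rw [hcz.mul_pow, h1, one_mul]
      have : z' ^ 23 = (z' * z') ^ 11 * z' := by rw [← pow_two, ← pow_mul, ← pow_succ]
      rw [this, hL'.z_sq, one_pow, one_mul, hL'.z_sq]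
  -- it lies in the coset of `x'`
  have hx₁C : x₁ ∈ Subgroup.centralizer ({z'} : Set G') := Subgroup.mem_centralizer_singleton_iff.2 hx₁.2.1
  have hpx₁ : pi' ⟨x₁, hx₁C⟩ = pr x23 := by
    rw [← hpx]
    exact (H.pi_eq (c := ⟨x, hxC⟩) (c' := ⟨x₁, hx₁C⟩) hx₁).symm
  have hQ1 : x'⁻¹ * x₁ ∈ Q' := by
    have := (hc'.pi_eq (c := ⟨x', hxC'⟩) (d := ⟨x₁, hx₁C⟩)).1 (by rw [hpx', hpx₁])
    exact this
  have hx₁y : x₁ * y' = y' * x₁ := by
    have h1 := hx₁.2.2 ⟨y, h.yQ⟩ ⟨y, h.yQ⟩ (by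
      show y = x * y * x⁻¹
      rw [hxy, mul_inv_cancel_right])
    rw [hpsiy, eq_mul_inv_iff_mul_eq] at h1
    exact h1.symm
  let K : Subgroup G' := Q' ⊓ Subgroup.centralizer {y'}
  have hKQ : K ≤ Q' := inf_le_left
  have memK : ∀ {k : G'}, k ∈ K ↔ k ∈ Q' ∧ k * y' = y' * k := fun {k} => by
    rw [Subgroup.mem_inf, Subgroup.mem_centralizer_singleton_iff]
  have hKfin : Finite K := Finite.of_injective (Subgroup.inclusion hKQ) (Subgroup.inclusion_injective hKQ)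
  have hK23 : ¬ 23 ∣ Nat.card K := by
    intro h1
    have h2 := h1.trans (Subgroup.card_dvd_of_le hKQ)
    rw [hc'.card_Q] at h2
    have h3 := (Nat.Prime.dvd_of_dvd_pow (by norm_num : Nat.Prime 23) h2)
    norm_num at h3
  obtain ⟨w, hwK, hw⟩ := exists_conj K hK23 hx₁23 h'.x23
    (memK.2 ⟨hQ1, by
      have h1 : x'⁻¹ * y' = y' * x'⁻¹ := (Commute.inv_left (show Commute x' y' from hxy')).eq
      rw [mul_assoc, hx₁y, ← mul_assoc, h1, mul_assoc]⟩)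
    (fun k hk => by
      rw [memK] at hk ⊢
      refine ⟨hL'.conj_mem x' hxz' k hk.1, ?_⟩
      have h1 : x'⁻¹ * y' = y' * x'⁻¹ := (Commute.inv_left (show Commute x' y' from hxy')).eq
      calc x' * k * x'⁻¹ * y' = x' * k * (x'⁻¹ * y') := by group
        _ = x' * (k * y') * x'⁻¹ := by rw [h1]; group
        _ = (x' * y') * k * x'⁻¹ := by rw [hk.2]; group
        _ = y' * (x' * k * x'⁻¹) := by rw [hxy']; group)
  have hwQ : w ∈ Q' := (memK.1 hwK).1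
  have hwy : w * y' = y' * w := (memK.1 hwK).2
  -- change by inner automorphisms
  have hconj : ∀ (psi : Q ≃* Q') (v : G') (hv : v ∈ Q'), (∀ q : Q, eta' (psi q) = eta q) →
      (∀ q : Q, eta' ((psi.trans (MulAut.conj (⟨v, hv⟩ : Q'))) q) = eta q) ∧
      (∀ q : Q, ((psi.trans (MulAut.conj (⟨v, hv⟩ : Q'))) q : G') = v * psi q * v⁻¹) ∧
      (∀ c c', Rel psi z z' c c' → Rel (psi.trans (MulAut.conj (⟨v, hv⟩ : Q'))) z z' c (v * c' * v⁻¹)) := by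
    intro psi v hv hpsi
    have e : ∀ q : Q, ((psi.trans (MulAut.conj (⟨v, hv⟩ : Q'))) q : G') = v * psi q * v⁻¹ := fun q => rfl
    refine ⟨fun q => ?_, e, fun c c' hcc => ?_⟩
    · rw [e, hc'.eta_mul _ (Q'.mul_mem hv (psi q).2) _ (Q'.inv_mem hv), hc'.eta_mul _ hv _ (psi q).2,
        hc'.eta_inv hv, add_comm (eta' v), add_assoc, add_self, add_zero, hpsi]
    · refine ⟨hcc.1, ?_, fun a b hab => ?_⟩
      · have hvz : Commute v z' := hL'.commz hv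
        exact ((hvz.mul_left hcc.2.1).mul_left hvz.inv_left).eq
      · rw [e, e, hcc.2.2 a b hab]; group
  obtain ⟨k1, k2, k3⟩ := hconj psi w hwQ hpsi
  have hx2 : Rel (psi.trans (MulAut.conj (⟨w, hwQ⟩ : Q'))) z z' x x' := by
    have := k3 x x₁ hx₁
    rwa [hw] at this
  have hy2 : ((psi.trans (MulAut.conj (⟨w, hwQ⟩ : Q'))) ⟨y, h.yQ⟩ : G') = y' := by
    rw [k2, hpsiy, hwy, mul_inv_cancel_right]
  revert k1 hx2 hy2
  generalize psi.trans (MulAut.conj (⟨w, hwQ⟩ : Q')) = phi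
  intro k1 hx2 hy2
  -- `phi q₀`
  have hqf0 : qf f0 = 0 := by
    rw [← hy]
    exact (hc.sq_one h.yQ).1 h.y_sq
  have a1 : pr x23 • eta q₀ = eta q₀ := by
    rw [← hpx, ← hc.eta_conj ⟨x, hxC⟩ q₀ h.q₀Q]
    show eta (x * q₀ * x⁻¹) = _
    rw [← h.q₀x, mul_inv_cancel_right]
  have a2 : bf (eta q₀) f0 = 1 := by
    rw [← hy, ← hc.comm_z_iff h.q₀Q h.yQ]
    have := h.q₀y
    rw [mul_inv_eq_iff_eq_mul] at this
    rw [this, mul_assoc, ← hL.comm_z _ (Q.mul_mem h.yQ h.q₀Q)]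
  have a3 : qf (eta q₀) = 0 := (hc.sq_one h.q₀Q).1 h.q₀_sq
  have b1 : pr x23 • eta' q₀' = eta' q₀' := by
    rw [← hpx', ← hc'.eta_conj ⟨x', hxC'⟩ q₀' h'.q₀Q]
    show eta' (x' * q₀' * x'⁻¹) = _
    rw [← h'.q₀x, mul_inv_cancel_right]
  have b2 : bf (eta' q₀') f0 = 1 := by
    rw [← hy', ← hc'.comm_z_iff h'.q₀Q h'.yQ]
    have := h'.q₀y
    rw [mul_inv_eq_iff_eq_mul] at this
    rw [this, mul_assoc, ← hL'.comm_z _ (Q'.mul_mem h'.yQ h'.q₀Q)]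
  have b3 : qf (eta' q₀') = 0 := (hc'.sq_one h'.q₀Q).1 h'.q₀_sq
  have heq : eta q₀ = eta' q₀' := fixed_unique a1 b1 a2 b2 a3 b3 hqf0
  -- the final isomorphism
  have h1 : eta' (phi ⟨q₀, h.q₀Q⟩) = eta' q₀' := by rw [k1]; exact heq
  rcases (hc'.eta_eq (phi ⟨q₀, h.q₀Q⟩).2 h'.q₀Q).1 h1 with h2 | h2
  · exact ⟨phi, k1, hy2, h2, hx2⟩
  · obtain ⟨m1, m2, m3⟩ := hconj phi y' h'.yQ k1
    refine ⟨_, m1, ?_, ?_, ?_⟩
    · rw [m2, hy2, mul_inv_cancel_right]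
    · rw [m2, h2]
      have h3 := h'.q₀y
      rw [mul_inv_eq_iff_eq_mul] at h3
      -- q₀' y' = z' y' q₀'
      have h4 : y' * (q₀' * z') = q₀' * y' := by
        rw [h3, ← mul_assoc, hL'.comm_z _ (Q'.mul_mem h'.yQ h'.q₀Q), mul_assoc]
      rw [h4, mul_inv_cancel_right]
    · have := m3 x x' hx2
      rwa [← hxy', mul_inv_cancel_right] at this

end abs

section rel

open Cfsg.Agent.H861.RSide Cfsg.Agent.H861.RTwo
open Cfsg.Agent.MonsterU.Ch (Rel Good)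

variable {G G' : Type*} [Group G] [Group G'] {C Q E : Subgroup G} {C' Q' E' : Subgroup G'}
  {z y τ x u q₀ e₁ a₁ : G} {z' y' τ' x' u' q₀' e₁' a₁' : G'}
  {eta : G → L2} {eta' : G' → L2} {pi : C →* Co1} {pi' : C' →* Co1}

/-- the graph of `psi` -/
def graph (psi : Q.subgroupOf C ≃* Q'.subgroupOf C') : Subgroup (G × G') where
  carrier := {d | ∃ q : Q.subgroupOf C, ((q : C) : G) = d.1 ∧ ((psi q : C') : G') = d.2}
  one_mem' := ⟨1, rfl, by rw [map_one]; rfl⟩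
  mul_mem' := by
    rintro a b ⟨q, hq1, hq2⟩ ⟨r, hr1, hr2⟩
    exact ⟨q * r, by rw [Subgroup.coe_mul, Subgroup.coe_mul, hq1, hr1]; rfl,
      by rw [map_mul, Subgroup.coe_mul, Subgroup.coe_mul, hq2, hr2]; rfl⟩
  inv_mem' := by
    rintro a ⟨q, hq1, hq2⟩
    exact ⟨q⁻¹, by rw [Subgroup.coe_inv, Subgroup.coe_inv, hq1]; rfl,
      by rw [map_inv, Subgroup.coe_inv, Subgroup.coe_inv, hq2]; rfl⟩

/-- partners normalise the graph -/
theorem mem_Gam_of_rel (hL : RCh.Large C Q z) {zC : C} {zC' : C'}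
    {psi : Q.subgroupOf C ≃* Q'.subgroupOf C'} {c : C} {c' : C'} (h : Rel psi zC zC' c c') :
    ((c : G), (c' : G')) ∈ Gam C C' (graph psi) := by
  have key : ∀ {c : C} {c' : C'}, Rel psi zC zC' c c' → ∀ d ∈ graph psi,
      ((c : G), (c' : G')) * d * ((c : G), (c' : G'))⁻¹ ∈ graph psi := by
    rintro c c' h ⟨d, d'⟩ ⟨q, hq1, hq2⟩
    have hm : (c * (q : C) * c⁻¹ : C) ∈ Q.subgroupOf C := hL.conj_mem c c.2 _ q.2
    refine ⟨⟨c * q * c⁻¹, hm⟩, ?_, ?_⟩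
    · show (c : G) * ((q : C) : G) * (c : G)⁻¹ = c * d * (c : G)⁻¹
      rw [show ((q : C) : G) = d from hq1]
    · show ((psi ⟨c * q * c⁻¹, _⟩ : C') : G') = c' * d' * (c' : G')⁻¹
      rw [h.2.2 q ⟨c * q * c⁻¹, hm⟩ rfl, ← show ((psi q : C') : G') = d' from hq2]
      rfl
  refine ⟨c.2, c'.2, key h, fun d hd => ?_⟩
  have h1 := key h.inv d hd
  have h2 : ((((c⁻¹ : C) : G), ((c'⁻¹ : C') : G')) : G × G') = ((c : G), (c' : G'))⁻¹ := rfl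
  rw [h2, inv_inv] at h1
  exact h1

/-- **The facts connecting the two groups.** -/
theorem exists_two (hc : RCh.Chart C Q z eta pi) (hc' : RCh.Chart C' Q' z' eta' pi')
    (h : Side C Q E z y τ x u q₀ e₁ a₁)
    (h' : Side C' Q' E' z' y' τ' x' u' q₀' e₁' a₁') (hE : ∀ q ∈ Q, q ∈ E ↔ eta q ∈ W12)
    (hE' : ∀ q ∈ Q', q ∈ E' ↔ eta' q ∈ W12) (hy : eta y = f0) (hy' : eta' y' = f0)
    (hx : ∀ c : C, (c : G) = x → pi c = pr x23)
    (hx' : ∀ c : C', (c : G') = x' → pi' c = pr x23) :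
    ∃ psi : Q.subgroupOf C ≃* Q'.subgroupOf C',
      Two C Q E z y x q₀ C' Q' E' z' y' x' q₀' (graph psi) := by
  have A := hc.toAbs
  have A' := hc'.toAbs
  have hxB := mem_cent2.1 h.xB
  have hxB' := mem_cent2.1 h'.xB
  have F : Five (Q.subgroupOf C) (⟨z, hc.zC⟩ : C) ⟨x, hxB.1⟩ ⟨y, h.QC h.yQ⟩ ⟨q₀, h.QC h.q₀Q⟩ :=
    { yQ := h.yQ
      q₀Q := h.q₀Q
      hxz := Subtype.ext hxB.2.1
      hxy := Subtype.ext hxB.2.2
      x23 := Subtype.ext h.x23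
      y_sq := Subtype.ext h.y_sq
      q₀x := Subtype.ext h.q₀x
      q₀y := Subtype.ext h.q₀y
      q₀_sq := Subtype.ext h.q₀_sq }
  have F' : Five (Q'.subgroupOf C') (⟨z', hc'.zC⟩ : C') ⟨x', hxB'.1⟩ ⟨y', h'.QC h'.yQ⟩
      ⟨q₀', h'.QC h'.q₀Q⟩ :=
    { yQ := h'.yQ
      q₀Q := h'.q₀Q
      hxz := Subtype.ext hxB'.2.1
      hxy := Subtype.ext hxB'.2.2
      x23 := Subtype.ext h'.x23
      y_sq := Subtype.ext h'.y_sq
      q₀x := Subtype.ext h'.q₀x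
      q₀y := Subtype.ext h'.q₀y
      q₀_sq := Subtype.ext h'.q₀_sq }
  obtain ⟨ph, l1, l2, l3, l4⟩ := exists_ph A A' F F' hy hy'
    (fun c e => hx _ (congrArg Subtype.val e)) (fun c e => hx' _ (congrArg Subtype.val e))
  have H' : Good A A' ph := ⟨l1⟩
  refine ⟨ph, ?_⟩
  refine ⟨?_, ?_, ?_, ?_, ?_, ?_, ?_, ?_, ?_, ?_, ?_, ?_, ?_⟩
  · rintro d ⟨q, hq1, _⟩
    rw [← hq1]; exact q.2
  · rintro d ⟨q, _, hq2⟩
    rw [← hq2]; exact (ph q).2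
  · intro q hq
    exact ⟨((ph ⟨⟨q, h.QC hq⟩, hq⟩ : C') : G'), ⟨⟨q, h.QC hq⟩, hq⟩, rfl, rfl⟩
  · intro q' hq'
    exact ⟨((ph.symm ⟨⟨q', h'.QC hq'⟩, hq'⟩ : C) : G), ph.symm ⟨⟨q', h'.QC hq'⟩, hq'⟩, rfl,
      by rw [ph.apply_symm_apply]⟩
  · rintro q' ⟨q, hq1, hq2⟩
    have h1 : q = 1 := Subtype.ext (Subtype.ext hq1)
    rw [h1, map_one] at hq2
    exact hq2.symm
  · rintro q ⟨q1, hq1, hq2⟩
    have h1 : ph q1 = 1 := Subtype.ext (Subtype.ext hq2)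
    rw [MulEquiv.map_eq_one_iff] at h1
    rw [h1] at hq1
    exact hq1.symm
  · exact ⟨⟨⟨z, hc.zC⟩, h.zQ⟩, rfl, congrArg Subtype.val (H'.psi_z (x := ⟨⟨z, hc.zC⟩, h.zQ⟩) rfl)⟩
  · exact ⟨⟨⟨y, h.QC h.yQ⟩, h.yQ⟩, rfl, congrArg Subtype.val l2⟩
  · exact ⟨⟨⟨q₀, h.QC h.q₀Q⟩, h.q₀Q⟩, rfl, congrArg Subtype.val l3⟩
  · rintro ⟨d, d'⟩ ⟨q, hq1, hq2⟩
    have hq1' : ((q : C) : G) = d := hq1
    have hq2' : ((ph q : C') : G') = d' := hq2
    show d ∈ E ↔ d' ∈ E'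
    have e1 : ((q : C) : G) ∈ E ↔ eta ((q : C) : G) ∈ W12 := hE _ q.2
    have e2 : ((ph q : C') : G') ∈ E' ↔ eta' ((ph q : C') : G') ∈ W12 := hE' _ (ph q).2
    have e3 : eta' ((ph q : C') : G') = eta ((q : C) : G) := l1 q
    rw [← hq1', ← hq2', e1, e2, e3]
  · intro c hcz
    obtain ⟨c', hcc⟩ := H'.exists_right (c := ⟨c, hcz⟩) (Subtype.ext (h.Cz c hcz))
    exact ⟨c', mem_Gam_of_rel hc.large hcc⟩
  · intro c' hcz
    obtain ⟨c, hcc⟩ := H'.exists_left (c' := ⟨c', hcz⟩) (Subtype.ext (h'.Cz c' hcz))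
    exact ⟨c, mem_Gam_of_rel hc.large hcc⟩
  · exact mem_Gam_of_rel hc.large l4

end rel

end Cfsg.Agent.H861.RTwoOf
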