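import Cfsg.Agent.H861.RSideOf
import Cfsg.Agent.H861.RTwoOf
import Cfsg.Agent.H861.RHom
import Cfsg.Agent.MonsterU.AmalSideOf

/-!
# The homomorphisms from the model to a group with a relative chart
-/

set_option autoImplicit false

open Cfsg

namespace Cfsg.Agent.H861.RAmal

open Cfsg.Agent.MonsterU
open Cfsg.Agent.MonsterU.Lam2 (L2 IsType)
open Cfsg.Agent.MonsterU.CoFrameL2
open Cfsg.Agent.MonsterU.CoFrameIrr
open Cfsg.Agent.MonsterU.AmalSide (four)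
open Cfsg.Agent.H861.RCh
open Cfsg.Agent.H861.RElts (Nrm)
open Cfsg.Spor (Co1)

variable {Γ G : Type*} [Group Γ] [Group G] [Finite Γ]
  {Q : Subgroup Γ} {z : Γ} {eta : Γ → L2} {pi : Subgroup.centralizer ({z} : Set Γ) →* Co1}
  {C' N' Q' : Subgroup G} {z' : G} {eta' : G → L2} {pi' : C' →* Co1}

/-- The output of step (D). -/
structure Homs (C' N' Q' : Subgroup G) (z' y' : G) (eta' : G → L2) (Q : Subgroup Γ) (z y : Γ)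
    (eta : Γ → L2) (α : PlaneGeo.K z →* G) (β : PlaneGeo.N z y →* G) : Prop where
  kn : ∀ c (hc : c ∈ PlaneGeo.K z) (hn : c ∈ PlaneGeo.N z y), α ⟨c, hc⟩ = β ⟨c, hn⟩
  inj : Function.Injective α
  range : α.range = C'
  αz : ∀ hz : z ∈ PlaneGeo.K z, α ⟨z, hz⟩ = z'
  αy : ∀ hy : y ∈ PlaneGeo.K z, α ⟨y, hy⟩ = y'
  αQ : ∀ c (hc : c ∈ PlaneGeo.K z), c ∈ Q ↔ α ⟨c, hc⟩ ∈ Q'
  αE : ∀ c (hc : c ∈ PlaneGeo.K z), c ∈ Q → (eta c ∈ W12 ↔ eta' (α ⟨c, hc⟩) ∈ W12)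
  τ : ∃ τ, ∃ hτ : τ ∈ PlaneGeo.N z y, β ⟨τ, hτ⟩ ∈ N' ∧ β ⟨τ, hτ⟩ * z' * (β ⟨τ, hτ⟩)⁻¹ = y' ∧
    β ⟨τ, hτ⟩ * y' * (β ⟨τ, hτ⟩)⁻¹ = z' * y' ∧ τ * z * τ⁻¹ = y ∧ τ * y * τ⁻¹ = z * y

/-- **Step (D)**, relative version. -/
theorem homs (h : Ch.Chart Q z eta pi) {y : Γ} (hyQ : y ∈ Q) (hne : y ≠ z)
    (hconj : ∃ g, g * z * g⁻¹ = y) (h' : Chart C' Q' z' eta' pi') {y' : G} (hyQ' : y' ∈ Q')
    (hy' : eta' y' = f0) (hN : Nrm C' N' Q' z' y') {t : G} (ht : t ∈ N') (htz : t * z' * t⁻¹ = y')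
    (hty : t * y' * t⁻¹ = z' * y') :
    ∃ (eta₁ : Γ → L2) (pi₁ : Subgroup.centralizer ({z} : Set Γ) →* Co1) (_ : Ch.Chart Q z eta₁ pi₁)
      (_ : eta₁ y = f0) (α : PlaneGeo.K z →* G) (β : PlaneGeo.N z y →* G),
      Homs C' N' Q' z' y' eta' Q z y eta₁ α β := by
  obtain ⟨eta₁, pi₁, h₁, τ, x, u, q₀, e₁, a₁, S, hy₁, hx₁⟩ :=
    AmalSideOf.exists_side h hyQ hne hconj
  obtain ⟨τ', x', u', q₀', e₁', a₁', S', hx₂, hτ'⟩ := RSideOf.exists_side h' hyQ' hy' hN ht htz hty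
  have SR := RHom.side_of_abs S
  have hR := Chart.ofAbs h₁
  have hEE : ∀ q ∈ Q, q ∈ AmalGen.EE h₁ ↔ eta₁ q ∈ W12 := fun q hq =>
    ⟨fun t => t.2, fun t => ⟨hq, t⟩⟩
  have hEE' : ∀ q ∈ Q', q ∈ RGen.EE h' ↔ eta' q ∈ W12 := fun q hq =>
    ⟨fun t => t.2, fun t => ⟨hq, t⟩⟩
  obtain ⟨psi, T⟩ := RTwoOf.exists_two hR h' SR S' hEE hEE' hy₁ hy' hx₁ hx₂
  obtain ⟨α, β, k1, k2, k3, k4, k5, k6⟩ := RHom.exists_homs SR S' T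
    (RPerf.odd_relIndex hR hyQ hy₁) rfl
  have hQK : ∀ q ∈ Q, q ∈ PlaneGeo.K z := fun q hq =>
    Subgroup.mem_centralizer_singleton_iff.2 (h.large.comm_z q hq)
  have hQ : ∀ q (hq : q ∈ Q), (q, α ⟨q, hQK q hq⟩) ∈ RTwoOf.graph psi := by
    intro q hq
    obtain ⟨q', hq'⟩ := T.Ds1 q hq
    have := k5 _ hq' (hQK q hq)
    rw [this]; exact hq'
  refine ⟨eta₁, pi₁, h₁, hy₁, α, β, ?_⟩
  refine
    { kn := k1
      inj := k2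
      range := k3
      αz := fun hz => k5 (z, z') T.Dz hz
      αy := fun hy => k5 (y, y') T.Dy hy
      αQ := ?_
      αE := ?_
      τ := ?_ }
  · intro c hc
    constructor
    · intro hcQ
      exact T.D2 _ (hQ c hcQ)
    · intro hcQ
      obtain ⟨q, hq⟩ := T.Ds2 _ hcQ
      have hqQ : q ∈ Q := T.D1 _ hq
      have h1 := k5 _ hq (hQK q hqQ)
      have h2 := k2 h1
      have h3 : q = c := congrArg Subtype.val h2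
      rw [← h3]; exact hqQ
  · intro c hc hcQ
    have h1 := T.DE _ (hQ c hcQ)
    rw [← hEE c hcQ, ← hEE' _ (T.D2 _ (hQ c hcQ))]
    exact h1
  · have hτN : τ ∈ PlaneGeo.N z y := by
      rw [← AmalHom.NN_eq]
      exact RHom.τ_mem_NN SR
    refine ⟨τ, hτN, ?_⟩
    rw [k6 hτN]
    exact ⟨hτ', S'.τz, S'.τy, S.τz, S.τy⟩

end Cfsg.Agent.H861.RAmal
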