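import Cfsg.Agent.H861.RChart
import Cfsg.Agent.MonsterU.ChartFinal
import Cfsg.Agent.J2.ExtQuot
import Cfsg.Agent.Lib.Cores

/-!
# The relative chart of a subgroup of type `2^(1+24).Co1`
-/

set_option autoImplicit false

universe u

open Cfsg

namespace Cfsg.Agent.H861.RChartOf

open Cfsg.Agent.MonsterU
open Cfsg.Agent.MonsterU.Lam2 (L2)
open Cfsg.Agent.Co2Type.Quad (Large)
open Cfsg.Spor (Co1)
open Cfsg.Agent.Lib

/-- The chart of a group with central involution `z`. -/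
theorem abs {C : Type u} [Group C] (z : C) (hz : orderOf z = 2) (hc : ∀ c, c * z = z * c)
    (Q : Subgroup C) [Q.Normal] (hE : Cfsg.IsExtraspecial 2 Q) (hcard : Nat.card Q = 2 ^ 25)
    (hcc : Subgroup.centralizer (Q : Set C) ≤ Q) (hCo1 : Cfsg.Spor.IsoCo1 (C ⧸ Q)) :
    ∃ (eta : C → L2) (π : Subgroup.centralizer ({z} : Set C) →* Co1), Ch.Chart Q z eta π := by
  obtain ⟨e⟩ := hCo1
  have hfin : Finite Q := Nat.finite_of_card_ne_zero (by rw [hcard]; norm_num)
  have e1 : Q.subgroupOf ⊤ ≃* Q := Subgroup.subgroupOfEquivOfLe le_top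
  have h1 : Large ((Q.subgroupOf ⊤).map (⊤ : Subgroup C).subtype) z := by
    refine Ch.large_of_raw_aux z hz ⊤ (fun c => ⟨fun _ => hc c, fun _ => Subgroup.mem_top c⟩)
      (Q.subgroupOf ⊤) (Cfsg.Agent.J2.ExtQuot.isExtraspecial_of_equiv e1.symm hE) ?_
    intro x hx
    show (x : C) ∈ Q
    apply hcc
    rw [Subgroup.mem_centralizer_iff] at hx ⊢
    intro y hy
    exact congrArg Subtype.val (hx ⟨y, Subgroup.mem_top y⟩ hy)
  have h2 : (Q.subgroupOf ⊤).map (⊤ : Subgroup C).subtype = Q := by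
    rw [Subgroup.subgroupOf_map_subtype, inf_top_eq]
  rw [h2] at h1
  obtain ⟨eta, h⟩ := Ch.exists_chart_of_large ModFinal.moduleThm h1 hcard
    ((e.toMonoidHom.comp (QuotientGroup.mk' Q)).comp (Subgroup.centralizer ({z} : Set C)).subtype)
    (by
      intro s
      obtain ⟨c, hc'⟩ := (e.surjective.comp (QuotientGroup.mk'_surjective Q)) s
      exact ⟨⟨c, Subgroup.mem_centralizer_singleton_iff.2 (hc c)⟩, hc'⟩)
    (by
      intro c
      show e (QuotientGroup.mk' Q (c : C)) = 1 ↔ _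
      rw [map_eq_one_iff e e.injective]
      exact QuotientGroup.eq_one_iff (c : C))
  exact ⟨eta, _, h⟩

/-- The relative chart. -/
theorem exists_chart {G : Type u} [Group G] (C : Subgroup G)
    (hQ : Cfsg.IsExtraspecial 2 ↥((Cfsg.pCore 2 ↥C).map C.subtype))
    (hQc : Nat.card ↥((Cfsg.pCore 2 ↥C).map C.subtype) = 2 ^ 25)
    (hcc : C ⊓ Subgroup.centralizer (((Cfsg.pCore 2 ↥C).map C.subtype) : Set G) ≤
      ((Cfsg.pCore 2 ↥C).map C.subtype))
    (hCo : Cfsg.Spor.IsoCo1 (↥C ⧸ Cfsg.pCore 2 ↥C)) :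
    ∃ (z : G) (eta : G → L2) (pi : C →* Co1), RCh.Chart C ((Cfsg.pCore 2 ↥C).map C.subtype) z eta pi := by
  classical
  set Q₀ : Subgroup C := Cfsg.pCore 2 ↥C with hQ₀
  have hn : Q₀.Normal := Cores.pCore_normal 2
  have e0 : Q₀ ≃* Q₀.map C.subtype := Q₀.equivMapOfInjective _ C.subtype_injective
  have hcard : Nat.card Q₀ = 2 ^ 25 := by rw [← hQc]; exact Nat.card_congr e0.toEquiv
  have hfin : Finite Q₀ := Nat.finite_of_card_ne_zero (by rw [hcard]; norm_num)
  have hfin' : Finite (Q₀.map C.subtype) := Nat.finite_of_card_ne_zero (by rw [hQc]; norm_num)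
  have hE : Cfsg.IsExtraspecial 2 Q₀ := Cfsg.Agent.J2.ExtQuot.isExtraspecial_of_equiv e0.symm hQ
  have hmem : ∀ x : C, (x : G) ∈ Q₀.map C.subtype ↔ x ∈ Q₀ := by
    intro x
    constructor
    · rintro ⟨y, hy, hxy⟩
      have : y = x := Subtype.ext hxy
      rwa [← this]
    · intro hx; exact ⟨x, hx, rfl⟩
  have hcc' : Subgroup.centralizer (Q₀ : Set C) ≤ Q₀ := by
    intro x hx
    rw [← hmem]
    apply hcc
    refine ⟨x.2, Subgroup.mem_centralizer_iff.2 ?_⟩
    rintro _ ⟨y, hy, rfl⟩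
    exact congrArg Subtype.val (Subgroup.mem_centralizer_iff.1 hx y hy)
  -- the central involution
  obtain ⟨a, b, hab, huniv⟩ := Nat.card_eq_two_iff.1 hE.2
  have hex : ∃ c : Subgroup.center Q₀, c ≠ 1 := by
    by_cases h : a = 1
    · exact ⟨b, fun h' => hab (h.trans h'.symm)⟩
    · exact ⟨a, h⟩
  obtain ⟨c, hc1⟩ := hex
  have hall : ∀ y : Subgroup.center Q₀, y = 1 ∨ y = c := by
    intro y
    have ha : ∀ w : Subgroup.center Q₀, w = a ∨ w = b := by
      intro w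
      have : w ∈ ({a, b} : Set (Subgroup.center Q₀)) := by rw [huniv]; trivial
      simpa using this
    rcases ha y with h1 | h1 <;> rcases ha 1 with h2 | h2 <;> rcases ha c with h3 | h3
    · exact absurd (h3.trans h2.symm) hc1
    · left; exact h1.trans h2.symm
    · right; exact h1.trans h3.symm
    · exact absurd (h3.trans h2.symm) hc1
    · exact absurd (h3.trans h2.symm) hc1
    · right; exact h1.trans h3.symm
    · left; exact h1.trans h2.symm
    · exact absurd (h3.trans h2.symm) hc1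
  set z : C := ((c : Q₀) : C) with hz
  have hzne : z ≠ 1 := fun h => hc1 (Subtype.ext (Subtype.ext h))
  have hzc : ∀ g : C, g * z = z * g := by
    intro g
    have h1 : g * z * g⁻¹ ∈ Q₀ := hn.conj_mem z (c : Q₀).2 g
    have h2 : (⟨g * z * g⁻¹, h1⟩ : Q₀) ∈ Subgroup.center Q₀ := by
      rw [Subgroup.mem_center_iff]
      intro y
      apply Subtype.ext
      have h3 : g⁻¹ * (y : C) * g ∈ Q₀ := by
        have := hn.conj_mem (y : C) y.2 g⁻¹
        rwa [inv_inv] at this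
      have h4 : (g⁻¹ * (y : C) * g) * z = z * (g⁻¹ * (y : C) * g) :=
        congrArg Subtype.val (Subgroup.mem_center_iff.1 c.2 ⟨_, h3⟩)
      show (y : C) * (g * z * g⁻¹) = g * z * g⁻¹ * y
      calc (y : C) * (g * z * g⁻¹) = g * ((g⁻¹ * (y : C) * g) * z) * g⁻¹ := by group
        _ = g * (z * (g⁻¹ * (y : C) * g)) * g⁻¹ := by rw [h4]
        _ = g * z * g⁻¹ * y := by group
    rcases hall ⟨_, h2⟩ with h3 | h3
    · exfalso
      have h4 : g * z * g⁻¹ = 1 := congrArg (fun y : Subgroup.center Q₀ => ((y : Q₀) : C)) h3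
      apply hzne
      rw [mul_inv_eq_one] at h4
      exact mul_eq_left.1 h4
    · have h4 : g * z * g⁻¹ = z := congrArg (fun y : Subgroup.center Q₀ => ((y : Q₀) : C)) h3
      exact mul_inv_eq_iff_eq_mul.1 h4
  have hz2 : orderOf z = 2 := by
    have h1 : orderOf c ∣ 2 := by rw [← hE.2]; exact orderOf_dvd_natCard c
    have h2 : orderOf c ≠ 1 := by rw [Ne, orderOf_eq_one_iff]; exact hc1
    have h3 : orderOf c = 2 := (Nat.dvd_prime Nat.prime_two).1 h1 |>.resolve_left h2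
    rw [← h3, ← Subgroup.orderOf_coe c, ← Subgroup.orderOf_coe (c : Q₀)]
  obtain ⟨eta, π, h⟩ := abs z hz2 hzc Q₀ hE hcard hcc' hCo
  have hzG : ∀ g : C, (g : G) * (z : G) = z * g := fun g => congrArg Subtype.val (hzc g)
  have hQC : Q₀.map C.subtype ≤ C := Subgroup.map_subtype_le _
  refine ⟨z, fun g => if hg : g ∈ C then eta ⟨g, hg⟩ else 0,
    π.comp { toFun := fun c => ⟨c, Subgroup.mem_centralizer_singleton_iff.2 (hzc c)⟩
             map_one' := rfl
             map_mul' := fun _ _ => rfl }, ?_⟩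
  have heta : ∀ (g : G) (hg : g ∈ C), (if hg : g ∈ C then eta ⟨g, hg⟩ else 0) = eta ⟨g, hg⟩ :=
    fun g hg => dif_pos hg
  refine
    { Cz := fun c hc => hzG ⟨c, hc⟩
      QC := hQC
      large := ?_
      fin := hfin'
      eta_mul := ?_
      eta_zero := ?_
      eta_surj := ?_
      eta_conj := ?_
      pi_surj := ?_ }
  · exact
      { z_mem := (hmem z).2 h.large.z_mem
        z_ne := fun e => h.large.z_ne (Subtype.ext e)
        z_sq := congrArg Subtype.val h.large.z_sq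
        comm_z := fun x hx => hzG ⟨x, hQC hx⟩
        conj_mem := fun g hg x hx =>
          (hmem (⟨g, hg⟩ * ⟨x, hQC hx⟩ * ⟨g, hg⟩⁻¹)).2 (hn.conj_mem _ ((hmem ⟨x, hQC hx⟩).1 hx) _)
        sq := fun x hx => (h.large.sq ⟨x, hQC hx⟩ ((hmem ⟨x, hQC hx⟩).1 hx)).imp
          (congrArg Subtype.val) (congrArg Subtype.val)
        comm := fun x hx y hy => (h.large.comm ⟨x, hQC hx⟩ ((hmem ⟨x, hQC hx⟩).1 hx) ⟨y, hQC hy⟩
          ((hmem ⟨y, hQC hy⟩).1 hy)).imp (congrArg Subtype.val) (congrArg Subtype.val)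
        cent := fun x hx hc => (h.large.cent ⟨x, hQC hx⟩ ((hmem ⟨x, hQC hx⟩).1 hx)
          (fun y hy => Subtype.ext (hc y ((hmem y).2 hy)))).imp (congrArg Subtype.val)
            (congrArg Subtype.val)
        self := fun g hg hc => (hmem ⟨g, hg⟩).2 (h.large.self ⟨g, hg⟩ (hzc _)
          (fun x hx => Subtype.ext (hc x ((hmem x).2 hx)))) }
  · intro x hx y hy
    have hx' := hQC hx
    have hy' := hQC hy
    show (if hg : x * y ∈ C then eta ⟨x * y, hg⟩ else 0) = _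
    rw [heta _ (C.mul_mem hx' hy'), heta _ hx', heta _ hy']
    exact h.eta_mul ⟨x, hx'⟩ ((hmem ⟨x, hx'⟩).1 hx) ⟨y, hy'⟩ ((hmem ⟨y, hy'⟩).1 hy)
  · intro x hx
    have hx' := hQC hx
    show (if hg : x ∈ C then eta ⟨x, hg⟩ else 0) = 0 ↔ _
    rw [heta _ hx', h.eta_zero ⟨x, hx'⟩ ((hmem ⟨x, hx'⟩).1 hx)]
    exact ⟨fun t => t.imp (congrArg Subtype.val) (congrArg Subtype.val),
      fun t => t.imp (fun e => Subtype.ext e) (fun e => Subtype.ext e)⟩
  · intro v
    obtain ⟨x, hx, e⟩ := h.eta_surj v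
    refine ⟨x, (hmem x).2 hx, ?_⟩
    show (if hg : (x : G) ∈ C then eta ⟨x, hg⟩ else 0) = v
    rw [heta _ x.2]
    exact e
  · intro c x hx
    have hx' := hQC hx
    show (if hg : (c : G) * x * (c : G)⁻¹ ∈ C then eta ⟨(c : G) * x * (c : G)⁻¹, hg⟩ else 0) = _ • (if hg : x ∈ C then eta ⟨x, hg⟩ else 0)
    rw [heta _ (C.mul_mem (C.mul_mem c.2 hx') (C.inv_mem c.2)), heta _ hx']
    exact h.eta_conj ⟨c, Subgroup.mem_centralizer_singleton_iff.2 (hzc c)⟩ ⟨x, hx'⟩ ((hmem ⟨x, hx'⟩).1 hx)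
  · intro s
    obtain ⟨c, hc⟩ := h.pi_surj s
    exact ⟨c, hc⟩

end Cfsg.Agent.H861.RChartOf
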