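import Cfsg.Agent.MonsterU.AmalInf
import Cfsg.Agent.H861.RGen

/-!
# The intersection of `Q` and a conjugate, relative version
-/

set_option autoImplicit false
set_option linter.unusedSectionVars false

open Cfsg

namespace Cfsg.Agent.H861.RInf

open Cfsg.Agent.SporadicA
open Cfsg.Agent.SporadicA.Co1Simple
open Cfsg.Agent.CoOneType.CoOneE (pr E)
open Cfsg.Agent.MonsterU
open Cfsg.Agent.MonsterU.Lam2 (L2 cl cl_surjective bf qf bf_add_left bf_add_right bf_cl_eq_zero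
  bf_comm bf_zero_left bf_zero_right bf_self add_self neg_eq cl_two)
open Cfsg.Agent.MonsterU.CoFrameL2
open Cfsg.Agent.MonsterU.CoFrameIrr
open Cfsg.Agent.MonsterU.AmalSide (four)
open Cfsg.Agent.MonsterU.AmalGen (bf_W12 mem_W12_of_bf gen_W12 gen_W23 sum_X_W12 sum_X_W23)
open Cfsg.Agent.MonsterU.AmalInf (W12_ne_W1 W23_ne_W12 exists_bf qf_f0 exists_E_ne)
open Cfsg.Agent.H861.RSide (cent2 mem_cent2)
open Cfsg.Agent.H861.RGen hiding EQ zE yE Ey Eab Eself En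
open Cfsg.Agent.H861.RCh
open Cfsg.Spor (Co1)

/-! ### The chart -/

variable {G : Type*} [Group G] {C Q : Subgroup G} {z : G} {eta : G → L2} {pi : C →* Co1}

section

variable (h : Chart C Q z eta pi)
include h

/-- the action in terms of commutators -/
theorem eta_comm (c : C) {q : G} (hq : q ∈ Q) :
    (c : G) * q * (c : G)⁻¹ * q⁻¹ ∈ Q ∧
      eta ((c : G) * q * (c : G)⁻¹ * q⁻¹) = pi c • eta q - eta q := by
  have h1 := h.large.conj_mem c c.2 q hq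
  refine ⟨Q.mul_mem h1 (Q.inv_mem hq), ?_⟩
  rw [h.eta_mul _ h1 _ (Q.inv_mem hq), h.eta_inv hq, h.eta_conj c q hq, sub_eq_add_neg, neg_eq]

theorem comm_mem_pre (c : C) {q : G} (hq : q ∈ Q)
    {W : AddSubgroup L2} : (c : G) * q * (c : G)⁻¹ * q⁻¹ ∈ pre h W ↔ pi c • eta q - eta q ∈ W := by
  obtain ⟨h1, h2⟩ := eta_comm h c hq
  rw [mem_pre, h2]
  exact ⟨fun t => t.2, fun t => ⟨h1, t⟩⟩

variable {y : G} (hyQ : y ∈ Q) (hy : eta y = f0)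

include hyQ hy in
/-- Every element of the stabiliser of the frame is induced by `C(z, y)`. -/
theorem exists_lift {s : Co1} (hs : s ∈ F) :
    ∃ c : C, pi c = s ∧ (c : G) * y = y * c := by
  obtain ⟨c, rfl⟩ := h.pi_surj s
  rcases (pi_mem_F_iff h hyQ hy c).1 hs with h1 | h1
  · exact ⟨c, rfl, h1⟩
  · -- an element of `Q` not commuting with `y`
    obtain ⟨q, hq, hqy⟩ : ∃ q ∈ Q, q * y ≠ y * q := by
      by_contra hn
      push Not at hn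
      rcases h.large.cent y hyQ fun q hq => (hn q hq).symm with h2 | h2
      · rw [h2, h.eta_one] at hy
        exact f0_ne hy.symm
      · rw [h2, h.eta_z] at hy
        exact f0_ne hy.symm
    have h2 : q * y = y * q * z := (h.large.comm q hq y hyQ).resolve_left hqy
    have hqc : q ∈ C := h.QC hq
    have hc := h.Cz _ c.2
    have hyz := h.large.comm_z y hyQ
    refine ⟨⟨q, hqc⟩ * c, ?_, ?_⟩
    · rw [map_mul, (h.pi_eq_one ⟨q, hqc⟩).2 hq, one_mul]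
    · show q * (c : G) * y = y * (q * c)
      have hqz := h.large.comm_z q hq
      calc q * (c : G) * y = q * (c * y) := by group
        _ = q * (y * z * c) := by rw [h1]
        _ = q * y * (z * c) := by group
        _ = y * q * z * (z * c) := by rw [h2]
        _ = y * q * (z * z) * c := by group
        _ = y * (q * c) := by rw [h.large.z_sq]; group

variable {τ : G} (τz : τ * z * τ⁻¹ = y) (τy : τ * y * τ⁻¹ = z * y)
  (hB : ∀ b ∈ cent2 C z y, τ * b * τ⁻¹ ∈ cent2 C z y)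
  (hB' : ∀ b ∈ cent2 C z y, τ⁻¹ * b * τ ∈ cent2 C z y)

section

include h hyQ hy τz τy hB hB'

theorem y_sq : y * y = 1 := by
  rw [h.sq_one hyQ, hy, qf_f0]

theorem zy_comm : z * y = y * z := (h.large.comm_z y hyQ).symm

theorem y_inv : y⁻¹ = y := inv_eq_of_mul_eq_one_left (y_sq h hyQ hy τz τy hB hB')

theorem τzy : τ * (z * y) * τ⁻¹ = z := by
  have h1 : τ * (z * y) * τ⁻¹ = (τ * z * τ⁻¹) * (τ * y * τ⁻¹) := by group
  rw [h1, τz, τy, ← mul_assoc, ← zy_comm h hyQ hy τz τy hB hB', mul_assoc, y_sq h hyQ hy τz τy hB hB', mul_one]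

theorem τz' : τ⁻¹ * z * τ = z * y := by
  have h1 := τzy h hyQ hy τz τy hB hB'
  calc τ⁻¹ * z * τ = τ⁻¹ * (τ * (z * y) * τ⁻¹) * τ := by rw [h1]
    _ = z * y := by group

theorem τy' : τ⁻¹ * y * τ = z := by
  calc τ⁻¹ * y * τ = τ⁻¹ * (τ * z * τ⁻¹) * τ := by rw [τz]
    _ = z := by group

theorem τzy' : τ⁻¹ * (z * y) * τ = y := by
  have h1 : τ⁻¹ * (z * y) * τ = (τ⁻¹ * z * τ) * (τ⁻¹ * y * τ) := by group
  have h2 := h.large.z_sq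
  rw [h1, τz' h hyQ hy τz τy hB hB', τy' h hyQ hy τz τy hB hB', zy_comm h hyQ hy τz τy hB hB', mul_assoc, h2, mul_one]

end

/-- The conjugate of `Q`. -/
def AA (Q : Subgroup G) (τ : G) : Subgroup G := Q.map (MulAut.conj τ).toMonoidHom

omit h in
theorem mem_AA {a : G} : a ∈ AA Q τ ↔ τ⁻¹ * a * τ ∈ Q := by
  rw [AA, Subgroup.mem_map]
  constructor
  · rintro ⟨b, hb, rfl⟩
    have : τ⁻¹ * ((MulAut.conj τ).toMonoidHom b) * τ = b := by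
      show τ⁻¹ * (τ * b * τ⁻¹) * τ = b
      group
    rw [this]; exact hb
  · intro hb
    refine ⟨_, hb, ?_⟩
    show τ * (τ⁻¹ * a * τ) * τ⁻¹ = a
    group

/-- `C_{Q^τ}(z)` -/
def CA (C Q : Subgroup G) (τ : G) : Subgroup G := AA Q τ ⊓ C

omit h in
theorem mem_CA {a : G} : a ∈ CA C Q τ ↔ τ⁻¹ * a * τ ∈ Q ∧ a ∈ C := by
  rw [CA, Subgroup.mem_inf, mem_AA]

section

include h hyQ hy τz τy hB hB'

/-- elements of `Q^τ` commute with `y` -/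
theorem comm_AA {a : G} (ha : a ∈ AA Q τ) : a * y = y * a := by
  rw [mem_AA] at ha
  have h1 := h.large.comm_z _ ha
  calc a * y = a * (τ * z * τ⁻¹) := by rw [τz]
    _ = τ * (τ⁻¹ * a * τ * z) * τ⁻¹ := by group
    _ = τ * (z * (τ⁻¹ * a * τ)) * τ⁻¹ := by rw [h1]
    _ = τ * z * τ⁻¹ * a := by group
    _ = y * a := by rw [τz]

/-- commutators in `Q^τ` -/
theorem comm_AA' {a b : G} (ha : a ∈ AA Q τ) (hb : b ∈ AA Q τ) :
    a * b * a⁻¹ * b⁻¹ = 1 ∨ a * b * a⁻¹ * b⁻¹ = y := by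
  rw [mem_AA] at ha hb
  have e : a * b * a⁻¹ * b⁻¹ = τ * ((τ⁻¹ * a * τ) * (τ⁻¹ * b * τ) * (τ⁻¹ * a * τ)⁻¹ *
    (τ⁻¹ * b * τ)⁻¹) * τ⁻¹ := by group
  rw [e]
  rcases h.large.comm _ ha _ hb with h1 | h1
  · left; rw [h1]; group
  · right
    rw [h1, ← τz]
    have h2 := h.large.comm_z _ hb
    have h3 := h.large.comm_z _ ha
    have h4 : τ⁻¹ * b * τ * (τ⁻¹ * a * τ) * z * (τ⁻¹ * a * τ)⁻¹ * (τ⁻¹ * b * τ)⁻¹ = z := by
      generalize τ⁻¹ * b * τ = b' at h2 ⊢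
      generalize τ⁻¹ * a * τ = a' at h3 ⊢
      calc b' * a' * z * a'⁻¹ * b'⁻¹ = b' * (a' * z) * a'⁻¹ * b'⁻¹ := by group
        _ = b' * z * b'⁻¹ := by rw [h3]; group
        _ = z := by rw [h2]; group
    rw [h4]

/-- commutators in `Q` -/
theorem comm_Q' {a b : G} (ha : a ∈ Q) (hb : b ∈ Q) :
    a * b * a⁻¹ * b⁻¹ = 1 ∨ a * b * a⁻¹ * b⁻¹ = z := by
  rcases h.large.comm a ha b hb with h1 | h1
  · left; rw [h1]; group
  · right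
    have h2 := h.large.comm_z b hb
    have h3 := h.large.comm_z a ha
    rw [h1]
    calc b * a * z * a⁻¹ * b⁻¹ = b * (a * z) * a⁻¹ * b⁻¹ := by group
      _ = b * z * b⁻¹ := by rw [h3]; group
      _ = z := by rw [h2]; group

theorem z_ne_y : z ≠ y := by
  intro e
  rw [← e, h.eta_z] at hy
  exact f0_ne hy.symm

/-- `Q ∩ Q^τ` is commutative. -/
theorem inf_comm {a b : G} (ha : a ∈ Q) (ha' : a ∈ AA Q τ) (hb : b ∈ Q) (hb' : b ∈ AA Q τ) :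
    a * b = b * a := by
  rcases comm_Q' h hyQ hy τz τy hB hB' ha hb with h1 | h1
  · calc a * b = (a * b * a⁻¹ * b⁻¹) * (b * a) := by group
      _ = b * a := by rw [h1, one_mul]
  · rcases comm_AA' h hyQ hy τz τy hB hB' ha' hb' with h2 | h2
    · calc a * b = (a * b * a⁻¹ * b⁻¹) * (b * a) := by group
        _ = b * a := by rw [h2, one_mul]
    · exact absurd (h1.symm.trans h2) (z_ne_y h hyQ hy τz τy hB hB')

theorem y_mem_AA : y ∈ AA Q τ := by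
  rw [mem_AA, τy' h hyQ hy τz τy hB hB']
  exact h.large.z_mem

theorem z_mem_AA : z ∈ AA Q τ := by
  rw [mem_AA, τz' h hyQ hy τz τy hB hB']
  exact Q.mul_mem h.large.z_mem hyQ

/-- `C_{Q^τ}(z)` is not contained in `Q`. -/
theorem exists_CA : ∃ a ∈ CA C Q τ, a ∉ Q := by
  by_contra hn
  push Not at hn
  obtain ⟨v, hv, w, hw, hvw⟩ := exists_bf
  obtain ⟨a, ha, rfl⟩ := h.eta_surj v
  obtain ⟨b, hb, rfl⟩ := h.eta_surj w
  have key : ∀ {a : G}, a ∈ Q → eta a ∈ W23 → τ * a * τ⁻¹ ∈ CA C Q τ := by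
    intro a ha hv
    have h1 := (comm_y h hyQ hy ha).2 hv
    have h2 := h.large.comm_z a ha
    rw [mem_CA]
    refine ⟨?_, ?_⟩
    · have : τ⁻¹ * (τ * a * τ⁻¹) * τ = a := by group
      rwa [this]
    · exact (mem_cent2.1 (hB a (mem_cent2.2 ⟨h.QC ha, h2, h1⟩))).1
  have ha' := key ha hv
  have hb' := key hb hw
  have h1 := inf_comm h hyQ hy τz τy hB hB' (hn _ ha') ha'.1 (hn _ hb') hb'.1
  apply hvw
  rw [← h.comm_iff ha hb]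
  have h2 : τ * (a * b) * τ⁻¹ = τ * (b * a) * τ⁻¹ := by
    have e1 : τ * (a * b) * τ⁻¹ = τ * a * τ⁻¹ * (τ * b * τ⁻¹) := by group
    have e2 : τ * (b * a) * τ⁻¹ = τ * b * τ⁻¹ * (τ * a * τ⁻¹) := by group
    rw [e1, e2, h1]
  exact mul_left_cancel (mul_right_cancel h2)

/-- `pi` of an element of `C_{Q^τ}(z)` fixes the frame. -/
theorem pi_CA {a : G} (ha : a ∈ CA C Q τ) :
    ∃ hc : a ∈ C, pi ⟨a, hc⟩ ∈ F :=
  ⟨ha.2, pi_mem_F h hyQ hy _ (comm_AA h hyQ hy τz τy hB hB' ha.1)⟩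

/-- The centraliser of `y` normalises `Q^τ`. -/
theorem conj_AA {c : G} (hc : c ∈ cent2 C z y) {a : G} (ha : a ∈ AA Q τ) : c * a * c⁻¹ ∈ AA Q τ := by
  rw [mem_AA] at ha ⊢
  have h1 : τ⁻¹ * c * τ ∈ C := (mem_cent2.1 (hB' c hc)).1
  have h2 := h.large.conj_mem _ h1 _ ha
  have e : τ⁻¹ * (c * a * c⁻¹) * τ = τ⁻¹ * c * τ * (τ⁻¹ * a * τ) * (τ⁻¹ * c * τ)⁻¹ := by group
  rw [e]; exact h2

end

/-- The image of `Q ∩ Q^τ` in `Λ/2Λ`. -/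
def DD (h : Chart C Q z eta pi) (τ : G) : AddSubgroup L2 where
  carrier := {v | ∃ q ∈ Q, q ∈ AA Q τ ∧ eta q = v}
  zero_mem' := ⟨1, Q.one_mem, Subgroup.one_mem _, h.eta_one⟩
  add_mem' := by
    rintro _ _ ⟨a, ha, ha', rfl⟩ ⟨b, hb, hb', rfl⟩
    exact ⟨a * b, Q.mul_mem ha hb, Subgroup.mul_mem _ ha' hb', h.eta_mul a ha b hb⟩
  neg_mem' := by
    rintro _ ⟨a, ha, ha', rfl⟩
    exact ⟨a, ha, ha', (neg_eq _).symm⟩

section

include h hyQ hy τz τy hB hB'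

theorem mem_DD {q : G} (hq : q ∈ Q) : eta q ∈ DD h τ ↔ q ∈ AA Q τ := by
  constructor
  · rintro ⟨r, hr, hr', hrq⟩
    rcases (h.eta_eq hq hr).1 hrq.symm with rfl | rfl
    · exact hr'
    · exact Subgroup.mul_mem _ hr' (z_mem_AA h hyQ hy τz τy hB hB')
  · intro hq'
    exact ⟨q, hq, hq', rfl⟩

theorem DD_inv : ∀ s ∈ F, ∀ x ∈ DD h τ, s • x ∈ DD h τ := by
  rintro s hs _ ⟨q, hq, hq', rfl⟩
  obtain ⟨c, rfl, hc⟩ := exists_lift h hyQ hy hs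
  rw [← h.eta_conj c q hq]
  exact ⟨_, h.large.conj_mem c c.2 q hq,
    conj_AA h hyQ hy τz τy hB hB' (mem_cent2.2 ⟨c.2, h.Cz _ c.2, hc⟩) hq', rfl⟩

/-- The elements of `Q` with image in `W23` are not all in `Q^τ`. -/
theorem not_W23_le : ¬ W23 ≤ DD h τ := by
  intro hle
  obtain ⟨v, hv, w, hw, hvw⟩ := exists_bf
  obtain ⟨a, ha, rfl⟩ := h.eta_surj v
  obtain ⟨b, hb, rfl⟩ := h.eta_surj w
  apply hvw
  rw [← h.comm_iff ha hb]
  exact inf_comm h hyQ hy τz τy hB hB' ha ((mem_DD h hyQ hy τz τy hB hB' ha).1 (hle hv)) hb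
    ((mem_DD h hyQ hy τz τy hB hB' hb).1 (hle hw))

/-- commutators of `C_{Q^τ}(z)` and `C_Q(y)` -/
theorem comm_inf {a q : G} (ha : a ∈ CA C Q τ) (hq : q ∈ Q) (hq' : eta q ∈ W23) :
    a * q * a⁻¹ * q⁻¹ ∈ Q ∧ a * q * a⁻¹ * q⁻¹ ∈ AA Q τ := by
  refine ⟨(eta_comm h ⟨a, ha.2⟩ hq).1, ?_⟩
  have h1 := conj_AA h hyQ hy τz τy hB hB'
    (mem_cent2.2 ⟨h.QC hq, h.large.comm_z q hq, (comm_y h hyQ hy hq).2 hq'⟩) (Subgroup.inv_mem _ ha.1)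
  have e : a * q * a⁻¹ * q⁻¹ = a * (q * a⁻¹ * q⁻¹) := by group
  rw [e]
  exact Subgroup.mul_mem _ ha.1 h1

theorem DD_eq : DD h τ = W12 := by
  have hf : f0 ∈ DD h τ := ⟨y, hyQ, y_mem_AA h hyQ hy τz τy hB hB', hy⟩
  rcases uniserial _ (DD_inv h hyQ hy τz τy hB hB') with e | e | e | e | e
  · rw [e] at hf
    exact absurd (AddSubgroup.mem_bot.1 hf) f0_ne
  · exfalso
    obtain ⟨a, ha, haQ⟩ := exists_CA h hyQ hy τz τy hB hB'
    obtain ⟨hc, hF⟩ := pi_CA h hyQ hy τz τy hB hB' ha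
    have key : ∀ x ∈ W23, pi ⟨a, hc⟩ • x - x ∈ W1 := by
      intro x hx
      obtain ⟨q, hq, rfl⟩ := h.eta_surj x
      obtain ⟨h1, h2⟩ := comm_inf h hyQ hy τz τy hB hB' ha hq hx
      rw [← e, ← (eta_comm h ⟨a, hc⟩ hq).2]
      exact ⟨_, h1, h2, rfl⟩
    have hE := mem_E_of_trivial hF fun x hx => key x (W12_le_W23 hx)
    exact haQ ((h.pi_eq_one ⟨a, hc⟩).1 (E_eq_one_of_W23 hE key))
  · exact e
  · exact absurd e.ge (not_W23_le h hyQ hy τz τy hB hB')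
  · exact absurd (e ▸ le_top) (not_W23_le h hyQ hy τz τy hB hB')

/-- **`Q ∩ Q^τ` is the inverse image of `W12`.** -/
theorem mem_EE_iff {q : G} : q ∈ EE h ↔ q ∈ Q ∧ q ∈ AA Q τ := by
  rw [mem_pre]
  refine and_congr_right fun hq => ?_
  rw [← DD_eq h hyQ hy τz τy hB hB', mem_DD h hyQ hy τz τy hB hB' hq]

theorem Einf : ∀ a ∈ Q, τ⁻¹ * a * τ ∈ Q → a ∈ EE h :=
  fun _ ha ha' => (mem_EE_iff h hyQ hy τz τy hB hB').2 ⟨ha, mem_AA.2 ha'⟩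

/-- `E` is invariant under `τ`. -/
theorem Eτ : ∀ e ∈ EE h, τ * e * τ⁻¹ ∈ EE h := by
  intro e he
  -- the theorem for `τ⁻¹`
  have hzyQ : z * y ∈ Q := Q.mul_mem h.large.z_mem hyQ
  have hzy : eta (z * y) = f0 := by
    rw [h.eta_mul z h.large.z_mem y hyQ, h.eta_z, zero_add, hy]
  have h1 : τ⁻¹ * z * τ⁻¹⁻¹ = z * y := by rw [inv_inv]; exact τz' h hyQ hy τz τy hB hB'
  have h2 : τ⁻¹ * (z * y) * τ⁻¹⁻¹ = z * (z * y) := by
    rw [inv_inv, τzy' h hyQ hy τz τy hB hB', ← mul_assoc, h.large.z_sq, one_mul]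
  have hcB : cent2 C z (z * y) = cent2 C z y := by
    ext b
    rw [mem_cent2, mem_cent2]
    refine and_congr_right fun hbC => and_congr_right fun hbz => ?_
    constructor
    · intro e
      have e1 : z * (b * y) = z * (y * b) := by
        rw [← mul_assoc, ← hbz, mul_assoc, e, mul_assoc]
      exact mul_left_cancel e1
    · intro e
      rw [← mul_assoc, hbz, mul_assoc, e, mul_assoc]
  have h3 := ((mem_EE_iff h hzyQ hzy h1 h2 (by rw [hcB, inv_inv]; exact hB')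
    (by rw [hcB, inv_inv]; exact hB)).1 he).2
  rw [mem_AA, inv_inv] at h3
  refine Einf h hyQ hy τz τy hB hB' _ h3 ?_
  have h4 : τ⁻¹ * (τ * e * τ⁻¹) * τ = e := by group
  rw [h4]
  exact he.1

/-! ### The image of `C_{Q^τ}(z)` -/

theorem pi_CA_mem_E {a : G} (ha : a ∈ CA C Q τ) (hc : a ∈ C) :
    pi ⟨a, hc⟩ ∈ E := by
  obtain ⟨hc', hF⟩ := pi_CA h hyQ hy τz τy hB hB' ha
  refine mem_E_of_trivial hF fun x hx => ?_
  obtain ⟨q, hq, rfl⟩ := h.eta_surj x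
  rw [← (eta_comm h ⟨a, hc⟩ hq).2]
  have hq' : q ∈ AA Q τ := ((mem_EE_iff h hyQ hy τz τy hB hB').1 ⟨hq, hx⟩).2
  show eta (a * q * a⁻¹ * q⁻¹) ∈ W1
  rcases comm_AA' h hyQ hy τz τy hB hB' ha.1 hq' with h1 | h1
  · rw [h1, h.eta_one]; exact W1.zero_mem
  · rw [h1, hy]; exact f0_mem_W1

theorem exists_CA_of_E {s : Co1} (hs : s ∈ E) :
    ∃ a ∈ CA C Q τ, ∃ hc : a ∈ C, pi ⟨a, hc⟩ = s := by
  let H : Subgroup Co1 := ((CA C Q τ).subgroupOf (C)).map pi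
  have hH : ∀ s, s ∈ H ↔ ∃ a ∈ CA C Q τ, ∃ hc : a ∈ C,
      pi ⟨a, hc⟩ = s := by
    intro s
    constructor
    · rintro ⟨c, hc, rfl⟩
      exact ⟨c, hc, c.2, rfl⟩
    · rintro ⟨a, ha, hc, rfl⟩
      exact ⟨⟨a, hc⟩, ha, rfl⟩
  have hle : H ≤ E := by
    intro s hs
    obtain ⟨a, ha, hc, rfl⟩ := (hH s).1 hs
    exact pi_CA_mem_E h hyQ hy τz τy hB hB' ha hc
  have hX : ∀ s ∈ H, X * s * X⁻¹ ∈ H := by
    intro s hs
    obtain ⟨a, ha, hc, rfl⟩ := (hH s).1 hs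
    obtain ⟨c, hcX, hcy⟩ := exists_lift h hyQ hy X_mem_F
    rw [hH]
    have h1 : (c : G) * a * (c : G)⁻¹ ∈ C :=
      Subgroup.mul_mem _ (Subgroup.mul_mem _ c.2 hc) (Subgroup.inv_mem _ c.2)
    refine ⟨c * a * (c : G)⁻¹, ⟨conj_AA h hyQ hy τz τy hB hB'
      (mem_cent2.2 ⟨c.2, h.Cz _ c.2, hcy⟩) ha.1, h1⟩, h1, ?_⟩
    rw [← hcX, ← map_inv, ← map_mul, ← map_mul]
    rfl
  rw [← hH]
  rcases irr_E H hle hX with e | e
  · exfalso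
    obtain ⟨a, ha, haQ⟩ := exists_CA h hyQ hy τz τy hB hB'
    apply haQ
    have h1 : pi ⟨a, ha.2⟩ ∈ H := (hH _).2 ⟨a, ha, ha.2, rfl⟩
    rw [e, Subgroup.mem_bot] at h1
    exact (h.pi_eq_one ⟨a, ha.2⟩).1 h1
  · rw [e]; exact hs

/-! ### The fields -/

theorem cent : ∀ b ∈ cent2 C z y, (∀ e ∈ EE h, b * e * b⁻¹ * e⁻¹ ∈ four z y) →
    ∃ r ∈ Q, ∃ s ∈ Q, s * y = y * s ∧ τ * s * τ⁻¹ * z = z * (τ * s * τ⁻¹) ∧
      b = r * (τ * s * τ⁻¹) := by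
  intro b hb hE
  obtain ⟨hbc, hbz, hby⟩ := mem_cent2.1 hb
  have hbE : pi ⟨b, hbc⟩ ∈ E := by
    refine mem_E_of_trivial (pi_mem_F h hyQ hy ⟨b, hbc⟩ hby) fun x hx => ?_
    obtain ⟨q, hq, rfl⟩ := h.eta_surj x
    have h1 := hE q ⟨hq, hx⟩
    rw [← pre_W1 h hyQ hy] at h1
    exact (comm_mem_pre h ⟨b, hbc⟩ hq).1 h1
  obtain ⟨a, ha, hc, hab⟩ := exists_CA_of_E h hyQ hy τz τy hB hB' hbE
  have haQ := mem_AA.1 ha.1
  have haz := h.Cz _ ha.2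
  refine ⟨b * a⁻¹, ?_, τ⁻¹ * a * τ, haQ, ?_, ?_, ?_⟩
  · have h1 : pi (⟨b, hbc⟩ * ⟨a, hc⟩⁻¹) = 1 := by rw [map_mul, map_inv, hab, mul_inv_cancel]
    exact (h.pi_eq_one _).1 h1
  · -- `a` commutes with `z`, so `τ⁻¹ a τ` commutes with `z y` and with `z`
    have h1 := h.large.comm_z _ haQ
    have h2 : τ⁻¹ * a * τ * (z * y) = z * y * (τ⁻¹ * a * τ) := by
      have e := τz' h hyQ hy τz τy hB hB'
      calc τ⁻¹ * a * τ * (z * y) = τ⁻¹ * a * τ * (τ⁻¹ * z * τ) := by rw [e]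
        _ = τ⁻¹ * (a * z) * τ := by group
        _ = τ⁻¹ * (z * a) * τ := by rw [haz]
        _ = τ⁻¹ * z * τ * (τ⁻¹ * a * τ) := by group
        _ = z * y * (τ⁻¹ * a * τ) := by rw [e]
    have h3 : z * (τ⁻¹ * a * τ * y) = z * (y * (τ⁻¹ * a * τ)) := by
      rw [← mul_assoc, ← h1, mul_assoc, h2, mul_assoc]
    exact mul_left_cancel h3
  · have h1 : τ * (τ⁻¹ * a * τ) * τ⁻¹ = a := by group
    rw [h1]; exact haz
  · group

theorem sep0 : ∀ a ∈ Q, a * y = y * a →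
    (∀ s ∈ Q, τ * s * τ⁻¹ ∈ cent2 C z y → a * (τ * s * τ⁻¹) * a⁻¹ * (τ * s * τ⁻¹)⁻¹ ∈ four z y) →
    a ∈ EE h := by
  intro a ha _ hs
  refine ⟨ha, mem_W12_of_E' fun s hsE => ?_⟩
  obtain ⟨b, hb, hc, rfl⟩ := exists_CA_of_E h hyQ hy τz τy hB hB' hsE
  have h1 := hs (τ⁻¹ * b * τ) (mem_AA.1 hb.1)
  have e : τ * (τ⁻¹ * b * τ) * τ⁻¹ = b := by group
  rw [e, ← pre_W1 h hyQ hy] at h1
  have h2 := h1 (mem_cent2.2 ⟨hc, h.Cz _ hc, comm_AA h hyQ hy τz τy hB hB' hb.1⟩)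
  rw [← comm_mem_pre h ⟨b, hc⟩ ha]
  have h3 := Subgroup.inv_mem _ h2
  have e2 : (a * b * a⁻¹ * b⁻¹)⁻¹ = b * a * b⁻¹ * a⁻¹ := by group
  rwa [e2] at h3

theorem sep1 : ∀ s ∈ Q, τ * s * τ⁻¹ ∈ cent2 C z y →
    (∀ a ∈ Q, a * y = y * a → a * (τ * s * τ⁻¹) * a⁻¹ * (τ * s * τ⁻¹)⁻¹ ∈ four z y) →
    τ * s * τ⁻¹ ∈ EE h := by
  intro s hs hs2 hc
  obtain ⟨hbc, h1, h2⟩ := mem_cent2.1 hs2
  have key : ∀ x ∈ W23, pi ⟨τ * s * τ⁻¹, hbc⟩ • x - x ∈ W1 := by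
    intro x hx
    obtain ⟨q, hq, rfl⟩ := h.eta_surj x
    rw [← comm_mem_pre h ⟨τ * s * τ⁻¹, hbc⟩ hq, pre_W1 h hyQ hy]
    have h3 := Subgroup.inv_mem _ (hc q hq ((comm_y h hyQ hy hq).2 hx))
    have e2 : (q * (τ * s * τ⁻¹) * q⁻¹ * (τ * s * τ⁻¹)⁻¹)⁻¹ =
        (τ * s * τ⁻¹) * q * (τ * s * τ⁻¹)⁻¹ * q⁻¹ := by group
    rwa [e2] at h3
  have hE := mem_E_of_trivial (pi_mem_F h hyQ hy ⟨_, hbc⟩ h2) fun x hx => key x (W12_le_W23 hx)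
  have h3 := (h.pi_eq_one ⟨_, hbc⟩).1 (E_eq_one_of_W23 hE key)
  refine Einf h hyQ hy τz τy hB hB' _ h3 ?_
  have e : τ⁻¹ * (τ * s * τ⁻¹) * τ = s := by group
  rw [e]; exact hs

end

end

end Cfsg.Agent.H861.RInf
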