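import Cfsg.Agent.H861.RGraph
import Cfsg.Agent.MonsterU.AmalIso

/-!
The graphs over `P = C ∩ N`, over `C` (by the transfer) and over `N`.
-/

set_option autoImplicit false
set_option linter.unusedSectionVars false

namespace Cfsg.Agent.H861.RIso

open Cfsg.Agent.MonsterU.AmalPin
open Cfsg.Agent.MonsterU.AmalSide (four NoTwo)
open Cfsg.Agent.H861.RSide Cfsg.Agent.H861.RSide.Side
open Cfsg.Agent.H861.RQuot Cfsg.Agent.H861.RTwo Cfsg.Agent.H861.RGraph
open Cfsg.Agent.MonsterU.AmalGraph (mulSub mem_mulSub)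
open Cfsg.Agent.MonsterU.AmalIso (NN sym_cases)

variable {G G' : Type*} [Group G] [Group G']

/-- The stabiliser of the four group in `C`. -/
def PP {G : Type*} [Group G] (C : Subgroup G) (z y : G) : Subgroup G := C ⊓ NN z y

theorem mem_PP {G : Type*} [Group G] {C : Subgroup G} {z y c : G} :
    c ∈ PP C z y ↔ c ∈ C ∧ (∀ v ∈ four z y, c * v * c⁻¹ ∈ four z y) ∧
      (∀ v ∈ four z y, c⁻¹ * v * c ∈ four z y) := Iff.rfl

section

variable {C Q E : Subgroup G} {z y τ x u q₀ e₁ a₁ : G} {C' Q' E' : Subgroup G'}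
  {z' y' τ' x' u' q₀' e₁' a₁' : G'} {D : Subgroup (G × G')}
  (h : Side C Q E z y τ x u q₀ e₁ a₁) (h' : Side C' Q' E' z' y' τ' x' u' q₀' e₁' a₁')
  (t : Two C Q E z y x q₀ C' Q' E' z' y' x' q₀' D)

/-- The graph over `P`. -/
def DP : Subgroup (G × G') :=
  mulSub (DB C C' D z y τ τ') D fun _ hs _ ha => DB_D h h' t hs ha

theorem mem_DP {g : G × G'} : g ∈ DP h h' t ↔ ∃ a ∈ DB C C' D z y τ τ', ∃ s ∈ D, g = a * s := Iff.rfl

include h h' t

theorem DB_le_DP : DB C C' D z y τ τ' ≤ DP h h' t := fun g hg => ⟨g, hg, 1, D.one_mem, by simp⟩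

theorem D_le_DP : D ≤ DP h h' t := fun g hg => ⟨1, Subgroup.one_mem _, g, hg, by simp⟩

theorem DP_le_Gam : DP h h' t ≤ Gam C C' D := by
  rintro _ ⟨a, ha, s, hs, rfl⟩
  exact Subgroup.mul_mem _ (mem_DB.1 ha).1 (D_le_Gam h h' t hs)

theorem DP_one {c' : G'} (hc : ((1, c') : G × G') ∈ DP h h' t) : c' = 1 := by
  obtain ⟨a, ha, s, hs, e⟩ := hc
  have h1 : a.1 * s.1 = 1 := (congrArg Prod.fst e).symm
  have h2 : s.1 = a.1⁻¹ := (inv_eq_of_mul_eq_one_right h1).symm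
  have h3 : s.1 ∈ cent2 C z y := by rw [h2]; exact Subgroup.inv_mem _ (mem_DB.1 ha).2.1
  have h4 : s ∈ DB C C' D z y τ τ' := D_DB h h' t hs (mem_cent2.1 h3).2.2
  have h5 : a * s ∈ DB C C' D z y τ τ' := Subgroup.mul_mem _ ha h4
  rw [← e] at h5
  exact DB_one h h' t h5

theorem DP_surj {c : G} (hc : c ∈ PP C z y) : ∃ c', ((c, c') : G × G') ∈ DP h h' t := by
  obtain ⟨h1, h2, -⟩ := hc
  have h3 := h2 y h.y_four
  have hcy : c * y * c⁻¹ = y ∨ c * y * c⁻¹ = z * y := by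
    rcases h.mem_four.1 h3 with e | e | e | e
    · exfalso
      have : y = 1 := by
        have : y = c⁻¹ * (c * y * c⁻¹) * c := by group
        rw [e] at this
        rw [this]; group
      exact h.y_ne this
    · exfalso
      have : y = z := by
        have e1 : y = c⁻¹ * (c * y * c⁻¹) * c := by group
        rw [e] at e1
        rw [e1, mul_assoc, ← h.Cz _ h1]; group
      exact h.y_ne_z this
    · exact Or.inl e
    · exact Or.inr e
  rcases hcy with e | e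
  · have hB : c ∈ cent2 C z y := mem_cent2.2 ⟨h1, h.Cz _ h1, by
      calc c * y = c * y * c⁻¹ * c := by group
        _ = y * c := by rw [e]⟩
    obtain ⟨c', hc'⟩ := DB_surj h h' t (τ' := τ') hB
    exact ⟨c', DB_le_DP h h' t hc'⟩
  · have hB : c * q₀ ∈ cent2 C z y := by
      refine mem_cent2.2 ⟨C.mul_mem h1 (h.QC h.q₀Q), h.Cz _ (C.mul_mem h1 (h.QC h.q₀Q)), ?_⟩
      · have h1 := h.Cz _ h1
        have e1 : q₀ * y = z * y * q₀ := by rw [← h.q₀y]; group
        have e2 : c * y = z * y * c := by rw [← e]; group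
        calc c * q₀ * y = c * (q₀ * y) := by group
          _ = c * (z * y * q₀) := by rw [e1]
          _ = (c * z) * y * q₀ := by group
          _ = z * (c * y) * q₀ := by rw [h1]; group
          _ = z * (z * y * c) * q₀ := by rw [e2]
          _ = (z * z) * y * (c * q₀) := by group
          _ = y * (c * q₀) := by rw [h.z_sq, one_mul]
    obtain ⟨c', hc'⟩ := DB_surj h h' t (τ' := τ') hB
    refine ⟨c' * q₀'⁻¹, ?_⟩
    have : ((c, c' * q₀'⁻¹) : G × G') = (c * q₀, c') * (q₀, q₀')⁻¹ := by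
      refine Prod.ext ?_ rfl
      show c = c * q₀ * q₀⁻¹
      group
    rw [this]
    exact ⟨_, hc', _, D.inv_mem t.Dq, rfl⟩

omit h' in
omit t in
theorem cent_le_PP : cent2 C z y ≤ PP C z y := by
  intro b hb
  refine ⟨(mem_cent2.1 hb).1, ?_, ?_⟩
  · intro v hv
    rw [(h.mem_B_iff_four.1 hb).2 v hv, mul_inv_cancel_right]; exact hv
  · intro v hv
    rw [mul_assoc, ← (h.mem_B_iff_four.1 hb).2 v hv, inv_mul_cancel_left]; exact hv

omit h' in
omit t in
theorem Q_le_PP : Q ≤ PP C z y := by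
  intro q hq
  have key : ∀ q ∈ Q, ∀ v ∈ four z y, q * v * q⁻¹ ∈ four z y := by
    intro q hq v hv
    have h1 : q * z * q⁻¹ = z := by rw [h.Qz q hq]; group
    have h2 : q * y * q⁻¹ ∈ four z y := by
      rcases Q_y h hq with e | e <;> rw [e]
      · exact h.y_four
      · exact h.zy_four
    rcases h.mem_four.1 hv with rfl | rfl | rfl | rfl
    · simp
    · rw [h1]; exact h.z_four
    · exact h2
    · have : q * (z * y) * q⁻¹ = (q * z * q⁻¹) * (q * y * q⁻¹) := by group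
      rw [this, h1]
      exact Subgroup.mul_mem _ h.z_four h2
  refine ⟨h.QC hq, key q hq, ?_⟩
  intro v hv
  have := key q⁻¹ (Q.inv_mem hq) v hv
  rwa [inv_inv] at this

theorem DP_PP {g : G × G'} (hg : g ∈ DP h h' t) : g.1 ∈ PP C z y := by
  obtain ⟨a, ha, s, hs, rfl⟩ := hg
  exact Subgroup.mul_mem _ (cent_le_PP h (mem_DB.1 ha).2.1) (Q_le_PP h (t.D1 s hs))

omit h h' t in
/-- The part of `Γ` over `P`. -/
def HH (C : Subgroup G) (C' : Subgroup G') (D : Subgroup (G × G')) (z y : G) : Subgroup ↥(Gam C C' D) :=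
  ((PP C z y).comap (MonoidHom.fst G G')).subgroupOf (Gam C C' D)

/-- A map to `ℤˣ` on the part of `Γ` over `P` which is trivial exactly on the graph. -/
theorem exists_sign : ∃ ϕ : ↥(HH C C' D z y) →* ℤˣ,
    ∀ g, ϕ g = 1 ↔ ((g : ↥(Gam C C' D)) : G × G') ∈ DP h h' t := by
  classical
  have rep : ∀ g : ↥(HH C C' D z y),
      ((g : ↥(Gam C C' D)) : G × G') ∈ DP h h' t ∨
      ((g : ↥(Gam C C' D)) : G × G') * (1, z') ∈ DP h h' t := by
    rintro ⟨⟨g, hg⟩, hgP⟩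
    have hgP' : g.1 ∈ PP C z y := hgP
    obtain ⟨c', hc'⟩ := DP_surj h h' t hgP'
    rcases Gam_eq h h' t hg (DP_le_Gam h h' t hc') rfl with e | e
    · left; rw [e] at hc'; exact hc'
    · right; rw [e] at hc'; exact hc'
  have excl : ∀ g : G × G', g ∈ DP h h' t → g * (1, z') ∈ DP h h' t → False := by
    intro g h1 h2
    have h3 := Subgroup.mul_mem _ (Subgroup.inv_mem _ h1) h2
    rw [inv_mul_cancel_left] at h3
    exact h'.z_ne (DP_one h h' t h3)
  let f : ↥(HH C C' D z y) → ℤˣ := fun g =>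
    if ((g : ↥(Gam C C' D)) : G × G') ∈ DP h h' t then 1 else -1
  have hf : ∀ g, f g = 1 ↔ ((g : ↥(Gam C C' D)) : G × G') ∈ DP h h' t := by
    intro g
    by_cases hg : ((g : ↥(Gam C C' D)) : G × G') ∈ DP h h' t
    · simp [f, hg]
    · simp only [f, hg, if_false, iff_false]
      decide
  have hf' : ∀ g : ↥(HH C C' D z y), ((g : ↥(Gam C C' D)) : G × G') ∉ DP h h' t → f g = -1 := by
    intro g hg
    simp [f, hg]
  refine ⟨MonoidHom.mk' f ?_, hf⟩
  intro a b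
  have hb1 := (b : ↥(Gam C C' D)).2
  have comm : ((b : ↥(Gam C C' D)) : G × G') * (1, z') = (1, z') * ((b : ↥(Gam C C' D)) : G × G') :=
    ζ_comm h h' t hb1
  rcases rep a with ha | ha <;> rcases rep b with hb | hb
  · rw [(hf a).2 ha, (hf b).2 hb, (hf (a * b)).2 (Subgroup.mul_mem _ ha hb), one_mul]
  · have hnb : ((b : ↥(Gam C C' D)) : G × G') ∉ DP h h' t := fun e => excl _ e hb
    have hnab : (((a * b : ↥(HH C C' D z y)) :
        ↥(Gam C C' D)) : G × G') ∉ DP h h' t := by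
      intro e
      apply excl _ e
      have := Subgroup.mul_mem _ ha hb
      rwa [← mul_assoc] at this
    rw [(hf a).2 ha, hf' b hnb, hf' _ hnab, one_mul]
  · have hna : ((a : ↥(Gam C C' D)) : G × G') ∉ DP h h' t := fun e => excl _ e ha
    have hnab : (((a * b : ↥(HH C C' D z y)) :
        ↥(Gam C C' D)) : G × G') ∉ DP h h' t := by
      intro e
      apply excl _ e
      have := Subgroup.mul_mem _ ha hb
      rw [mul_assoc, ← comm, ← mul_assoc] at this
      exact this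
    rw [hf' a hna, (hf b).2 hb, hf' _ hnab, mul_one]
  · have hna : ((a : ↥(Gam C C' D)) : G × G') ∉ DP h h' t := fun e => excl _ e ha
    have hnb : ((b : ↥(Gam C C' D)) : G × G') ∉ DP h h' t := fun e => excl _ e hb
    have hab : (((a * b : ↥(HH C C' D z y)) :
        ↥(Gam C C' D)) : G × G') ∈ DP h h' t := by
      have := Subgroup.mul_mem _ ha hb
      have e : ((a : ↥(Gam C C' D)) : G × G') * (1, z') * (((b : ↥(Gam C C' D)) : G × G') * (1, z')) =
          ((a : ↥(Gam C C' D)) : G × G') * ((b : ↥(Gam C C' D)) : G × G') := by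
        calc ((a : ↥(Gam C C' D)) : G × G') * (1, z') * (((b : ↥(Gam C C' D)) : G × G') * (1, z'))
            = ((a : ↥(Gam C C' D)) : G × G') * ((1, z') * ((b : ↥(Gam C C' D)) : G × G')) *
                (1, z') := by simp only [mul_assoc]
          _ = ((a : ↥(Gam C C' D)) : G × G') * (((b : ↥(Gam C C' D)) : G × G') * (1, z')) *
                (1, z') := by rw [comm]
          _ = ((a : ↥(Gam C C' D)) : G × G') * ((b : ↥(Gam C C' D)) : G × G') *
                ((1, z') * (1, z')) := by simp only [mul_assoc]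
          _ = _ := by rw [ζ_sq h h' t, mul_one]
      rw [e] at this
      exact this
    rw [hf' a hna, hf' b hnb, (hf _).2 hab]
    decide

/-- The sign extends to `Γ` by the transfer. -/
theorem exists_signC (hodd : Odd ((PP C z y).relIndex C)) :
    ∃ V : ↥(Gam C C' D) →* ℤˣ, V ⟨(1, z'), Gam_z h h' t⟩ = -1 ∧
      ∀ g : ↥(Gam C C' D), (g : G × G') ∈ DP h h' t → V g = 1 := by
  obtain ⟨ϕ, hϕ⟩ := exists_sign h h' t
  -- the index
  have hidx : (HH C C' D z y).index = (PP C z y).relIndex C := by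
    let p : ↥(Gam C C' D) →* ↥C :=
      { toFun := fun g => ⟨(g : G × G').1, g.2.1⟩
        map_one' := rfl
        map_mul' := fun _ _ => rfl }
    have hp : Function.Surjective p := by
      rintro ⟨c, hc⟩
      obtain ⟨c', hc'⟩ := t.Γs1 c hc
      exact ⟨⟨(c, c'), hc'⟩, rfl⟩
    have hc : HH C C' D z y = ((PP C z y).subgroupOf C).comap p := rfl
    rw [hc, Subgroup.index_comap_of_surjective _ hp]
    rfl
  have hoddH : Odd (HH C C' D z y).index := by rw [hidx]; exact hodd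
  have : (HH C C' D z y).FiniteIndex := ⟨by
    intro e
    rw [e] at hoddH
    exact absurd hoddH (by decide)⟩
  let V : ↥(Gam C C' D) →* ℤˣ := MonoidHom.transfer ϕ
  set ζ : ↥(Gam C C' D) := ⟨(1, z'), Gam_z h h' t⟩ with hζ
  have hζc : ∀ g : ↥(Gam C C' D), g * ζ = ζ * g := fun g => Subtype.ext (ζ_comm h h' t g.2)
  have hζ2 : ζ * ζ = 1 := Subtype.ext (ζ_sq h h' t)
  have hζodd : ζ ^ (HH C C' D z y).index = ζ := by
    obtain ⟨k, hk⟩ := hoddH
    rw [hk, pow_succ, pow_mul, pow_two, hζ2, one_pow, one_mul]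
  have hVζ : V ζ = -1 := by
    have hkey : ∀ (k : ℕ) (g₀ : ↥(Gam C C' D)), g₀⁻¹ * ζ ^ k * g₀ ∈ HH C C' D z y → g₀⁻¹ * ζ ^ k * g₀ = ζ ^ k := by
      intro k g₀ _
      have hc : Commute g₀ (ζ ^ k) := (show Commute g₀ ζ from hζc g₀).pow_right k
      rw [mul_assoc, ← hc.eq, inv_mul_cancel_left]
    have e1 : V ζ = ϕ ⟨ζ ^ (HH C C' D z y).index, _⟩ := MonoidHom.transfer_eq_pow ϕ ζ hkey
    rw [e1]
    rcases Int.units_eq_one_or (ϕ ⟨ζ ^ (HH C C' D z y).index, MonoidHom.transfer_eq_pow_aux ζ hkey⟩) with e2 | e2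
    · exfalso
      rw [hϕ] at e2
      have e3 : ((ζ ^ (HH C C' D z y).index : ↥(Gam C C' D)) : G × G') = (1, z') := by rw [hζodd]
      have e4 : ((1, z') : G × G') ∈ DP h h' t := by rw [← e3]; exact e2
      exact h'.z_ne (DP_one h h' t e4)
    · exact e2
  -- `V` is trivial on `D`
  have hVD : ∀ d (hd : d ∈ D), V ⟨d, D_le_Gam h h' t hd⟩ = 1 := by
    intro d hd
    let S : Subgroup G := (D ⊓ V.ker.map (Gam C C' D).subtype).map (MonoidHom.fst G G')
    have hgen : ∀ s ∈ {s | ∃ q ∈ Q, ∃ c ∈ C, s = q * c * q⁻¹ * c⁻¹}, s ∈ S := by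
      rintro _ ⟨q, hq, c, hc, rfl⟩
      obtain ⟨q', hq'⟩ := t.Ds1 q hq
      obtain ⟨c', hc'⟩ := t.Γs1 c hc
      refine ⟨(q, q') * (c, c') * (q, q')⁻¹ * (c, c')⁻¹, ⟨?_, ?_⟩, rfl⟩
      · have : ((q, q') : G × G') * (c, c') * (q, q')⁻¹ * (c, c')⁻¹ =
          (q, q') * ((c, c') * (q, q')⁻¹ * (c, c')⁻¹) := by group
        rw [this]
        exact D.mul_mem hq' (hc'.2.2.1 _ (D.inv_mem hq'))
      · refine ⟨⟨(q, q'), D_le_Gam h h' t hq'⟩ * ⟨(c, c'), hc'⟩ *
          ⟨(q, q'), D_le_Gam h h' t hq'⟩⁻¹ * ⟨(c, c'), hc'⟩⁻¹, ?_, rfl⟩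
        rw [SetLike.mem_coe, MonoidHom.mem_ker]
        simp only [map_mul, map_inv]
        rw [mul_comm (V _) (V _), mul_inv_cancel_right, mul_inv_cancel]
    have h1 := h.commQ d.1 (t.D1 d hd)
    obtain ⟨s, ⟨hs, ⟨s', hs', e'⟩⟩, e⟩ := (Subgroup.closure_le S).2 hgen h1
    have e2 : s = d := D_inj t hs hd e
    subst e2
    have e3 : s' = ⟨s, D_le_Gam h h' t hd⟩ := Subtype.ext e'
    rw [← e3]; exact hs'
  have hVB : ∀ d (hd : d ∈ DB C C' D z y τ τ'), V ⟨d, (mem_DB.1 hd).1⟩ = 1 := by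
    intro d hd
    let S : Subgroup (G × G') := DB C C' D z y τ τ' ⊓ V.ker.map (Gam C C' D).subtype
    have hle : DB C C' D z y τ τ' ≤ S := by
      apply DB_noTwo h h' t S inf_le_left
      intro a ha b hb hna hnb
      have key : ∀ c (hc : c ∈ DB C C' D z y τ τ'), c ∉ S → V ⟨c, (mem_DB.1 hc).1⟩ = -1 := by
        intro c hc hnc
        rcases Int.units_eq_one_or (V ⟨c, (mem_DB.1 hc).1⟩) with e | e
        · exfalso; apply hnc
          exact ⟨hc, ⟨⟨c, (mem_DB.1 hc).1⟩, e, rfl⟩⟩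
        · exact e
      refine ⟨Subgroup.mul_mem _ ha hb, ⟨⟨a, (mem_DB.1 ha).1⟩ * ⟨b, (mem_DB.1 hb).1⟩, ?_, rfl⟩⟩
      rw [SetLike.mem_coe, MonoidHom.mem_ker, map_mul, key a ha hna, key b hb hnb]
      decide
    obtain ⟨-, ⟨s', hs', e'⟩⟩ := hle hd
    have e3 : s' = ⟨d, (mem_DB.1 hd).1⟩ := Subtype.ext e'
    rw [← e3]; exact hs'
  refine ⟨V, hVζ, ?_⟩
  rintro ⟨g, hg⟩ hgP
  obtain ⟨a, ha, s, hs, e⟩ := hgP
  have e1 : (⟨g, hg⟩ : ↥(Gam C C' D)) =
      ⟨a, (mem_DB.1 ha).1⟩ * ⟨s, D_le_Gam h h' t hs⟩ := Subtype.ext e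
  rw [e1, map_mul, hVB a ha, hVD s hs, one_mul]

/-- The graph over `C`. -/
theorem exists_DC (hodd : Odd ((PP C z y).relIndex C)) :
    ∃ DC : Subgroup (G × G'), DC ≤ Gam C C' D ∧ DP h h' t ≤ DC ∧
      (∀ c', ((1, c') : G × G') ∈ DC → c' = 1) ∧
      (∀ c, ((c, 1) : G × G') ∈ DC → c = 1) ∧
      (∀ c ∈ C, ∃ c', ((c, c') : G × G') ∈ DC) ∧
      (∀ c' ∈ C', ∃ c, ((c, c') : G × G') ∈ DC) := by
  obtain ⟨V, hV, hVP⟩ := exists_signC h h' t hodd
  have hzz : V ⟨(z, z'), D_le_Gam h h' t t.Dz⟩ = 1 := hVP _ (D_le_DP h h' t t.Dz)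
  have hz1 : ((z, 1) : G × G') ∈ Gam C C' D := by
    have := Subgroup.mul_mem _ (D_le_Gam h h' t t.Dz) (Gam_z h h' t)
    have e : ((z, z') : G × G') * (1, z') = (z, 1) := by
      refine Prod.ext (by simp) ?_
      exact h'.z_sq
    rwa [e] at this
  have hVz1 : V ⟨(z, 1), hz1⟩ = -1 := by
    have e : (⟨(z, 1), hz1⟩ : ↥(Gam C C' D)) =
        ⟨(z, z'), D_le_Gam h h' t t.Dz⟩ * ⟨(1, z'), Gam_z h h' t⟩ := by
      apply Subtype.ext
      refine Prod.ext (by simp) ?_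
      exact h'.z_sq.symm
    rw [e, map_mul, hzz, hV, one_mul]
  refine ⟨V.ker.map (Gam C C' D).subtype, ?_, ?_, ?_, ?_, ?_, ?_⟩
  · rintro _ ⟨g, -, rfl⟩
    exact g.2
  · intro g hg
    exact ⟨⟨g, DP_le_Gam h h' t hg⟩, hVP _ hg, rfl⟩
  · rintro c' ⟨⟨g, hg⟩, hk, e⟩
    have e' : g = (1, c') := e
    subst e'
    rcases Gam_one h h' t hg with e1 | e1
    · exact e1
    · exfalso
      subst e1
      have : V ⟨(1, c'), hg⟩ = 1 := hk
      rw [hV] at this
      exact absurd this (by decide)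
  · rintro c ⟨⟨g, hg⟩, hk, e⟩
    have e' : g = (c, 1) := e
    subst e'
    rcases Gam_one' h h' t hg with e1 | e1
    · exact e1
    · exfalso
      subst e1
      have : V ⟨(c, 1), hg⟩ = 1 := hk
      rw [hVz1] at this
      exact absurd this (by decide)
  · intro c hc
    obtain ⟨c', hc'⟩ := t.Γs1 c hc
    rcases Int.units_eq_one_or (V ⟨(c, c'), hc'⟩) with e | e
    · exact ⟨c', ⟨_, e, rfl⟩⟩
    · refine ⟨c' * z', ⟨⟨(c, c'), hc'⟩ * ⟨(1, z'), Gam_z h h' t⟩, ?_, ?_⟩⟩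
      · rw [SetLike.mem_coe, MonoidHom.mem_ker, map_mul, e, hV]
        decide
      · exact Prod.ext (by simp) rfl
  · intro c' hc
    obtain ⟨c, hc'⟩ := t.Γs2 c' hc
    rcases Int.units_eq_one_or (V ⟨(c, c'), hc'⟩) with e | e
    · exact ⟨c, ⟨_, e, rfl⟩⟩
    · refine ⟨c * z, ⟨⟨(c, c'), hc'⟩ * ⟨(z, 1), hz1⟩, ?_, ?_⟩⟩
      · rw [SetLike.mem_coe, MonoidHom.mem_ker, map_mul, e, hVz1]
        decide
      · exact Prod.ext rfl (by simp)

end

/-! ### The graph over `N` -/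

section

variable {C Q E : Subgroup G} {z y τ x u q₀ e₁ a₁ : G} {C' Q' E' : Subgroup G'}
  {z' y' τ' x' u' q₀' e₁' a₁' : G'} {D : Subgroup (G × G')}
  (h : Side C Q E z y τ x u q₀ e₁ a₁) (h' : Side C' Q' E' z' y' τ' x' u' q₀' e₁' a₁')
  (t : Two C Q E z y x q₀ C' Q' E' z' y' x' q₀' D)

/-- The symmetric group of degree three. -/
def SS (τ q₀ : G) (τ' q₀' : G') : Subgroup (G × G') := Subgroup.closure {(τ, τ'), (q₀, q₀')}

include h h' t in
theorem DB_SS {s : G × G'} (hs : s ∈ SS τ q₀ τ' q₀') {a : G × G'} (ha : a ∈ DB C C' D z y τ τ') :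
    s * a * s⁻¹ ∈ DB C C' D z y τ τ' := by
  induction hs using Subgroup.closure_induction generalizing a with
  | mem s hs =>
    rcases hs with rfl | hs
    · exact DB_T h h' t ha
    · rw [Set.mem_singleton_iff] at hs; subst hs
      exact DB_D h h' t t.Dq ha
  | one => simpa using ha
  | mul s r _ _ ihs ihr =>
    have : s * r * a * (s * r)⁻¹ = s * (r * a * r⁻¹) * s⁻¹ := by group
    rw [this]; exact ihs (ihr ha)
  | inv s hs ih =>
    -- `s⁻¹` is a power of `s`: use finiteness of the symmetric group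
    have hT : ((τ, τ') : G × G') * (τ, τ') * (τ, τ') = 1 := Prod.ext h.τ3 h'.τ3
    have hd : ((q₀, q₀') : G × G') * (q₀, q₀') = 1 := Prod.ext h.q₀_sq h'.q₀_sq
    have hc : ((q₀, q₀') : G × G') * (τ, τ') * (q₀, q₀')⁻¹ = (τ, τ')⁻¹ := Prod.ext h.q₀τ h'.q₀τ
    have hfin : (Subgroup.closure {((τ, τ') : G × G'), (q₀, q₀')} : Set (G × G')).Finite := by
      apply Set.Finite.subset (s := (fun p : ℕ × ℕ => ((τ, τ') : G × G') ^ p.1 * (q₀, q₀') ^ p.2) ''
        (Set.Iio 3 ×ˢ Set.Iio 2))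
      · exact ((Set.finite_Iio 3).prod (Set.finite_Iio 2)).image _
      · intro r hr
        obtain ⟨i, j, hi, hj, e⟩ := sym_cases hT hd hc hr
        exact ⟨(i, j), ⟨hi, hj⟩, e.symm⟩
    have hpow : ∀ n : ℕ, ∀ a ∈ DB C C' D z y τ τ', s ^ n * a * (s ^ n)⁻¹ ∈ DB C C' D z y τ τ' := by
      intro n
      induction n with
      | zero => intro a ha; simpa using ha
      | succ n ihn =>
        intro a ha
        have : s ^ (n + 1) * a * (s ^ (n + 1))⁻¹ = s * (s ^ n * a * (s ^ n)⁻¹) * s⁻¹ := by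
          rw [pow_succ']; group
        rw [this]; exact ih (ihn a ha)
    have hfo : IsOfFinOrder s := by
      rw [isOfFinOrder_iff_pow_eq_one]
      have : Finite (Subgroup.closure {((τ, τ') : G × G'), (q₀, q₀')}) := hfin
      obtain ⟨n, hn, e⟩ := isOfFinOrder_iff_pow_eq_one.1
        (isOfFinOrder_of_finite (⟨s, hs⟩ : Subgroup.closure {((τ, τ') : G × G'), (q₀, q₀')}))
      exact ⟨n, hn, congrArg Subtype.val e⟩
    obtain ⟨n, hn, e⟩ := isOfFinOrder_iff_pow_eq_one.1 hfo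
    have e2 : s⁻¹ = s ^ (n - 1) := by
      rw [inv_eq_iff_mul_eq_one, ← pow_succ', Nat.sub_add_cancel hn, e]
    rw [e2]
    exact hpow _ a ha

/-- The graph over `N`. -/
def DN : Subgroup (G × G') :=
  mulSub (DB C C' D z y τ τ') (SS τ q₀ τ' q₀') fun _ hs _ ha => DB_SS h h' t hs ha

include h h' t

theorem DB_le_DN : DB C C' D z y τ τ' ≤ DN h h' t := fun g hg =>
  ⟨g, hg, 1, Subgroup.one_mem _, by simp⟩

theorem T_mem_DN : ((τ, τ') : G × G') ∈ DN h h' t :=
  ⟨1, Subgroup.one_mem _, _, Subgroup.subset_closure (Set.mem_insert _ _), (one_mul _).symm⟩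

theorem SS_cases {s : G × G'} (hs : s ∈ SS τ q₀ τ' q₀') :
    ∃ i j : ℕ, i < 3 ∧ j < 2 ∧ s = (τ, τ') ^ i * (q₀, q₀') ^ j :=
  sym_cases (Prod.ext h.τ3 h'.τ3) (Prod.ext h.q₀_sq h'.q₀_sq) (Prod.ext h.q₀τ h'.q₀τ) hs

theorem τ2z : τ * τ * z * (τ * τ)⁻¹ = z * y := by
  have : τ * τ * z * (τ * τ)⁻¹ = τ * (τ * z * τ⁻¹) * τ⁻¹ := by group
  rw [this, h.τz, h.τy]

theorem zy_ne_z : z * y ≠ z := fun e => h.y_ne (mul_eq_left.1 e)

theorem zy_ne_y : z * y ≠ y := fun e => h.z_ne (mul_eq_right.1 e)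

/-- Only the identity of the symmetric group lies over `B`. -/
theorem SS_B {s : G × G'} (hs : s ∈ SS τ q₀ τ' q₀') (hB : s.1 ∈ cent2 C z y) : s = 1 := by
  obtain ⟨i, j, hi, hj, rfl⟩ := SS_cases h h' t hs
  obtain ⟨-, hz, hy⟩ := mem_cent2.1 hB
  have hq : q₀ * z * q₀⁻¹ = z := by rw [h.Qz q₀ h.q₀Q]; group
  interval_cases i <;> interval_cases j
  · simp
  · exfalso
    have e : (((τ, τ') : G × G') ^ 0 * (q₀, q₀') ^ 1).1 = q₀ := by simp
    rw [e] at hy
    have : z * y = y := by rw [← h.q₀y, hy]; group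
    exact zy_ne_y h h' t this
  · exfalso
    have e : (((τ, τ') : G × G') ^ 1 * (q₀, q₀') ^ 0).1 = τ := by simp
    rw [e] at hz
    have : y = z := by rw [← h.τz, hz]; group
    exact h.y_ne_z this
  · exfalso
    have e : (((τ, τ') : G × G') ^ 1 * (q₀, q₀') ^ 1).1 = τ * q₀ := by simp
    rw [e] at hz
    have e2 : τ * q₀ * z * (τ * q₀)⁻¹ = y := by
      have : τ * q₀ * z * (τ * q₀)⁻¹ = τ * (q₀ * z * q₀⁻¹) * τ⁻¹ := by group
      rw [this, hq, h.τz]
    have : y = z := by rw [← e2, hz]; group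
    exact h.y_ne_z this
  · exfalso
    have e : (((τ, τ') : G × G') ^ 2 * (q₀, q₀') ^ 0).1 = τ * τ := by simp [pow_two]
    rw [e] at hz
    have : z * y = z := by rw [← τ2z h h' t, hz]; group
    exact zy_ne_z h h' t this
  · exfalso
    have e : (((τ, τ') : G × G') ^ 2 * (q₀, q₀') ^ 1).1 = τ * τ * q₀ := by simp [pow_two]
    rw [e] at hz
    have e2 : τ * τ * q₀ * z * (τ * τ * q₀)⁻¹ = z * y := by
      have : τ * τ * q₀ * z * (τ * τ * q₀)⁻¹ = τ * τ * (q₀ * z * q₀⁻¹) * (τ * τ)⁻¹ := by group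
      rw [this, hq, τ2z h h' t]
    have : z * y = z := by rw [← e2, hz]; group
    exact zy_ne_z h h' t this

theorem DN_one {c' : G'} (hc : ((1, c') : G × G') ∈ DN h h' t) : c' = 1 := by
  obtain ⟨a, ha, s, hs, e⟩ := hc
  have h1 : a.1 * s.1 = 1 := (congrArg Prod.fst e).symm
  have h2 : s.1 = a.1⁻¹ := (inv_eq_of_mul_eq_one_right h1).symm
  have h3 : s.1 ∈ cent2 C z y := by rw [h2]; exact Subgroup.inv_mem _ (mem_DB.1 ha).2.1
  have h4 := SS_B h h' t hs h3
  rw [h4, mul_one] at e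
  rw [← e] at ha
  exact DB_one h h' t ha

/-- `N` is the product of `B` and the symmetric group. -/
theorem NN_rep (hC : ∀ c, c * z = z * c → c ∈ C) {n : G} (hn : n ∈ NN z y) : ∃ s ∈ SS τ q₀ τ' q₀', n * (s.1)⁻¹ ∈ cent2 C z y := by
  have hT : ((τ, τ') : G × G') ∈ SS τ q₀ τ' q₀' := Subgroup.subset_closure (by simp)
  have hd : ((q₀, q₀') : G × G') ∈ SS τ q₀ τ' q₀' := Subgroup.subset_closure (by simp)
  -- it suffices to find `s` with the same action on `z` and `y`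
  have suff : ∀ s ∈ SS τ q₀ τ' q₀', s.1 * z * (s.1)⁻¹ = n * z * n⁻¹ →
      s.1 * y * (s.1)⁻¹ = n * y * n⁻¹ → n * (s.1)⁻¹ ∈ cent2 C z y := by
    intro s hs e1 e2
    have hall : ∀ v ∈ four z y, s.1 * v * (s.1)⁻¹ = n * v * n⁻¹ := by
      intro v hv
      rcases h.mem_four.1 hv with rfl | rfl | rfl | rfl
      · simp
      · exact e1
      · exact e2
      · have a1 : s.1 * (z * y) * (s.1)⁻¹ = (s.1 * z * (s.1)⁻¹) * (s.1 * y * (s.1)⁻¹) := by group
        have a2 : n * (z * y) * n⁻¹ = (n * z * n⁻¹) * (n * y * n⁻¹) := by group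
        rw [a1, a2, e1, e2]
    have hsN : ∀ r ∈ SS τ q₀ τ' q₀', ∀ v ∈ four z y, r.1 * v * (r.1)⁻¹ ∈ four z y := by
      intro r hr
      induction hr using Subgroup.closure_induction with
      | mem r hr =>
        rcases hr with rfl | hr
        · intro v hv; exact h.four_τ hv
        · rw [Set.mem_singleton_iff] at hr; subst hr
          intro v hv; exact (Q_le_PP h h.q₀Q).2.1 v hv
      | one => intro v hv; simpa using hv
      | mul a b _ _ iha ihb =>
        intro v hv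
        have : (a * b).1 * v * ((a * b).1)⁻¹ = a.1 * (b.1 * v * (b.1)⁻¹) * (a.1)⁻¹ := by
          show a.1 * b.1 * v * (a.1 * b.1)⁻¹ = _
          group
        rw [this]; exact iha _ (ihb v hv)
      | inv a ha iha =>
        intro v hv
        -- the conjugation by `a` is a bijection of a finite set
        have hfin : (four z y : Set G).Finite := by
          apply Set.Finite.subset (s := {1, z, y, z * y}) (by simp)
          intro w hw
          rcases h.mem_four.1 hw with e | e | e | e <;> simp [e]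
        have : Finite (four z y) := hfin
        let f : four z y → four z y := fun w => ⟨a.1 * w * (a.1)⁻¹, iha w w.2⟩
        have hinj : Function.Injective f := by
          intro w w' e
          have e' : a.1 * w * (a.1)⁻¹ = a.1 * w' * (a.1)⁻¹ := congrArg Subtype.val e
          exact Subtype.ext (mul_left_cancel (mul_right_cancel e'))
        have hsurj := Finite.surjective_of_injective hinj
        obtain ⟨⟨w, hw⟩, e'⟩ := hsurj ⟨v, hv⟩
        have e : a.1 * w * (a.1)⁻¹ = v := congrArg Subtype.val e'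
        have e3 : (a⁻¹).1 * v * ((a⁻¹).1)⁻¹ = w := by
          show (a.1)⁻¹ * v * ((a.1)⁻¹)⁻¹ = w
          rw [← e]; group
        rw [e3]; exact hw
    suffices hBall : ∀ v ∈ four z y, n * (s.1)⁻¹ * v = v * (n * (s.1)⁻¹) from
      h.mem_B_iff_four.2 ⟨hC _ (hBall z h.z_four), hBall⟩
    intro v hv
    have hv' : (s.1)⁻¹ * v * s.1 ∈ four z y := by
      have := hsN _ (Subgroup.inv_mem _ hs) v hv
      have e3 : (s⁻¹).1 * v * ((s⁻¹).1)⁻¹ = (s.1)⁻¹ * v * s.1 := by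
        show (s.1)⁻¹ * v * ((s.1)⁻¹)⁻¹ = _
        group
      rwa [e3] at this
    have e3 := hall _ hv'
    have e4 : v = n * ((s.1)⁻¹ * v * s.1) * n⁻¹ := by
      rw [← e3]; group
    calc n * (s.1)⁻¹ * v = (n * ((s.1)⁻¹ * v * s.1) * n⁻¹) * (n * (s.1)⁻¹) := by group
      _ = v * (n * (s.1)⁻¹) := by rw [← e4]
  have hq : q₀ * z * q₀⁻¹ = z := by rw [h.Qz q₀ h.q₀Q]; group
  have ne1 : ∀ v, v ≠ 1 → n * v * n⁻¹ ≠ 1 := by
    intro v hv e
    apply hv
    have : v = n⁻¹ * (n * v * n⁻¹) * n := by group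
    rw [this, e]; group
  have hyz : n * z * n⁻¹ ≠ n * y * n⁻¹ := by
    intro e
    exact h.y_ne_z (mul_left_cancel (mul_right_cancel e)).symm
  have hz4 := h.mem_four.1 (hn.1 z h.z_four)
  have hy4 := h.mem_four.1 (hn.1 y h.y_four)
  have q_zy : q₀ * (z * y) * q₀⁻¹ = y := by
    have : q₀ * (z * y) * q₀⁻¹ = (q₀ * z * q₀⁻¹) * (q₀ * y * q₀⁻¹) := by group
    rw [this, hq, h.q₀y, ← mul_assoc, h.z_sq, one_mul]
  rcases hz4 with ez | ez | ez | ez
  · exact absurd ez (ne1 z h.z_ne)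
  · rcases hy4 with ey | ey | ey | ey
    · exact absurd ey (ne1 y h.y_ne)
    · exact absurd (ez.trans ey.symm) hyz
    · exact ⟨1, Subgroup.one_mem _, suff 1 (Subgroup.one_mem _) (by simp [ez]) (by simp [ey])⟩
    · exact ⟨_, hd, suff _ hd (by rw [ez]; exact hq) (by rw [ey]; exact h.q₀y)⟩
  · -- z ↦ y
    rcases hy4 with ey | ey | ey | ey
    · exact absurd ey (ne1 y h.y_ne)
    · -- y ↦ z : τ q₀ : z ↦ z ↦ y, y ↦ zy ↦ z
      refine ⟨_, Subgroup.mul_mem _ hT hd, suff _ (Subgroup.mul_mem _ hT hd) ?_ ?_⟩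
      · rw [ez]
        show τ * q₀ * z * (τ * q₀)⁻¹ = y
        have : τ * q₀ * z * (τ * q₀)⁻¹ = τ * (q₀ * z * q₀⁻¹) * τ⁻¹ := by group
        rw [this, hq, h.τz]
      · rw [ey]
        show τ * q₀ * y * (τ * q₀)⁻¹ = z
        have : τ * q₀ * y * (τ * q₀)⁻¹ = τ * (q₀ * y * q₀⁻¹) * τ⁻¹ := by group
        rw [this, h.q₀y, h.τzy]
    · exact absurd (ez.trans ey.symm) hyz
    · exact ⟨_, hT, suff _ hT (by rw [ez]; exact h.τz) (by rw [ey]; exact h.τy)⟩
  · -- z ↦ zy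
    rcases hy4 with ey | ey | ey | ey
    · exact absurd ey (ne1 y h.y_ne)
    · -- τ² : z ↦ zy, y ↦ z
      refine ⟨_, Subgroup.mul_mem _ hT hT, suff _ (Subgroup.mul_mem _ hT hT) ?_ ?_⟩
      · rw [ez]; exact τ2z h h' t
      · rw [ey]
        show τ * τ * y * (τ * τ)⁻¹ = z
        have : τ * τ * y * (τ * τ)⁻¹ = τ * (τ * y * τ⁻¹) * τ⁻¹ := by group
        rw [this, h.τy, h.τzy]
    · -- τ² q₀ : z ↦ z ↦ zy ; y ↦ zy ↦ τ²(zy) = y
      refine ⟨_, Subgroup.mul_mem _ (Subgroup.mul_mem _ hT hT) hd,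
        suff _ (Subgroup.mul_mem _ (Subgroup.mul_mem _ hT hT) hd) ?_ ?_⟩
      · rw [ez]
        show τ * τ * q₀ * z * (τ * τ * q₀)⁻¹ = z * y
        have : τ * τ * q₀ * z * (τ * τ * q₀)⁻¹ = τ * τ * (q₀ * z * q₀⁻¹) * (τ * τ)⁻¹ := by group
        rw [this, hq, τ2z h h' t]
      · rw [ey]
        show τ * τ * q₀ * y * (τ * τ * q₀)⁻¹ = y
        have : τ * τ * q₀ * y * (τ * τ * q₀)⁻¹ = τ * (τ * (q₀ * y * q₀⁻¹) * τ⁻¹) * τ⁻¹ := by group
        rw [this, h.q₀y, h.τzy, h.τz]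
    · exact absurd (ez.trans ey.symm) hyz

theorem DN_surj (hC : ∀ c, c * z = z * c → c ∈ C) {n : G} (hn : n ∈ NN z y) :
    ∃ n', ((n, n') : G × G') ∈ DN h h' t := by
  obtain ⟨s, hs, hB⟩ := NN_rep h h' t hC hn
  obtain ⟨b', hb'⟩ := DB_surj h h' t (τ' := τ') hB
  refine ⟨b' * s.2, _, hb', s, hs, ?_⟩
  refine Prod.ext ?_ rfl
  show n = n * (s.1)⁻¹ * s.1
  group

/-- The graph over `P` is contained in the graph over `N`. -/
theorem DP_le_DN : DP h h' t ≤ DN h h' t := by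
  rintro _ ⟨a, ha, d, hd, rfl⟩
  apply Subgroup.mul_mem _ (DB_le_DN h h' t ha)
  rcases Q_y h (t.D1 d hd) with e | e
  · apply DB_le_DN h h' t
    apply D_DB h h' t hd
    calc d.1 * y = d.1 * y * (d.1)⁻¹ * d.1 := by group
      _ = y * d.1 := by rw [e]
  · have h1 : d * (q₀, q₀') ∈ D := D.mul_mem hd t.Dq
    have h2 : d * (q₀, q₀') ∈ DB C C' D z y τ τ' := by
      apply D_DB h h' t h1
      show d.1 * q₀ * y = y * (d.1 * q₀)
      have e1 : q₀ * y = z * y * q₀ := by rw [← h.q₀y]; group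
      have e2 : d.1 * y = z * y * d.1 := by rw [← e]; group
      have e3 := h.Qz _ (t.D1 d hd)
      calc d.1 * q₀ * y = d.1 * (q₀ * y) := by group
        _ = d.1 * (z * y * q₀) := by rw [e1]
        _ = (d.1 * z) * y * q₀ := by group
        _ = z * (d.1 * y) * q₀ := by rw [e3]; group
        _ = z * (z * y * d.1) * q₀ := by rw [e2]
        _ = (z * z) * y * (d.1 * q₀) := by group
        _ = y * (d.1 * q₀) := by rw [h.z_sq, one_mul]
    have h3 : ((q₀, q₀') : G × G') ∈ DN h h' t :=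
      ⟨1, Subgroup.one_mem _, _, Subgroup.subset_closure (Set.mem_insert_of_mem _ rfl),
        (one_mul _).symm⟩
    have h4 := Subgroup.mul_mem _ (DB_le_DN h h' t h2) (Subgroup.inv_mem _ h3)
    rwa [mul_inv_cancel_right] at h4

end

end Cfsg.Agent.H861.RIso
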