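import Cfsg.Agent.MonsterU.AmalPerf
import Cfsg.Agent.H861.RGen
import Cfsg.Agent.H861.RIso

/-!
# Generation by commutators, relative version
-/

set_option autoImplicit false

namespace Cfsg.Agent.H861.RPerf

open Cfsg Cfsg.Spor Cfsg.Agent.LeechMat.Core Cfsg.Agent.MonsterU Cfsg.Agent.MonsterU.Lam2
open Cfsg.Agent.Co2Type.Quad hiding Large
open Cfsg.Agent.H861.RCh
open Cfsg.Agent.MonsterU.AmalSide (four NoTwo)
open Cfsg.Agent.H861.RSide (cent2 mem_cent2)
open Cfsg.Agent.MonsterU.CoFrameL2 Cfsg.Agent.MonsterU.CoFrameIrr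
open Cfsg.Agent.MonsterU.AmalPerf (zmod2_cases qf_f0 exists_bf_one mem_W1_of_bf exists_pair closure_F
  closure_Co1 comm_mem_of)

/-! ### The chart -/

section

variable {G : Type*} [Group G] {C Q : Subgroup G} {z : G} {eta : G → L2}
  {pi : C →* Co1} (h : Chart C Q z eta pi) {y : G} (hy : y ∈ Q)
  (hf : eta y = f0)

include h hy hf

theorem y_sq : y * y = 1 := (h.sq_one hy).2 (by rw [hf]; exact qf_f0)

theorem y_ne : y ≠ 1 := by
  rintro rfl
  rw [h.eta_one] at hf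
  exact f0_ne hf.symm

omit hy in
theorem y_ne_z : y ≠ z := by
  rintro rfl
  rw [h.eta_z] at hf
  exact f0_ne hf.symm

omit hf in
theorem zy : z * y = y * z := (h.large.comm_z y hy).symm

/-- commuting with `y` -/
theorem comm_y_iff {a : G} (ha : a ∈ Q) : a * y = y * a ↔ eta a ∈ W23 := by
  rw [h.comm_iff ha hy, hf, mem_W23_iff_bf]

theorem exists_not_comm : ∃ q₀ ∈ Q, q₀ * y = y * q₀ * z := by
  obtain ⟨u, hu⟩ := exists_bf_one f0_ne
  obtain ⟨q₀, hq₀, e⟩ := h.eta_surj u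
  refine ⟨q₀, hq₀, (h.comm_z_iff hq₀ hy).2 ?_⟩
  rw [e, hf, bf_comm]; exact hu

omit hy hf in
theorem coe_comm (c : C) : (c : G) * z = z * c := h.Cz c c.2

/-- The image under `pi` of an element normalising `⟨z, y⟩`. -/
theorem pi_mem_F (c : C) :
    pi c ∈ F ↔ (c : G) * y * (c : G)⁻¹ = y ∨ (c : G) * y * (c : G)⁻¹ = y * z := by
  rw [mem_F_iff, ← hf, ← h.eta_conj c y hy]
  exact h.eta_eq (h.large.conj_mem c c.2 y hy) hy

/-- Every element of `F` is the image of an element commuting with `y`. -/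
theorem exists_b {s : Co1} (hs : s ∈ F) :
    ∃ b : C, pi b = s ∧ (b : G) ∈ cent2 C z y := by
  obtain ⟨c, rfl⟩ := h.pi_surj s
  rcases (pi_mem_F h hy hf c).1 hs with e | e
  · refine ⟨c, rfl, mem_cent2.2 ⟨c.2, coe_comm h c, ?_⟩⟩
    calc (c : G) * y = (c : G) * y * (c : G)⁻¹ * c := by group
      _ = y * c := by rw [e]
  · obtain ⟨q₀, hq₀, e₀⟩ := exists_not_comm h hy hf
    have hz₀ : q₀ ∈ C := h.QC hq₀
    refine ⟨c * ⟨q₀, hz₀⟩, ?_, mem_cent2.2 ⟨(c * ⟨q₀, hz₀⟩ : C).2, coe_comm h _, ?_⟩⟩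
    · rw [map_mul, (h.pi_eq_one ⟨q₀, hz₀⟩).2 hq₀, mul_one]
    · show (c : G) * q₀ * y = y * (c * q₀)
      have e1 : (c : G) * y = y * z * c := by rw [← e]; group
      have e2 : (c : G) * z = z * c := coe_comm h c
      calc (c : G) * q₀ * y = c * (q₀ * y) := by group
        _ = c * (y * q₀ * z) := by rw [e₀]
        _ = (c * y) * (q₀ * z) := by group
        _ = (y * z * c) * (z * q₀) := by rw [e1, h.large.comm_z q₀ hq₀]
        _ = y * z * (c * z) * q₀ := by group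
        _ = y * z * (z * c) * q₀ := by rw [e2]
        _ = y * (z * z) * (c * q₀) := by group
        _ = y * (c * q₀) := by rw [h.large.z_sq, mul_one]

/-- The image of the centraliser of `z, y` is in `F`. -/
theorem pi_cent2 (b : C) (hb : (b : G) ∈ cent2 C z y) : pi b ∈ F := by
  rw [pi_mem_F h hy hf]
  left
  rw [(mem_cent2.1 hb).2.2]; group

/-- The centre is generated by commutators of elements of `Q` commuting with `y`. -/
theorem z_comm : ∃ q₁ ∈ Q, q₁ * y = y * q₁ ∧ ∃ q₂ ∈ Q, q₂ * y = y * q₂ ∧ z = q₁ * q₂ * q₁⁻¹ * q₂⁻¹ := by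
  obtain ⟨v, hv, w, hw, hvw⟩ := exists_pair
  obtain ⟨q₁, hq₁, rfl⟩ := h.eta_surj v
  obtain ⟨q₂, hq₂, rfl⟩ := h.eta_surj w
  refine ⟨q₁, hq₁, (comm_y_iff h hy hf hq₁).2 hv, q₂, hq₂, (comm_y_iff h hy hf hq₂).2 hw, ?_⟩
  have e := (h.comm_z_iff hq₁ hq₂).2 hvw
  rw [e, mul_assoc (q₂ * q₁) z, ← h.large.comm_z _ (Q.inv_mem hq₁)]
  calc z = z * (q₂ * q₁ * q₁⁻¹ * q₂⁻¹) := by group
    _ = (z * (q₂ * q₁ * q₁⁻¹ * q₂⁻¹)) := rfl
    _ = (q₂ * q₁ * q₁⁻¹ * q₂⁻¹) * z :=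
      (h.large.comm_z _ (Q.mul_mem (Q.mul_mem (Q.mul_mem hq₂ hq₁) (Q.inv_mem hq₁)) (Q.inv_mem hq₂))).symm
    _ = q₂ * q₁ * q₁⁻¹ * (q₂⁻¹ * z) := by group
    _ = q₂ * q₁ * q₁⁻¹ * (z * q₂⁻¹) := by rw [h.large.comm_z _ (Q.inv_mem hq₂)]
    _ = q₂ * q₁ * (q₁⁻¹ * z) * q₂⁻¹ := by group

omit hy hf in
/-- General form: a set of commutators in `Q` containing `z` and covering a subgroup of the lattice. -/
theorem mem_closure_of {S : Set G} {T : Set L2} (hS : ∀ t ∈ S, t ∈ Q) (hz : z ∈ Subgroup.closure S)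
    (hT : ∀ v ∈ T, ∃ t ∈ S, eta t = v) {a : G} (ha : a ∈ Q) (hv : eta a ∈ AddSubgroup.closure T) :
    a ∈ Subgroup.closure S := by
  have hle : Subgroup.closure S ≤ Q := (Subgroup.closure_le _).2 hS
  have key : ∀ v ∈ AddSubgroup.closure T, ∃ r ∈ Subgroup.closure S, eta r = v := by
    intro v hv
    induction hv using AddSubgroup.closure_induction with
    | mem v hv =>
      obtain ⟨t, ht, e⟩ := hT v hv
      exact ⟨t, Subgroup.subset_closure ht, e⟩
    | zero => exact ⟨1, Subgroup.one_mem _, h.eta_one⟩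
    | add v w _ _ hv hw =>
      obtain ⟨r, hr, rfl⟩ := hv
      obtain ⟨s, hs, rfl⟩ := hw
      exact ⟨r * s, Subgroup.mul_mem _ hr hs, h.eta_mul r (hle hr) s (hle hs)⟩
    | neg v _ hv =>
      obtain ⟨r, hr, rfl⟩ := hv
      exact ⟨r, hr, (neg_eq _).symm⟩
  obtain ⟨r, hr, e⟩ := key _ hv
  rcases (h.eta_eq ha (hle hr)).1 e.symm with e1 | e1
  · rw [e1]; exact hr
  · rw [e1]; exact Subgroup.mul_mem _ hr hz

omit hy hf in
/-- The commutator of an element of `Q` and an element commuting with `z`. -/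
theorem eta_comm {q : G} (hq : q ∈ Q) (b : C) :
    q * b * q⁻¹ * (b : G)⁻¹ ∈ Q ∧ eta (q * b * q⁻¹ * (b : G)⁻¹) = pi b • eta q - eta q := by
  have h1 : (b : G) * q⁻¹ * (b : G)⁻¹ ∈ Q := h.large.conj_mem b b.2 _ (Q.inv_mem hq)
  have h2 : q * b * q⁻¹ * (b : G)⁻¹ = q * ((b : G) * q⁻¹ * (b : G)⁻¹) := by group
  rw [h2]
  refine ⟨Q.mul_mem hq h1, ?_⟩
  rw [h.eta_mul q hq _ h1, h.eta_conj b _ (Q.inv_mem hq), h.eta_inv hq, sub_eq_add_neg, neg_eq, add_comm]

/-- **Field `comm0` of `Side`.** -/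
theorem comm0 : ∀ a ∈ Q, a * y = y * a → a ∈ Subgroup.closure
    {t | ∃ q ∈ Q, q * y = y * q ∧ ∃ b ∈ cent2 C z y, t = q * b * q⁻¹ * b⁻¹} := by
  intro a ha hay
  refine mem_closure_of h (T := {v : L2 | ∃ s ∈ F, ∃ x ∈ W23, v = s • x - x}) ?_ ?_ ?_ ha
    (closure_F ((comm_y_iff h hy hf ha).1 hay))
  · rintro t ⟨q, hq, -, b, hb, rfl⟩
    exact (eta_comm h hq ⟨b, (mem_cent2.1 hb).1⟩).1
  · obtain ⟨q₁, hq₁, e₁, q₂, hq₂, e₂, e⟩ := z_comm h hy hf
    exact Subgroup.subset_closure ⟨q₁, hq₁, e₁, q₂, mem_cent2.2 ⟨h.QC hq₂, h.large.comm_z q₂ hq₂, e₂⟩, e⟩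
  · rintro v ⟨s, hs, x, hx, rfl⟩
    obtain ⟨q, hq, rfl⟩ := h.eta_surj x
    obtain ⟨b, rfl, hb⟩ := exists_b h hy hf hs
    exact ⟨_, ⟨q, hq, (comm_y_iff h hy hf hq).2 hx, b, hb, rfl⟩, (eta_comm h hq b).2⟩

/-- **Field `commQ` of `Side`.** -/
theorem commQ : ∀ a ∈ Q, a ∈ Subgroup.closure
    {t | ∃ q ∈ Q, ∃ c ∈ C, t = q * c * q⁻¹ * c⁻¹} := by
  intro a ha
  refine mem_closure_of h (T := {v : L2 | ∃ (s : Co1) (x : L2), v = s • x - x}) ?_ ?_ ?_ ha
    (closure_Co1 _)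
  · rintro t ⟨q, hq, b, hb, rfl⟩
    exact (eta_comm h hq ⟨b, hb⟩).1
  · obtain ⟨q₁, hq₁, -, q₂, hq₂, -, e⟩ := z_comm h hy hf
    exact Subgroup.subset_closure ⟨q₁, hq₁, q₂, h.QC hq₂, e⟩
  · rintro v ⟨s, x, rfl⟩
    obtain ⟨q, hq, rfl⟩ := h.eta_surj x
    obtain ⟨b, rfl⟩ := h.pi_surj s
    exact ⟨_, ⟨q, hq, b, b.2, rfl⟩, (eta_comm h hq b).2⟩

/-- **Field `perf` of `Side`.** -/
theorem perf : NoTwo (cent2 C z y) := by
  intro S hSB h2 b hb
  -- `S` contains the elements of `Q` commuting with `y`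
  have hQ : ∀ a ∈ Q, a * y = y * a → a ∈ S := by
    intro a ha hay
    refine (Subgroup.closure_le S).2 ?_ (comm0 h hy hf a ha hay)
    rintro t ⟨q, hq, hqy, c, hc, rfl⟩
    exact comm_mem_of hSB h2 (mem_cent2.2 ⟨h.QC hq, h.large.comm_z q hq, hqy⟩) hc
  -- the image
  let B' : Subgroup (C) := (cent2 C z y).subgroupOf (C)
  have hB' : B'.map pi = F := by
    apply le_antisymm
    · rintro _ ⟨c, hc, rfl⟩
      exact pi_cent2 h hy hf c (Subgroup.mem_subgroupOf.1 hc)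
    · intro s hs
      obtain ⟨c, rfl, hc⟩ := exists_b h hy hf hs
      exact ⟨c, Subgroup.mem_subgroupOf.2 hc, rfl⟩
  have h3 : ⁅B', B'⁆.map pi = F := by
    rw [Subgroup.map_commutator, hB']
    exact CoFrameF.perfect_F
  have hbC : b ∈ C := (mem_cent2.1 hb).1
  have h4 : pi ⟨b, hbC⟩ ∈ ⁅B', B'⁆.map pi := by
    rw [h3]; exact pi_cent2 h hy hf _ hb
  obtain ⟨d, hd, e⟩ := h4
  have h5 : ⁅B', B'⁆ ≤ S.comap (C).subtype := by
    rw [Subgroup.commutator_le]
    intro a ha c hc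
    exact comm_mem_of hSB h2 (Subgroup.mem_subgroupOf.1 ha) (Subgroup.mem_subgroupOf.1 hc)
  have hdS : (d : G) ∈ S := h5 hd
  have h6 : (d : G)⁻¹ * b ∈ Q := h.pi_eq.1 e
  have h7 : (d : G)⁻¹ * b ∈ cent2 C z y := Subgroup.mul_mem _ (Subgroup.inv_mem _ (hSB hdS)) hb
  have h8 := S.mul_mem hdS (hQ _ h6 (mem_cent2.1 h7).2.2)
  rwa [mul_inv_cancel_left] at h8

/-- The four group. -/
theorem mem_four {v : G} : v ∈ four z y ↔ v = 1 ∨ v = z ∨ v = y ∨ v = z * y := by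
  have z_sq := h.large.z_sq
  have y_sq := y_sq h hy hf
  have zy := zy h hy
  have zy_sq : (z * y) * (z * y) = 1 := by
    have h1 : (z * y) * (z * y) = z * (y * z) * y := by group
    rw [h1, ← zy]
    have h2 : z * (z * y) * y = (z * z) * (y * y) := by group
    rw [h2, z_sq, y_sq, one_mul]
  constructor
  · intro hv
    induction hv using Subgroup.closure_induction with
    | mem t ht =>
      rcases ht with rfl | ht
      · exact Or.inr (Or.inl rfl)
      · rw [Set.mem_singleton_iff] at ht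
        exact Or.inr (Or.inr (Or.inl ht))
    | one => exact Or.inl rfl
    | mul a b _ _ ha hb =>
      have e1 : z * (z * y) = y := by rw [← mul_assoc, z_sq, one_mul]
      have e2 : z * y * z = y := by rw [zy, mul_assoc, z_sq, mul_one]
      have e3 : y * (z * y) = z := by rw [zy, ← mul_assoc, y_sq, one_mul]
      have e4 : z * y * y = z := by rw [mul_assoc, y_sq, mul_one]
      rcases ha with rfl | rfl | rfl | rfl <;> rcases hb with rfl | rfl | rfl | rfl <;>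
        simp [z_sq, y_sq, zy_sq, e1, e2, e3, e4, ← zy]
    | inv a _ ha =>
      rcases ha with rfl | rfl | rfl | rfl
      · simp
      · simp [inv_eq_of_mul_eq_one_left z_sq]
      · simp [inv_eq_of_mul_eq_one_left y_sq]
      · right; right; right; exact inv_eq_of_mul_eq_one_left zy_sq
  · rintro (rfl | rfl | rfl | rfl)
    · exact Subgroup.one_mem _
    · exact Subgroup.subset_closure (by simp)
    · exact Subgroup.subset_closure (by simp)
    · exact Subgroup.mul_mem _ (Subgroup.subset_closure (by simp)) (Subgroup.subset_closure (by simp))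

theorem conj_mem_four {c : G} (hz : c * z = z * c) (hc : c * y * c⁻¹ = y ∨ c * y * c⁻¹ = y * z) :
    ∀ v ∈ four z y, c * v * c⁻¹ ∈ four z y := by
  have hcz : c * z * c⁻¹ = z := by rw [hz]; group
  have e1 : c * y * c⁻¹ ∈ four z y := by
    rw [mem_four h hy hf]
    rcases hc with e | e
    · exact Or.inr (Or.inr (Or.inl e))
    · right; right; right; rw [e, zy h hy]
  have e2 : c * z * c⁻¹ ∈ four z y := by
    rw [mem_four h hy hf]; exact Or.inr (Or.inl hcz)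
  intro v hv
  rcases (mem_four h hy hf).1 hv with rfl | rfl | rfl | rfl
  · rw [mul_one, mul_inv_cancel]; exact Subgroup.one_mem _
  · exact e2
  · exact e1
  · have e3 : c * (z * y) * c⁻¹ = (c * z * c⁻¹) * (c * y * c⁻¹) := by group
    rw [e3]
    exact Subgroup.mul_mem _ e2 e1

theorem mem_PP (c : C) : (c : G) ∈ RIso.PP C z y ↔ pi c ∈ F := by
  constructor
  · rintro ⟨h1, h2, -⟩
    rw [pi_mem_F h hy hf]
    rcases (mem_four h hy hf).1 (h2 y ((mem_four h hy hf).2 (Or.inr (Or.inr (Or.inl rfl))))) with e | e | e | e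
    · exfalso
      apply y_ne h hy hf
      have e1 : y = (c : G)⁻¹ * ((c : G) * y * (c : G)⁻¹) * c := by group
      rw [e] at e1
      rw [e1]; group
    · exfalso
      apply y_ne_z h hf
      have e1 : y = (c : G)⁻¹ * ((c : G) * y * (c : G)⁻¹) * c := by group
      rw [e] at e1
      rw [e1, mul_assoc, ← h.Cz _ h1]; group
    · exact Or.inl e
    · right; rw [e, zy h hy]
  · intro hc
    have hc' : pi c⁻¹ ∈ F := by rw [map_inv]; exact F.inv_mem hc
    refine ⟨c.2, conj_mem_four h hy hf (coe_comm h c) ((pi_mem_F h hy hf c).1 hc), ?_⟩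
    have h1 := conj_mem_four h hy hf (coe_comm h c⁻¹) ((pi_mem_F h hy hf c⁻¹).1 hc')
    intro v hv
    have h2 := h1 v hv
    rw [Subgroup.coe_inv, inv_inv] at h2
    exact h2

/-- **The index of `PP z y` in the centraliser of `z` is odd.** -/
theorem odd_relIndex : Odd ((RIso.PP C z y).relIndex (C)) := by
  have h1 : (RIso.PP C z y).subgroupOf (C) = F.comap pi := by
    ext c
    rw [Subgroup.mem_subgroupOf, Subgroup.mem_comap]
    exact mem_PP h hy hf c
  rw [Subgroup.relIndex, h1, Subgroup.index_comap_of_surjective _ h.pi_surj]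
  exact CoFrameF.odd_index_F

end

end Cfsg.Agent.H861.RPerf
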