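import Cfsg.Agent.MonsterU.AmalElts
import Cfsg.Agent.H861.RPerf
import Cfsg.Agent.H861.RInf

/-!
# The elements `x`, `u`, `q₀`, `τ` of a relative chart
-/

set_option autoImplicit false

open Cfsg

namespace Cfsg.Agent.H861.RElts

open Cfsg.Agent.SporadicA.Co0Mono hiding smul_add smul_sub smul_neg smul_zero
open Cfsg.Agent.SporadicStructure.Co0Base (e8 e8_coe)
open Cfsg.Agent.SporadicA
open Cfsg.Agent.SporadicA.Co1Simple
open Cfsg.Agent.CoOneType.CoOneE (pr E)
open Cfsg.Agent.MonsterU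
open Cfsg.Agent.MonsterU.Lam2 (L2 cl cl_surjective bf qf bf_add_left bf_add_right bf_cl_eq_zero
  bf_comm bf_zero_left bf_zero_right bf_self add_self neg_eq cl_two)
open Cfsg.Agent.MonsterU.CoFrame
open Cfsg.Agent.MonsterU.CoFrameAct
open Cfsg.Agent.MonsterU.CoFrameL2
open Cfsg.Agent.MonsterU.CoFrameIrr
open Cfsg.Agent.MonsterU.AmalGen (bf_W12 mem_W12_of_bf gen_W12 gen_W23 sum_X_W12 sum_X_W23)
open Cfsg.Agent.MonsterU.AmalElts (cent_X X_ne_one qf_u0 bf_u0 X_eq)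
open Cfsg.Agent.MonsterU.AmalSide (four)
open Cfsg.Agent.H861.RGen
open Cfsg.Agent.H861.RSide (cent2 mem_cent2)
open Cfsg.Agent.H861.RCh
open Cfsg.Spor (Co1)

/-! ### The order of `C(z)` -/

variable {G : Type*} [Group G] {C Q : Subgroup G} {z : G} {eta : G → L2}
  {pi : C →* Co1}

section

variable (h : Chart C Q z eta pi)
include h

theorem card_centralizer : Nat.card (C) =
    2 ^ 25 * 4157776806543360000 := by
  have h1 := pi.ker.card_mul_index
  rw [Subgroup.index_ker, MonoidHom.range_eq_top.2 h.pi_surj, Subgroup.card_top, CoFrameF.card_Co1] at h1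
  have hle : Q ≤ C := h.QC
  have h2 : pi.ker = Q.subgroupOf (C) := by
    ext c
    rw [MonoidHom.mem_ker, h.pi_eq_one, Subgroup.mem_subgroupOf]
  have h3 : Nat.card pi.ker = 2 ^ 25 := by
    rw [h2, ← h.card_Q]
    exact Nat.card_congr (Subgroup.subgroupOfEquivOfLe hle).toEquiv
  rw [← h1, h3]

theorem finite_centralizer : Finite (C) := by
  apply Nat.finite_of_card_ne_zero
  rw [card_centralizer h]
  norm_num

variable {y : G}

omit h in
theorem cent2_le (y : G) : cent2 C z y ≤ C := inf_le_left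

theorem finite_cent2 (y : G) : Finite (cent2 C z y) := by
  have := finite_centralizer h
  exact Finite.of_injective _ (Subgroup.inclusion_injective (cent2_le y))

theorem not_dvd_cent2 (y : G) : ¬ 23 ^ 2 ∣ Nat.card (cent2 C z y) := by
  intro h1
  have h2 := h1.trans (Subgroup.card_dvd_of_le (cent2_le y))
  rw [card_centralizer h] at h2
  norm_num at h2

/-! ### The elements `x` and `u` -/

variable (hyQ : y ∈ Q) (hy : eta y = f0)
include hyQ hy

/-- The element `x`. -/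
theorem exists_x : ∃ x : C, pi x = X ∧ (x : G) ∈ cent2 C z y ∧
    (x : G) ^ 23 = 1 := by
  obtain ⟨b, hb, hb'⟩ := RPerf.exists_b h hyQ hy X_mem_F
  refine ⟨b ^ 24, ?_, ?_, ?_⟩
  · rw [map_pow, hb]
    have : X ^ 24 = X ^ 23 * X := pow_succ _ _
    rw [this, X_pow, one_mul]
  · exact Subgroup.pow_mem _ hb' 24
  · have h1 : ((b ^ 23 : C) : G) ∈ Q := by
      rw [← h.pi_eq_one, map_pow, hb, X_pow]
    have h2 : (b : G) ^ 23 ∈ Q := h1
    have h3 : ((b : G) ^ 23) ^ 4 = 1 := by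
      have e : ((b : G) ^ 23) ^ 4 = ((b : G) ^ 23 * (b : G) ^ 23) * ((b : G) ^ 23 * (b : G) ^ 23) := by
        rw [← pow_two, ← pow_two, ← pow_mul, ← pow_mul, ← pow_mul]
      rw [e]
      rcases h.large.sq _ h2 with e1 | e1
      · rw [e1, one_mul]
      · rw [e1, h.large.z_sq]
    show ((b : G) ^ 24) ^ 23 = 1
    have e : ((b : G) ^ 24) ^ 23 = (((b : G) ^ 23) ^ 4) ^ 6 := by
      rw [← pow_mul, ← pow_mul, ← pow_mul]
    rw [e, h3, one_pow]

omit h hyQ hy in
theorem orderOf_x {x : C} (hx : pi x = X)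
    (hx23 : (x : G) ^ 23 = 1) : orderOf (x : G) = 23 := by
  have : Fact (Nat.Prime 23) := ⟨by norm_num⟩
  refine orderOf_eq_prime hx23 ?_
  intro h1
  have h2 : x = 1 := Subtype.ext h1
  rw [h2, map_one] at hx
  exact X_ne_one hx.symm

/-- The element `u`. -/
theorem exists_u {x : C} (hx : pi x = X) :
    ∃ u ∈ cent2 C z y, ∃ r ∈ Q, u * (x : G) = r * (x : G) ^ 2 * u := by
  obtain ⟨b, hb, hb'⟩ := RPerf.exists_b h hyQ hy (s := pr CoFrame23.u) ⟨CoFrame23.u, CoFrame23.u_mem_N, rfl⟩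
  refine ⟨b, hb', (b : G) * x * ((x : G) ^ 2 * b)⁻¹, ?_, by group⟩
  have h1 : pi (b * x * (x ^ 2 * b)⁻¹) = 1 := by
    rw [map_mul, map_mul, map_inv, map_mul, map_pow, hb, hx, X, ← map_mul, ← map_pow, ← map_mul,
      CoFrame23.u_mul_x, mul_inv_cancel]
  exact (h.pi_eq_one _).1 h1

/-! ### The element `q₀` -/

omit hyQ hy in
/-- An element of odd order with trivial action on `eta q` commutes with `q`. -/
theorem comm_of_eta {x : C} (hx23 : (x : G) ^ 23 = 1) {q : G} (hq : q ∈ Q)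
    (hfix : pi x • eta q = eta q) : (x : G) * q = q * x := by
  have h0 : (x : G) * z = z * x := h.Cz _ x.2
  have h1 := h.eta_conj x q hq
  rw [hfix] at h1
  have h2 : (x : G) * q * (x : G)⁻¹ ∈ Q := h.large.conj_mem x x.2 q hq
  rcases (h.eta_eq h2 hq).1 h1 with e | e
  · rw [mul_inv_eq_iff_eq_mul] at e
    exact e
  · exfalso
    have e1 : (x : G) * q = q * z * x := by rw [mul_inv_eq_iff_eq_mul] at e; exact e
    have h3 : ∀ n : ℕ, (x : G) ^ n * q = q * z ^ n * (x : G) ^ n := by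
      intro n
      induction n with
      | zero => simp
      | succ n ih =>
        have hc : Commute (x : G) z := h0
        calc (x : G) ^ (n + 1) * q = x * ((x : G) ^ n * q) := by rw [pow_succ', mul_assoc]
          _ = (x * q) * (z ^ n * (x : G) ^ n) := by rw [ih]; simp only [mul_assoc]
          _ = q * z * ((x * z ^ n) * (x : G) ^ n) := by rw [e1]; simp only [mul_assoc]
          _ = q * z * ((z ^ n * x) * (x : G) ^ n) := by rw [(hc.pow_right n).eq]
          _ = q * (z * z ^ n) * (x * (x : G) ^ n) := by simp only [mul_assoc]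
          _ = q * z ^ (n + 1) * (x : G) ^ (n + 1) := by rw [← pow_succ', ← pow_succ']
    have h4 := h3 23
    have h5 : z ^ 23 = z := by
      have e2 : z ^ 23 = (z * z) ^ 11 * z := by rw [← pow_two, ← pow_mul, ← pow_succ]
      rw [e2, h.large.z_sq, one_pow, one_mul]
    rw [hx23, one_mul, mul_one, h5] at h4
    exact h.large.z_ne (left_eq_mul.1 h4)

/-- The element `q₀`. -/
theorem exists_q₀ {x : C} (hx : pi x = X) (hx23 : (x : G) ^ 23 = 1) :
    ∃ q₀ ∈ Q, q₀ * q₀ = 1 ∧ q₀ * y * q₀⁻¹ = z * y ∧ q₀ * (x : G) = x * q₀ := by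
  obtain ⟨q, hq, hqe⟩ := h.eta_surj (cl u0)
  refine ⟨q, hq, (h.sq_one hq).2 (by rw [hqe]; exact qf_u0), ?_, ?_⟩
  · have h1 : q * y = y * q * z := (h.comm_z_iff hq hyQ).2 (by rw [hqe, hy]; exact bf_u0)
    rw [h1, mul_assoc y q z, h.large.comm_z q hq, ← mul_assoc, mul_inv_cancel_right]
    exact h.large.comm_z y hyQ
  · refine (comm_of_eta h hx23 hq ?_).symm
    rw [hqe, hx, X_smul_cl, CoFrame23.x23_u0]

/-! ### The centraliser of `x` -/

theorem cent_x {x : C} (hx : pi x = X) (hxB : (x : G) ∈ cent2 C z y) {c : G}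
    (hc : c ∈ C) (hcy : c * y = y * c) (hcx : c * x = x * c) :
    ∃ v, (v = 1 ∨ v = z ∨ v = y ∨ v = z * y) ∧ ∃ n : ℕ, c = v * (x : G) ^ n := by
  have hF : pi ⟨c, hc⟩ ∈ F := pi_mem_F h hyQ hy ⟨c, hc⟩ hcy
  have hcomm : pi ⟨c, hc⟩ * X = X * pi ⟨c, hc⟩ := by
    rw [← hx, ← map_mul, ← map_mul]
    congr 1
    exact Subtype.ext hcx
  obtain ⟨n, hn⟩ := cent_X hF hcomm
  have hv : c * ((x : G) ^ n)⁻¹ ∈ Q := by
    have h1 : pi (⟨c, hc⟩ * (x ^ n)⁻¹) = 1 := by
      rw [map_mul, map_inv, map_pow, hx, hn, mul_inv_cancel]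
    exact (h.pi_eq_one _).1 h1
  refine ⟨c * ((x : G) ^ n)⁻¹, ?_, n, by group⟩
  rw [← RPerf.mem_four h hyQ hy, ← pre_W1 h hyQ hy]
  refine ⟨hv, ?_⟩
  have hxy : Commute (x : G) y := (mem_cent2.1 hxB).2.2
  have hxc : Commute (x : G) c := hcx.symm
  have hvx : Commute (x : G) (c * ((x : G) ^ n)⁻¹) :=
    hxc.mul_right (((Commute.refl (x : G)).pow_right n).inv_right)
  have hvy : Commute (c * ((x : G) ^ n)⁻¹) y := by
    have h1 : Commute c y := hcy
    exact h1.mul_left ((hxy.pow_left n).inv_left)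
  have h23 : eta (c * ((x : G) ^ n)⁻¹) ∈ W23 := (comm_y h hyQ hy hv).1 hvy.eq
  have h3 := h.eta_conj x _ hv
  rw [hvx.eq, mul_inv_cancel_right, hx] at h3
  have h4 : X • eta (c * ((x : G) ^ n)⁻¹) - eta (c * ((x : G) ^ n)⁻¹) = 0 := by
    rw [← h3, sub_self]
  exact fix_W12 (fix_W23 h23 (by rw [h4]; exact W12.zero_mem)) (by rw [h4]; exact W1.zero_mem)

/-! ### All the elements -/

omit h hyQ hy in
/-- The second subgroup of the amalgam. -/
structure Nrm {G : Type*} [Group G] (C N Q : Subgroup G) (z y : G) : Prop where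
  BN : cent2 C z y ≤ N
  QN : Q ≤ N
  NB : ∀ n ∈ N, n * z = z * n → n ∈ C
  NV : ∀ n ∈ N, ∀ v ∈ four z y, n * v * n⁻¹ ∈ four z y

omit h hyQ hy in
theorem Nrm.conj_B {N : Subgroup G} (hN : Nrm C N Q z y) {n : G} (hn : n ∈ N) {b : G}
    (hb : b ∈ cent2 C z y) : n * b * n⁻¹ ∈ cent2 C z y := by
  have hbv : ∀ v ∈ four z y, b * v = v * b := by
    intro v hv
    obtain ⟨-, h1, h2⟩ := mem_cent2.1 hb
    induction hv using Subgroup.closure_induction with
    | mem t ht =>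
      rcases ht with rfl | ht
      · exact h1
      · rw [Set.mem_singleton_iff] at ht; rw [ht]; exact h2
    | one => simp
    | mul a c _ _ ha hc => rw [← mul_assoc, ha, mul_assoc, hc, mul_assoc]
    | inv a _ ha =>
      calc b * a⁻¹ = a⁻¹ * (a * b) * a⁻¹ := by group
        _ = a⁻¹ * (b * a) * a⁻¹ := by rw [ha]
        _ = a⁻¹ * b := by group
  have key : ∀ v ∈ four z y, n * b * n⁻¹ * v = v * (n * b * n⁻¹) := by
    intro v hv
    have h1 := hN.NV n⁻¹ (N.inv_mem hn) v hv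
    rw [inv_inv] at h1
    have h2 := hbv _ h1
    calc n * b * n⁻¹ * v = n * (b * (n⁻¹ * v * n)) * n⁻¹ := by group
      _ = n * ((n⁻¹ * v * n) * b) * n⁻¹ := by rw [h2]
      _ = v * (n * b * n⁻¹) := by group
  have hz : z ∈ four z y := Subgroup.subset_closure (by simp)
  have hy : y ∈ four z y := Subgroup.subset_closure (by simp)
  exact mem_cent2.2 ⟨hN.NB _ (N.mul_mem (N.mul_mem hn (hN.BN hb)) (N.inv_mem hn)) (key z hz),
    key z hz, key y hy⟩

/-- **The elements `x, u, q₀, τ`.** -/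
theorem exists_elts {N : Subgroup G} (hN : Nrm C N Q z y) {t : G} (ht : t ∈ N)
    (htz : t * z * t⁻¹ = y) (hty : t * y * t⁻¹ = z * y) :
    ∃ (x : C) (u q₀ τ : G), pi x = X ∧ (x : G) ∈ cent2 C z y ∧
      (x : G) ^ 23 = 1 ∧ u ∈ cent2 C z y ∧ (∃ r ∈ Q, u * (x : G) = r * (x : G) ^ 2 * u) ∧
      q₀ ∈ Q ∧ q₀ * q₀ = 1 ∧ q₀ * y * q₀⁻¹ = z * y ∧ q₀ * (x : G) = x * q₀ ∧
      τ * τ * τ = 1 ∧ τ * z * τ⁻¹ = y ∧ τ * y * τ⁻¹ = z * y ∧ τ * (x : G) = x * τ ∧
      q₀ * τ * q₀⁻¹ = τ⁻¹ ∧ τ ∈ N := by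
  obtain ⟨x, hx, hxB, hx23⟩ := exists_x h hyQ hy
  obtain ⟨u, hu, hur⟩ := exists_u h hyQ hy hx
  obtain ⟨q₀, hq, hqq, hqy, hqx⟩ := exists_q₀ h hyQ hy hx hx23
  have hzy : z * y = y * z := RPerf.zy h hyQ
  have hx1 := (mem_cent2.1 hxB).2.1
  have hx2 := (mem_cent2.1 hxB).2.2
  have htxB : t * (x : G) * t⁻¹ ∈ cent2 C z y := hN.conj_B ht hxB
  have := finite_cent2 h y
  have : Fact (Nat.Prime 23) := ⟨by norm_num⟩
  have hox := orderOf_x hx hx23
  have hox' : orderOf (⟨(x : G), hxB⟩ : cent2 C z y) = 23 := by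
    rw [← hox, ← Subgroup.orderOf_coe]
  have h23' : (⟨t * (x : G) * t⁻¹, htxB⟩ : cent2 C z y) ^ 23 = 1 := by
    apply Subtype.ext
    show (t * (x : G) * t⁻¹) ^ 23 = 1
    rw [conj_pow, hx23, mul_one, mul_inv_cancel]
  obtain ⟨b, k, hbk⟩ := AmalTau.exists_conj_pow 23 (not_dvd_cent2 h y) hox' h23'
  have hb1 := (mem_cent2.1 b.2).2.1
  have hb2 := (mem_cent2.1 b.2).2.2
  have hbk' : (b : G) * (t * (x : G) * t⁻¹) * (b : G)⁻¹ = (x : G) ^ k := congrArg Subtype.val hbk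
  -- the elements of the group `N`
  have hzN : z ∈ N := hN.QN h.large.z_mem
  have hyN : y ∈ N := hN.QN hyQ
  have hxN : (x : G) ∈ N := hN.BN hxB
  have hbN : (b : G) ∈ N := hN.BN b.2
  obtain ⟨τ, hτ1, hτ2, hτ3, hτ4, hτ5⟩ := AmalTau.exists_tau (G := N) (z := ⟨z, hzN⟩) (y := ⟨y, hyN⟩)
    (x := ⟨(x : G), hxN⟩) (q := ⟨q₀, hN.QN hq⟩) (t := ⟨(b : G) * t, N.mul_mem hbN ht⟩) (k := k)
    (Subtype.ext h.large.z_sq) (Subtype.ext (RPerf.y_sq h hyQ hy)) (Subtype.ext hzy)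
    (fun e => RPerf.y_ne_z h hy (congrArg Subtype.val e))
    (Subtype.ext hx1) (Subtype.ext hx2) (by rw [← hox, ← Subgroup.orderOf_coe])
    (by
      intro c h1 h2 h3
      have h1' : (c : G) * z = z * c := congrArg Subtype.val h1
      have h2' : (c : G) * y = y * c := congrArg Subtype.val h2
      have h3' : (c : G) * x = x * c := congrArg Subtype.val h3
      obtain ⟨v, hv, n, hn⟩ := cent_x h hyQ hy hx hxB (hN.NB c c.2 h1') h2' h3'
      have hvN : v ∈ N := by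
        rcases hv with rfl | rfl | rfl | rfl
        · exact N.one_mem
        · exact hzN
        · exact hyN
        · exact N.mul_mem hzN hyN
      refine ⟨⟨v, hvN⟩, ?_, n, Subtype.ext hn⟩
      rcases hv with rfl | rfl | rfl | rfl
      · exact Or.inl rfl
      · exact Or.inr (Or.inl rfl)
      · exact Or.inr (Or.inr (Or.inl rfl))
      · exact Or.inr (Or.inr (Or.inr rfl)))
    (by
      apply Subtype.ext
      show (b : G) * t * z * ((b : G) * t)⁻¹ = y
      have : (b : G) * t * z * ((b : G) * t)⁻¹ = b * (t * z * t⁻¹) * (b : G)⁻¹ := by group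
      rw [this, htz, hb2, mul_inv_cancel_right])
    (by
      apply Subtype.ext
      show (b : G) * t * y * ((b : G) * t)⁻¹ = z * y
      have : (b : G) * t * y * ((b : G) * t)⁻¹ = b * (t * y * t⁻¹) * (b : G)⁻¹ := by group
      rw [this, hty, ← mul_assoc, hb1, mul_assoc z, hb2, ← mul_assoc, mul_inv_cancel_right])
    (by
      apply Subtype.ext
      show (b : G) * t * x * ((b : G) * t)⁻¹ = (x : G) ^ k
      rw [← hbk']; group) (Subtype.ext hqq)
    (by
      apply Subtype.ext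
      show q₀ * z * q₀⁻¹ = z
      rw [h.large.comm_z q₀ hq, mul_inv_cancel_right]) (Subtype.ext hqy) (Subtype.ext hqx)
  exact ⟨x, u, q₀, τ, hx, hxB, hx23, hu, hur, hq, hqq, hqy, hqx, congrArg Subtype.val hτ1,
    congrArg Subtype.val hτ2, congrArg Subtype.val hτ3, congrArg Subtype.val hτ4,
    congrArg Subtype.val hτ5, τ.2⟩

end

end Cfsg.Agent.H861.RElts
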