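import Cfsg.Agent.H861.RPlane
import Cfsg.Agent.MonsterU.EmbOf

/-!
# Gluing with a third subgroup

`Third C N L z V4 W`: the subgroup `L` acts on `W` as the full automorphism group, the stabiliser of `z` in `L` is in `C`,
the stabiliser of the subgroup `V4` in `L` is in `N`.  Then the hexagon relation holds modulo `C` and the homomorphisms of
the two parabolic subgroups of the model extend.
-/

set_option autoImplicit false

namespace Cfsg.Agent.H861.RGlue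

open Cfsg.Agent.MonsterU Cfsg.Agent.MonsterU.PlaneGeo Cfsg.Agent.MonsterU.PlaneAct
open Cfsg.Agent.MonsterU.PlaneE (X mem_X comm_V8 mem_X_of conj_X ev_mem_V8 mem_X_of_act X_le_K X_le_P X_le_N
  gr mem_gr)
open Cfsg.Agent.H861.RPlane (Data)

variable {Γ H : Type*} [Group Γ] [Group H]

/-- the third subgroup -/
structure Third (C N L : Subgroup H) (z : H) (V W : Subgroup H) : Prop where
  zW : z ∈ W
  LC : ∀ l ∈ L, l * z = z * l → l ∈ C
  LN : ∀ l ∈ L, (∀ v ∈ V, l * v * l⁻¹ ∈ V) → l ∈ N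
  full : ∀ f : W ≃* W, ∃ l ∈ L, ∀ w : W, l * (w : H) * l⁻¹ = f w

theorem Third.exists_l {C N L : Subgroup H} {z : H} {V W : Subgroup H} (T : Third C N L z V W) {c : H}
    (hc : c ∈ Subgroup.normalizer (W : Set H)) : ∃ l ∈ L, ∀ w ∈ W, l * w * l⁻¹ = c * w * c⁻¹ := by
  have h1 : ∀ w ∈ W, c * w * c⁻¹ ∈ W := fun w hw => (Subgroup.mem_normalizer_iff.1 hc w).1 hw
  have h2 : ∀ w ∈ W, c⁻¹ * w * c ∈ W := fun w hw => by
    have := (Subgroup.mem_normalizer_iff.1 (inv_mem hc) w).1 hw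
    rwa [inv_inv] at this
  let f : W ≃* W :=
    { toFun := fun w => ⟨c * w * c⁻¹, h1 w w.2⟩
      invFun := fun w => ⟨c⁻¹ * w * c, h2 w w.2⟩
      left_inv := fun w => Subtype.ext (by
        show c⁻¹ * (c * w * c⁻¹) * c = w
        group)
      right_inv := fun w => Subtype.ext (by
        show c * (c⁻¹ * w * c) * c⁻¹ = w
        group)
      map_mul' := fun v w => Subtype.ext (by
        show c * (v * w) * c⁻¹ = c * v * c⁻¹ * (c * w * c⁻¹)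
        group) }
  obtain ⟨l, hl, h3⟩ := T.full f
  exact ⟨l, hl, fun w hw => h3 ⟨w, hw⟩⟩

variable {z a b τ ξ y q : Γ} {α : K z →* H} {β : N z a →* H}

/-- the image of a subgroup of `K` -/
def im (α : K z →* H) (S : Subgroup Γ) : Subgroup H := (S.subgroupOf (K z)).map α

theorem mem_im {S : Subgroup Γ} {h : H} : h ∈ im α S ↔ ∃ s, ∃ hs : s ∈ K z, s ∈ S ∧ α ⟨s, hs⟩ = h := by
  constructor
  · rintro ⟨k, hk, rfl⟩
    exact ⟨k, k.2, hk, rfl⟩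
  · rintro ⟨s, hs, hS, rfl⟩
    exact ⟨⟨s, hs⟩, hS, rfl⟩

section

variable (D : Data z a b τ ξ y q α β)
include D

theorem exists_ev {v : Γ} (hv : v ∈ V8 z a b) : ∃ w, v = ev z a b w :=
  D.cent v (by
    have h1 : V8 z a b ≤ X z a b := by
      unfold V8
      rw [Subgroup.closure_le]
      rintro s (rfl | rfl | hs)
      · exact mem_X.2 ⟨rfl, D.pl.za, D.pl.zb⟩
      · exact mem_X.2 ⟨D.pl.za.symm, rfl, D.pl.ab⟩
      · rw [Set.mem_singleton_iff] at hs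
        subst hs
        exact mem_X.2 ⟨D.pl.zb.symm, D.pl.ab.symm, rfl⟩
    exact X_le_K (h1 hv)) fun _ hx => (comm_V8 hx hv).symm

theorem ev_K (v : V) : ev z a b v ∈ K z := X_le_K (D.ev_X v)

theorem mem_W {w : H} : w ∈ im α (V8 z a b) ↔ ∃ v, α ⟨ev z a b v, ev_K D v⟩ = w := by
  rw [mem_im]
  constructor
  · rintro ⟨s, hs, hS, rfl⟩
    obtain ⟨v, rfl⟩ := exists_ev D hS
    exact ⟨v, rfl⟩
  · rintro ⟨v, rfl⟩
    exact ⟨_, ev_K D v, ev_mem_V8 v, rfl⟩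

theorem conj_ev (w : PlaneE.B a b α) {f : V → V} (hf : Act z a b (w : Γ × H).1 f) (v : V) :
    (w : Γ × H).2 * α ⟨ev z a b v, ev_K D v⟩ * (w : Γ × H).2⁻¹ = α ⟨ev z a b (f v), ev_K D (f v)⟩ :=
  congrArg (fun t : PlaneE.B a b α => (t : Γ × H).2) (D.zv_conj w hf v)

theorem normalizer_W (w : PlaneE.B a b α) {f : V → V} (hf : Act z a b (w : Γ × H).1 f)
    (hs : ∀ v, f (f v) = v) : (w : Γ × H).2 ∈ Subgroup.normalizer (im α (V8 z a b) : Set H) := by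
  rw [Subgroup.mem_normalizer_iff]
  have key : ∀ h ∈ im α (V8 z a b), (w : Γ × H).2 * h * (w : Γ × H).2⁻¹ ∈ im α (V8 z a b) := by
    intro h hh
    obtain ⟨v, rfl⟩ := (mem_W D).1 hh
    rw [conj_ev D w hf]
    exact (mem_W D).2 ⟨_, rfl⟩
  intro h
  refine ⟨key h, fun h1 => ?_⟩
  obtain ⟨v, hv⟩ := (mem_W D).1 h1
  have h2 := conj_ev D w hf (f v)
  have h3 : h = α ⟨ev z a b (f v), ev_K D (f v)⟩ := by
    have h4 : ∀ (u u' : V), u = u' → α ⟨ev z a b u, ev_K D u⟩ = α ⟨ev z a b u', ev_K D u'⟩ := by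
      rintro u _ rfl; rfl
    rw [h4 _ _ (hs v), hv] at h2
    exact (mul_left_cancel (mul_right_cancel h2)).symm
  rw [h3]
  exact (mem_W D).2 ⟨_, rfl⟩

/-- **The hexagon.** -/
theorem hex {N' L : Subgroup H} (hβ : ∀ n, β n ∈ N')
    (NB : ∀ n ∈ N', (∀ hz, n * α ⟨z, hz⟩ = α ⟨z, hz⟩ * n) → n ∈ α.range)
    (BN : ∀ c ∈ α.range, (∀ ha, c * α ⟨a, ha⟩ = α ⟨a, ha⟩ * c) → c ∈ N') {z' : H}
    (hz' : ∀ hz, α ⟨z, hz⟩ = z') (T : Third α.range N' L z' (im α (V4 z a)) (im α (V8 z a b))) : D.Hex := by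
  have hzK : z ∈ K z := ev_K D (true, false, false) |> fun h => by
    simpa [ev, cf] using h
  have haK : a ∈ K z := ev_K D (false, true, false) |> fun h => by
    simpa [ev, cf] using h
  have hz1 : α ⟨ev z a b (true, false, false), ev_K D _⟩ = z' := by
    rw [← hz' hzK]
    congr 1
    apply Subtype.ext
    simp [ev, cf]
  have ha1 : α ⟨ev z a b (false, true, false), ev_K D _⟩ = α ⟨a, haK⟩ := by
    congr 1
    apply Subtype.ext
    simp [ev, cf]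
  set W := im α (V8 z a b) with hW
  have haW : α ⟨a, haK⟩ ∈ W := (mem_W D).2 ⟨_, ha1⟩
  -- the two elements
  set c₁ : H := ((D.s1 : PlaneE.B a b α) : Γ × H).2 with hc₁
  set n₂ : H := ((D.s2 : PlaneE.B a b α) : Γ × H).2 with hn₂
  have hc₁C : c₁ ∈ α.range := by
    obtain ⟨hk, -, h3⟩ := mem_gr.1 D.s1_K
    exact ⟨_, h3.symm⟩
  have hn₂N : n₂ ∈ N' := by
    obtain ⟨hk, -, h3⟩ := mem_gr.1 D.s2_N
    rw [hn₂, h3]; exact hβ _
  obtain ⟨l₁, hl₁, h₁⟩ := T.exists_l (normalizer_W D D.s1 D.act_s1 (by decide))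
  obtain ⟨l₂, hl₂, h₂⟩ := T.exists_l (normalizer_W D D.s2 D.act_s2 (by decide))
  have hl₁C : l₁ ∈ α.range := by
    apply T.LC l₁ hl₁
    have e1 := h₁ z' T.zW
    have e2 := conj_ev D D.s1 D.act_s1 (true, false, false)
    have e4 : α ⟨ev z a b (Data.f1 (true, false, false)), ev_K D _⟩ = z' := hz1
    rw [hz1, e4] at e2
    rw [e2] at e1
    exact mul_inv_eq_iff_eq_mul.1 e1
  have hl₂N : l₂ ∈ N' := by
    apply T.LN l₂ hl₂
    rintro v hv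
    obtain ⟨s, hs, hS, rfl⟩ := mem_im.1 hv
    have hW' : α ⟨s, hs⟩ ∈ W := mem_im.2 ⟨s, hs, D.pl.V4_le_V8 hS, rfl⟩
    rw [h₂ _ hW']
    obtain ⟨hk, -, h3⟩ := mem_gr.1 D.s2_N
    have hsN : s ∈ N z a := by
      have h8 : V4 z a ≤ N z a := fun t ht => Subgroup.le_normalizer ht
      exact h8 hS
    rw [h3, D.kn s hs hsN, ← map_mul, ← map_inv, ← map_mul]
    have h5 : ((D.s2 : PlaneE.B a b α) : Γ × H).1 * s * (((D.s2 : PlaneE.B a b α) : Γ × H).1)⁻¹ ∈ V4 z a :=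
      (Subgroup.mem_normalizer_iff.1 hk s).1 hS
    have h6 : V4 z a ≤ K z := by
      unfold V4
      rw [Subgroup.closure_le]
      rintro t (rfl | ht)
      · exact hzK
      · rw [Set.mem_singleton_iff] at ht; rw [ht]; exact haK
    refine mem_im.2 ⟨_, h6 h5, h5, ?_⟩
    rw [D.kn _ (h6 h5) (mul_mem (mul_mem hk hsN) (inv_mem hk))]
    rfl
  -- the normalised group
  let X' : Subgroup H := α.range ⊓ Subgroup.centralizer (W : Set H)
  have memX : ∀ x, x ∈ X' ↔ x ∈ α.range ∧ ∀ w ∈ W, x * w = w * x := by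
    intro x
    show x ∈ α.range ∧ x ∈ Subgroup.centralizer (W : Set H) ↔ _
    rw [Subgroup.mem_centralizer_iff]
    exact ⟨fun t => ⟨t.1, fun w hw => (t.2 w hw).symm⟩, fun t => ⟨t.1, fun w hw => (t.2 w hw).symm⟩⟩
  have conjW : ∀ {l c : H}, (∀ w ∈ W, l * w * l⁻¹ = c * w * c⁻¹) → c ∈ Subgroup.normalizer (W : Set H) →
      l ∈ Subgroup.normalizer (W : Set H) := by
    intro l c h hc
    have hx : ∀ w ∈ W, (c⁻¹ * l) * w * (c⁻¹ * l)⁻¹ = w := by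
      intro w hw
      have e : (c⁻¹ * l) * w * (c⁻¹ * l)⁻¹ = c⁻¹ * (l * w * l⁻¹) * c := by group
      rw [e, h w hw]; group
    have h1 : c⁻¹ * l ∈ Subgroup.normalizer (W : Set H) := by
      rw [Subgroup.mem_normalizer_iff]
      intro w
      refine ⟨fun hw => by rw [hx w hw]; exact hw, fun hw => ?_⟩
      have e1 := hx _ hw
      have e2 : (c⁻¹ * l) * w * (c⁻¹ * l)⁻¹ = w := by
        have := congrArg (fun t => (c⁻¹ * l)⁻¹ * t * (c⁻¹ * l)) e1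
        simpa [mul_assoc] using this
      rw [← e2]; exact hw
    have h2 := mul_mem hc h1
    rwa [mul_inv_cancel_left] at h2
  have nl₁ := conjW h₁ (normalizer_W D D.s1 D.act_s1 (by decide))
  have nl₂ := conjW h₂ (normalizer_W D D.s2 D.act_s2 (by decide))
  have comm_conj : ∀ {l x : H}, l ∈ Subgroup.normalizer (W : Set H) → (∀ w ∈ W, x * w = w * x) →
      ∀ w ∈ W, l * x * l⁻¹ * w = w * (l * x * l⁻¹) := by
    intro l x hl hx w hw
    have h1 : l⁻¹ * w * l ∈ W := by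
      have := (Subgroup.mem_normalizer_iff.1 (inv_mem hl) w).1 hw
      rwa [inv_inv] at this
    have h2 := hx _ h1
    calc l * x * l⁻¹ * w = l * (x * (l⁻¹ * w * l)) * l⁻¹ := by group
      _ = l * ((l⁻¹ * w * l) * x) * l⁻¹ := by rw [h2]
      _ = w * (l * x * l⁻¹) := by group
  have toC : ∀ n ∈ N', (∀ w ∈ W, n * w = w * n) → n ∈ X' := by
    intro n hn hc
    refine (memX n).2 ⟨NB n hn fun hz => ?_, hc⟩
    rw [hz' hz]
    exact hc _ T.zW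
  have X'N : ∀ x ∈ X', x ∈ N' := by
    intro x hx
    obtain ⟨h1, h2⟩ := (memX x).1 hx
    exact BN x h1 fun ha => h2 _ haW
  have n₁ : ∀ x ∈ X', l₁ * x * l₁⁻¹ ∈ X' := by
    intro x hx
    obtain ⟨h1, h2⟩ := (memX x).1 hx
    exact (memX _).2 ⟨mul_mem (mul_mem hl₁C h1) (inv_mem hl₁C), comm_conj nl₁ h2⟩
  have n₂' : ∀ x ∈ X', l₂ * x * l₂⁻¹ ∈ X' := by
    intro x hx
    obtain ⟨h1, h2⟩ := (memX x).1 hx
    exact toC _ (mul_mem (mul_mem hl₂N (X'N x hx)) (inv_mem hl₂N)) (comm_conj nl₂ h2)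
  have x₁ : c₁ * l₁⁻¹ ∈ X' := by
    refine (memX _).2 ⟨mul_mem hc₁C (inv_mem hl₁C), fun w hw => ?_⟩
    have hw' : l₁⁻¹ * w * l₁ ∈ W := by
      have := (Subgroup.mem_normalizer_iff.1 (inv_mem nl₁) w).1 hw
      rwa [inv_inv] at this
    have e := h₁ _ hw'
    have e2 : w = c₁ * (l₁⁻¹ * w * l₁) * c₁⁻¹ := by rw [← e]; group
    calc c₁ * l₁⁻¹ * w = (c₁ * (l₁⁻¹ * w * l₁) * c₁⁻¹) * (c₁ * l₁⁻¹) := by group
      _ = w * (c₁ * l₁⁻¹) := by rw [← e2]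
  have x₂ : n₂ * l₂⁻¹ ∈ X' := by
    refine toC _ (mul_mem hn₂N (inv_mem hl₂N)) fun w hw => ?_
    have hw' : l₂⁻¹ * w * l₂ ∈ W := by
      have := (Subgroup.mem_normalizer_iff.1 (inv_mem nl₂) w).1 hw
      rwa [inv_inv] at this
    have e := h₂ _ hw'
    have e2 : w = n₂ * (l₂⁻¹ * w * l₂) * n₂⁻¹ := by rw [← e]; group
    calc n₂ * l₂⁻¹ * w = (n₂ * (l₂⁻¹ * w * l₂) * n₂⁻¹) * (n₂ * l₂⁻¹) := by group
      _ = w * (n₂ * l₂⁻¹) := by rw [← e2]
  -- congruences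
  have cong : ∀ {g g' h h' : H}, g * g'⁻¹ ∈ X' → (∀ x ∈ X', g' * x * g'⁻¹ ∈ X') → h * h'⁻¹ ∈ X' →
      g * h * (g' * h')⁻¹ ∈ X' := by
    intro g g' h h' h1 h2 h3
    have e : g * h * (g' * h')⁻¹ = (g * g'⁻¹) * (g' * (h * h'⁻¹) * g'⁻¹) := by group
    rw [e]
    exact mul_mem h1 (h2 _ h3)
  have nmul : ∀ {g h : H}, (∀ x ∈ X', g * x * g⁻¹ ∈ X') → (∀ x ∈ X', h * x * h⁻¹ ∈ X') →
      ∀ x ∈ X', g * h * x * (g * h)⁻¹ ∈ X' := by
    intro g h h1 h2 x hx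
    have e : g * h * x * (g * h)⁻¹ = g * (h * x * h⁻¹) * g⁻¹ := by group
    rw [e]
    exact h1 _ (h2 x hx)
  have k2 := cong x₁ n₁ x₂
  have m2 := nmul n₁ n₂'
  have k3 := cong k2 m2 x₁
  have m3 := nmul m2 n₁
  have k4 := cong k3 m3 x₂
  have m4 := nmul m3 n₂'
  have k5 := cong k4 m4 x₁
  have m5 := nmul m4 n₁
  have k6 := cong k5 m5 x₂
  set g : H := c₁ * n₂ * c₁ * n₂ * c₁ * n₂ with hg
  set l : H := l₁ * l₂ * l₁ * l₂ * l₁ * l₂ with hl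
  have hlL : l ∈ L := mul_mem (mul_mem (mul_mem (mul_mem (mul_mem hl₁ hl₂) hl₁) hl₂) hl₁) hl₂
  have hgB : g = ((D.s1 * D.s2 * D.s1 * D.s2 * D.s1 * D.s2 : PlaneE.B a b α) : Γ × H).2 := rfl
  have hact : Act z a b ((D.s1 * D.s2 * D.s1 * D.s2 * D.s1 * D.s2 : PlaneE.B a b α) : Γ × H).1 id :=
    (((((D.act_s1.mul D.act_s2).mul D.act_s1).mul D.act_s2).mul D.act_s1).mul D.act_s2).congr (by decide)
  have hgW : ∀ w ∈ W, g * w = w * g := by
    intro w hw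
    obtain ⟨v, rfl⟩ := (mem_W D).1 hw
    have := conj_ev D _ hact v
    rw [← hgB] at this
    exact mul_inv_eq_iff_eq_mul.1 this
  have hlW : l * z' = z' * l := by
    have h1 := (memX _).1 k6
    have h2 := h1.2 z' T.zW
    have h3 := hgW z' T.zW
    have e : l = (g * l⁻¹)⁻¹ * g := by group
    have c1 : Commute (g * l⁻¹) z' := h2
    have c2 : Commute g z' := h3
    rw [e]
    exact (c1.inv_left.mul_left c2).eq
  have hlC := T.LC l hlL hlW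
  show ((D.s1 * D.s2 * D.s1 * D.s2 * D.s1 * D.s2 : PlaneE.B a b α) : Γ × H).2 ∈ α.range
  rw [← hgB]
  have e : g = (g * l⁻¹) * l := by group
  rw [e]
  exact mul_mem ((memX _).1 k6).1 hlC

end

/-- **The homomorphism onto the group.** -/
theorem exists_surj (hg : EmbOf.Geometry z a b τ ξ y q) (kn : ∀ x (h : x ∈ K z) (h' : x ∈ N z a), α ⟨x, h⟩ = β ⟨x, h'⟩)
    (inj : Function.Injective α) {N' L : Subgroup H} (hβ : ∀ n, β n ∈ N')
    (NB : ∀ n ∈ N', (∀ hz, n * α ⟨z, hz⟩ = α ⟨z, hz⟩ * n) → n ∈ α.range)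
    (BN : ∀ c ∈ α.range, (∀ ha, c * α ⟨a, ha⟩ = α ⟨a, ha⟩ * c) → c ∈ N') {z' : H}
    (hz' : ∀ hz, α ⟨z, hz⟩ = z') (T : Third α.range N' L z' (im α (V4 z a)) (im α (V8 z a b)))
    (hgen : α.range ⊔ β.range = ⊤) : ∃ φ : Γ →* H, Function.Surjective φ := by
  have D : Data z a b τ ξ y q α β := ⟨hg.pl, hg.q_z, hg.q_a, hg.q_b, inj, kn, hg.cent⟩
  obtain ⟨φ, h1, h2⟩ := GlueP.exists_hom_of_levels kn (EmbOf.unique hg.pl)
    (D.planeRel (hex D hβ NB BN hz' T)) hg.gen hg.levels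
  refine ⟨φ, ?_⟩
  rw [← MonoidHom.range_eq_top, eq_top_iff, ← hgen, sup_le_iff]
  constructor
  · rintro _ ⟨k, rfl⟩
    exact ⟨k, h1 k k.2⟩
  · rintro _ ⟨k, rfl⟩
    exact ⟨k, h2 k k.2⟩

end Cfsg.Agent.H861.RGlue
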