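import Cfsg.Agent.MonsterU.AmalSideOf
import Cfsg.Agent.SporadicStructure.SextetTrans
import Cfsg.Agent.S0366

/-!
# The classes of type 4 in `W12`

Two classes of type 4 in `W12` different from the frame class are conjugate under `F` modulo `W1`.
-/

set_option autoImplicit false

open Cfsg

namespace Cfsg.Agent.H861.RSextet

open Cfsg.Agent.SporadicA
open Cfsg.Agent.SporadicA.Co0Mono hiding smul_add smul_sub smul_neg smul_zero
open Cfsg.Agent.SporadicStructure.Co0Base (e8 e8_coe)
open Cfsg.Agent.CoOneType.CoOneE (pr E)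
open Cfsg.Agent.MonsterU
open Cfsg.Agent.MonsterU.Lam2 (L2 cl cl_surjective IsType)
open Cfsg.Agent.MonsterU.CoFrame
open Cfsg.Agent.MonsterU.CoFrameAct
open Cfsg.Agent.MonsterU.CoFrameL2
open Cfsg.Spor (Co1)
open scoped Pointwise

/-- A class of type four in `W12` is the frame class or the class of a vector `(±4⁴, 0²⁰)`. -/
theorem exists_tetrad {v : L2} (hv : v ∈ W12) (h4 : IsType 4 v) (hne : v ≠ f0) :
    ∃ (T : Finset GolayPt) (w : leechLattice), T.card = 4 ∧ cl w = v ∧
      (∀ i ∈ T, (w : GolayPt → ℤ) i = 4 ∨ (w : GolayPt → ℤ) i = -4) ∧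
      ∀ i ∉ T, (w : GolayPt → ℤ) i = 0 := by
  obtain ⟨w, hw, rfl⟩ := h4
  rw [cl_mem_W12] at hv
  have hsum : ∑ i, ((w : GolayPt → ℤ) i) ^ 2 = 64 := by
    have : sqNorm (w : GolayPt → ℤ) = 64 := by rw [hw]; norm_num
    rw [← this]
    rfl
  obtain ⟨h2, hd⟩ := (mem_V12 w).1 hv
  -- all coordinates are divisible by four
  have hfour : ∀ i, (4 : ℤ) ∣ (w : GolayPt → ℤ) i := by
    by_contra hcon
    push Not at hcon
    obtain ⟨j, hj⟩ := hcon
    have hall : ∀ i, (4 : ℤ) ≤ ((w : GolayPt → ℤ) i) ^ 2 := by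
      intro i
      have h1 := h2 i
      have h3 := hd i j
      have h5 : ¬ (4 : ℤ) ∣ (w : GolayPt → ℤ) i := fun h => hj (by omega)
      obtain ⟨k, hk⟩ := h1
      have hk0 : k ≠ 0 := by
        rintro rfl
        apply h5
        rw [hk]; norm_num
      have hk1 : 1 ≤ k ^ 2 := by
        have := sq_nonneg k
        rcases lt_or_gt_of_ne hk0 with h | h <;> nlinarith
      rw [hk]; nlinarith
    have h96 : ∑ _i : GolayPt, (4 : ℤ) ≤ ∑ i, ((w : GolayPt → ℤ) i) ^ 2 :=
      Finset.sum_le_sum fun i _ => hall i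
    rw [hsum, Finset.sum_const, Finset.card_univ] at h96
    have h24 : Fintype.card GolayPt = 24 := by simp [GolayPt, ZMod.card]
    rw [h24] at h96
    norm_num at h96
  choose u hu using hfour
  have husum : ∑ i, (u i) ^ 2 = 4 := by
    have h1 : ∑ i, ((w : GolayPt → ℤ) i) ^ 2 = 16 * ∑ i, (u i) ^ 2 := by
      rw [Finset.mul_sum]
      refine Finset.sum_congr rfl fun i _ => ?_
      rw [hu]; ring
    rw [hsum] at h1
    omega
  -- no coordinate is ±2
  have habs : ∀ i, (u i) ^ 2 ≤ 1 := by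
    intro i
    by_contra hcon
    push Not at hcon
    have hle : (u i) ^ 2 ≤ 4 := by
      rw [← husum]
      exact Finset.single_le_sum (f := fun i => (u i) ^ 2) (fun j _ => sq_nonneg _) (Finset.mem_univ i)
    have hui : u i = 2 ∨ u i = -2 := by
      have h1 : u i ≤ 2 := by nlinarith
      have h3 : -2 ≤ u i := by nlinarith
      interval_cases h : u i <;> simp_all
    have hsq : (u i) ^ 2 = 4 := by rcases hui with h | h <;> rw [h] <;> norm_num
    have hrest : ∀ j, j ≠ i → u j = 0 := by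
      intro j hj
      have h1 := Finset.add_sum_erase Finset.univ (fun k => (u k) ^ 2) (Finset.mem_univ i)
      have h3 : (u i) ^ 2 + ∑ k ∈ Finset.univ.erase i, (u k) ^ 2 = 4 := by rw [← husum]; exact h1
      have h5 : ∑ k ∈ Finset.univ.erase i, (u k) ^ 2 = 0 := by linarith
      have h6 := (Finset.sum_eq_zero_iff_of_nonneg fun k _ => sq_nonneg (u k)).1 h5 j
        (Finset.mem_erase.2 ⟨hj, Finset.mem_univ _⟩)
      exact pow_eq_zero_iff (two_ne_zero) |>.1 h6
    apply hne
    have hw8 : w = e8 i ∨ w = - e8 i := by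
      rcases hui with h | h
      · left
        apply Subtype.ext
        funext j
        rw [hu, coe_e8]
        split_ifs with hji
        · rw [hji, h]; norm_num
        · rw [hrest j hji]; norm_num
      · right
        apply Subtype.ext
        funext j
        show (w : GolayPt → ℤ) j = -((e8 i : leechLattice) : GolayPt → ℤ) j
        rw [hu, coe_e8]
        split_ifs with hji
        · rw [hji, h]; norm_num
        · rw [hrest j hji]; norm_num
    have hc : Cong w (e8 none) := by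
      rcases hw8 with h | h <;> rw [h]
      · exact cong_e8 i none
      · exact (Cong.neg_self _).trans (cong_e8 i none)
    exact (cong_iff_cl _ _).1 hc
  have hcases : ∀ i, u i = 0 ∨ u i = 1 ∨ u i = -1 := by
    intro i
    have h1 := habs i
    have h3 : u i ≤ 1 := by nlinarith
    have h5 : -1 ≤ u i := by nlinarith
    omega
  refine ⟨Finset.univ.filter fun i => u i ≠ 0, w, ?_, rfl, ?_, ?_⟩
  · have h1 : ∑ i, (u i) ^ 2 = ((Finset.univ.filter fun i => u i ≠ 0).card : ℤ) := by
      rw [Finset.card_eq_sum_ones, Nat.cast_sum, Finset.sum_filter]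
      refine Finset.sum_congr rfl fun i _ => ?_
      rcases hcases i with h | h | h <;> rw [h] <;> simp
    rw [husum] at h1
    exact_mod_cast h1.symm
  · intro i hi
    rw [Finset.mem_filter] at hi
    rw [hu]
    rcases hcases i with h | h | h
    · exact absurd h hi.2
    · left; rw [h]; norm_num
    · right; rw [h]; norm_num
  · intro i hi
    rw [Finset.mem_filter, not_and, not_not] at hi
    rw [hu, hi (Finset.mem_univ _), mul_zero]

/-- Two vectors with the same tetrad differ by an element of `V1`. -/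
theorem sub_mem_V1 {T : Finset GolayPt} {w w' : leechLattice}
    (h1 : ∀ i ∈ T, (w : GolayPt → ℤ) i = 4 ∨ (w : GolayPt → ℤ) i = -4)
    (h2 : ∀ i ∉ T, (w : GolayPt → ℤ) i = 0)
    (h1' : ∀ i ∈ T, (w' : GolayPt → ℤ) i = 4 ∨ (w' : GolayPt → ℤ) i = -4)
    (h2' : ∀ i ∉ T, (w' : GolayPt → ℤ) i = 0) : w - w' ∈ V1 := by
  have hd : ∀ i, (8 : ℤ) ∣ (w : GolayPt → ℤ) i - (w' : GolayPt → ℤ) i := by
    intro i
    by_cases hi : i ∈ T
    · rcases h1 i hi with e | e <;> rcases h1' i hi with e' | e' <;> rw [e, e'] <;> norm_num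
    · rw [h2 i hi, h2' i hi]; norm_num
  choose c hc using hd
  have hsum : w - w' = ∑ i, c i • e8 i := by
    apply Subtype.ext
    funext j
    have e1 : ((∑ i, c i • e8 i : leechLattice) : GolayPt → ℤ) j =
        ∑ i, c i * ((e8 i : leechLattice) : GolayPt → ℤ) j := by
      rw [AddSubgroup.val_finsetSum, Finset.sum_apply]
      refine Finset.sum_congr rfl fun i _ => ?_
      rw [AddSubgroup.coe_zsmul, Pi.smul_apply, smul_eq_mul]
    rw [e1, Finset.sum_eq_single j]
    · rw [coe_e8, if_pos rfl]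
      show (w : GolayPt → ℤ) j - (w' : GolayPt → ℤ) j = _
      rw [hc]; ring
    · intro i _ hij
      rw [coe_e8, if_neg (Ne.symm hij), mul_zero]
    · intro h; exact absurd (Finset.mem_univ _) h
  rw [hsum]
  refine V1.sum_mem fun i _ => V1.zsmul_mem ?_ _
  exact mem_V1_of_cong (cong_e8 i none) e8_mem_V1

/-- **Transitivity on sextets.** -/
theorem exists_F {v v' : L2} (hv : v ∈ W12) (h4 : IsType 4 v) (hne : v ≠ f0) (hv' : v' ∈ W12)
    (h4' : IsType 4 v') (hne' : v' ≠ f0) : ∃ s ∈ F, s • v - v' ∈ W1 := by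
  obtain ⟨T, w, hT, rfl, h1, h2⟩ := exists_tetrad hv h4 hne
  obtain ⟨T', w', hT', rfl, h1', h2'⟩ := exists_tetrad hv' h4' hne'
  obtain ⟨g, hg, hgT⟩ := SporadicStructure.SextetTrans.four_of_five Cfsg.Agent.S0366.result T T' hT hT'
  let σ : M24 := ⟨g, hg⟩
  refine ⟨pr (permCo0 σ), pr_mem_F (Cfsg.Agent.SporadicA.Co1Simple.perm_mem_N σ), ?_⟩
  rw [pr_smul_cl, ← map_sub, cl_mem_W1]
  have hcoe : ∀ i, ((permCo0 σ • w : leechLattice) : GolayPt → ℤ) i = (w : GolayPt → ℤ) (g.symm i) := by
    intro i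
    rw [permCo0_smul]; rfl
  have hmem : ∀ i, i ∈ T' ↔ g.symm i ∈ T := by
    intro i
    rw [← hgT, Finset.mem_smul_finset]
    constructor
    · rintro ⟨j, hj, rfl⟩
      show g.symm (g j) ∈ T
      rwa [Equiv.symm_apply_apply]
    · intro hi
      exact ⟨g.symm i, hi, Equiv.apply_symm_apply g i⟩
  refine sub_mem_V1 (T := T') ?_ ?_ h1' h2'
  · intro i hi
    rw [hcoe]
    exact h1 _ ((hmem i).1 hi)
  · intro i hi
    rw [hcoe]
    exact h2 _ fun h => hi ((hmem i).2 h)

end Cfsg.Agent.H861.RSextet
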