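import Cfsg.Agent.H861.RModel
import Cfsg.Agent.H861.RGlue
import Cfsg.Agent.H861.RAmal
import Cfsg.Agent.H861.RSextet

/-!
# The identification of a group with a relative chart and a third subgroup
-/

set_option autoImplicit false

open Cfsg

namespace Cfsg.Agent.H861.RFinal

open Cfsg.Agent.MonsterU
open Cfsg.Agent.MonsterU.Lam2 (L2 IsType)
open Cfsg.Agent.MonsterU.CoFrameL2
open Cfsg.Agent.MonsterU.CoFrameIrr
open Cfsg.Agent.MonsterU.AmalSide (four)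
open Cfsg.Agent.H861.RSide (cent2 mem_cent2)
open Cfsg.Agent.H861.RCh
open Cfsg.Agent.H861.RElts (Nrm)
open Cfsg.Agent.H861.RAmal (Homs)
open Cfsg.Agent.H861.RGlue (Third im mem_im)
open Cfsg.Agent.H861.RModel (Model)
open Cfsg.Spor (Co1)
open Cfsg.Agent.MonsterU.PlaneGeo (K N V4 V8 mem_K z_mem_V4 a_mem_V4 z_mem_V8 a_mem_V8 b_mem_V8)

/-- the hypotheses on the group -/
structure Hyp {G : Type*} [Group G] (C N L Q : Subgroup G) (z y : G) (eta : G → L2) (pi : C →* Co1)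
    (b : G) : Prop where
  chart : Chart C Q z eta pi
  yQ : y ∈ Q
  ey : eta y = f0
  nrm : Nrm C N Q z y
  t : ∃ t ∈ N, t * z * t⁻¹ = y ∧ t * y * t⁻¹ = z * y
  bQ : b ∈ Q
  eb : eta b ∈ W12
  bn : b ∉ four z y
  bc : ∃ c ∈ C, c * y * c⁻¹ = b
  third : Third C N L z (four z y) (Subgroup.closure {z, y, b})
  LCN : L ≤ C ⊔ N
  gen : C ⊔ N ⊔ L = ⊤

theorem IsType4.smul {v : L2} (h : IsType 4 v) (s : Co1) : IsType 4 (s • v) := by
  obtain ⟨g, rfl⟩ := QuotientGroup.mk_surjective s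
  exact h.smul g

section

variable {Γ G : Type*} [Group Γ] [Group G]

/-- conjugation by an element of a subgroup -/
def cj {S : Subgroup Γ} {g : Γ} (hg : g ∈ S) : S →* S := (MulAut.conj (⟨g, hg⟩ : S)⁻¹).toMonoidHom

theorem cj_apply {S : Subgroup Γ} {g : Γ} (hg : g ∈ S) (x : Γ) (hx : x ∈ S) :
    cj hg ⟨x, hx⟩ = ⟨g⁻¹ * x * g, S.mul_mem (S.mul_mem (S.inv_mem hg) hx) hg⟩ := by
  apply Subtype.ext
  show g⁻¹ * x * (g⁻¹)⁻¹ = _
  rw [inv_inv]

variable {z a b τ ξ y q : Γ} {Q : Subgroup Γ} {eta : Γ → L2} {pi : Subgroup.centralizer ({z} : Set Γ) →* Co1}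
  {C N' L Q' : Subgroup G} {z' y' b' : G} {eta' : G → L2} {pi' : C →* Co1}

/-- **The identification.** -/
theorem exists_surj (M : Model z a b τ ξ y q Q eta pi) (H : Hyp C N' L Q' z' y' eta' pi' b') :
    ∃ φ : Γ →* G, Function.Surjective φ := by
  have := M.fin
  have pl := M.geo.pl
  have hc := M.chart
  have hane : a ≠ z := pl.a_ne_z
  obtain ⟨t, htN, htz, hty⟩ := H.t
  obtain ⟨eta₁, pi₁, h₁, hy₁, α, β, hh⟩ := RAmal.homs hc M.aQ hane ⟨τ, pl.τ_z⟩ H.chart H.yQ H.ey H.nrm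
    htN htz hty
  -- memberships
  have hzK : z ∈ K z := mem_K.2 (by group)
  have haK : a ∈ K z := mem_K.2 (by rw [← pl.za]; group)
  have hbK : b ∈ K z := mem_K.2 (by rw [← pl.zb]; group)
  have hzN : z ∈ N z a := Subgroup.le_normalizer z_mem_V4
  have haN : a ∈ N z a := Subgroup.le_normalizer a_mem_V4
  have QK : ∀ q ∈ Q, q ∈ K z := fun q hq => Subgroup.mem_centralizer_singleton_iff.2 (h₁.large.comm_z q hq)
  -- `b` in `Q`
  have hbconj : (y⁻¹ * ξ) * a * (y⁻¹ * ξ)⁻¹ = b := by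
    have e1 : y⁻¹ * (a * b) * y = b := by rw [← pl.y_b]; group
    calc (y⁻¹ * ξ) * a * (y⁻¹ * ξ)⁻¹ = y⁻¹ * (ξ * a * ξ⁻¹) * y := by group
      _ = b := by rw [pl.ξ_a, e1]
  have hyξ : y⁻¹ * ξ ∈ K z := (K z).mul_mem ((K z).inv_mem pl.y_mem_K) pl.ξ_mem_K
  have hbQ : b ∈ Q := by
    rw [← hbconj]
    exact h₁.large.conj_mem _ (Subgroup.mem_centralizer_singleton_iff.1 hyξ) a M.aQ
  have tb : IsType 4 (eta₁ b) := by
    rw [← hbconj]
    have := h₁.eta_conj ⟨y⁻¹ * ξ, hyξ⟩ a M.aQ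
    rw [show (y⁻¹ * ξ) * a * (y⁻¹ * ξ)⁻¹ = ((⟨y⁻¹ * ξ, hyξ⟩ : Subgroup.centralizer ({z} : Set Γ)) : Γ) * a *
      ((⟨y⁻¹ * ξ, hyξ⟩ : Subgroup.centralizer ({z} : Set Γ)) : Γ)⁻¹ from rfl, this, hy₁]
    exact IsType4.smul AmalSideOf.type_f0 _
  have eb : eta₁ b ∈ W12 := by
    refine (AmalInf.Einf h₁ M.aQ hy₁ pl.τ_z pl.τ_a b hbQ ?_).2
    have : τ⁻¹ * b * τ = b := by
      calc τ⁻¹ * b * τ = τ⁻¹ * (τ * b * τ⁻¹) * τ := by rw [pl.τ_b]
        _ = b := by group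
    rw [this]; exact hbQ
  have nb : eta₁ b ≠ f0 := by
    intro e
    rw [← hy₁] at e
    rcases (h₁.eta_eq hbQ M.aQ).1 e with e1 | e1
    · have h2 := pl.τ_b
      rw [e1, pl.τ_a] at h2
      exact pl.z_ne (mul_eq_right.1 h2)
    · have h2 := pl.τ_b
      have h3 : τ * (a * z) * τ⁻¹ = (τ * a * τ⁻¹) * (τ * z * τ⁻¹) := by group
      rw [e1, h3, pl.τ_a, pl.τ_z, mul_assoc, pl.a_sq, mul_one] at h2
      exact pl.a_ne (mul_eq_right.1 h2.symm)
  -- the preimage of `b'`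
  obtain ⟨⟨b₂, hb₂K⟩, hb₂⟩ : b' ∈ α.range := by rw [hh.range]; exact H.chart.QC H.bQ
  have hb₂Q : b₂ ∈ Q := (hh.αQ b₂ hb₂K).2 (by rw [hb₂]; exact H.bQ)
  have eb₂ : eta₁ b₂ ∈ W12 := (hh.αE b₂ hb₂K hb₂Q).2 (by rw [hb₂]; exact H.eb)
  obtain ⟨c, hcC, hcb⟩ := H.bc
  obtain ⟨⟨k, hkK⟩, hk⟩ : c ∈ α.range := by rw [hh.range]; exact hcC
  have hkb : k * a * k⁻¹ = b₂ := by
    have h1 : α (⟨k, hkK⟩ * ⟨a, haK⟩ * ⟨k, hkK⟩⁻¹) = α ⟨b₂, hb₂K⟩ := by
      rw [map_mul, map_mul, map_inv, hk, hh.αy haK, hb₂, hcb]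
    exact congrArg Subtype.val (hh.inj h1)
  have tb₂ : IsType 4 (eta₁ b₂) := by
    rw [← hkb]
    have := h₁.eta_conj ⟨k, hkK⟩ a M.aQ
    rw [show k * a * k⁻¹ = ((⟨k, hkK⟩ : Subgroup.centralizer ({z} : Set Γ)) : Γ) * a *
      ((⟨k, hkK⟩ : Subgroup.centralizer ({z} : Set Γ)) : Γ)⁻¹ from rfl, this, hy₁]
    exact IsType4.smul AmalSideOf.type_f0 _
  have nb₂ : eta₁ b₂ ≠ f0 := by
    intro e
    apply H.bn
    have hz4 : z' ∈ four z' y' := Subgroup.subset_closure (by simp)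
    have hy4 : y' ∈ four z' y' := Subgroup.subset_closure (by simp)
    rw [← hy₁] at e
    rcases (h₁.eta_eq hb₂Q M.aQ).1 e with e1 | e1
    · subst e1
      rw [← hb₂, hh.αy]; exact hy4
    · have h2 : α ⟨b₂, hb₂K⟩ = y' * z' := by
        rw [← hh.αy haK, ← hh.αz hzK, ← map_mul]
        congr 1
        exact Subtype.ext e1
      rw [← hb₂, h2]
      exact mul_mem hy4 hz4
  -- the element `g`
  obtain ⟨s, hsF, hs⟩ := RSextet.exists_F eb₂ tb₂ nb₂ eb tb nb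
  obtain ⟨⟨g, hgK⟩, hgs, hga⟩ := AmalInf.exists_lift h₁ M.aQ hy₁ hsF
  have hga' : g * a = a * g := hga
  have hgz' : g * z = z * g := Subgroup.mem_centralizer_singleton_iff.1 hgK
  have hgN : g ∈ N z a := pl.mem_N_of (by rw [hgz', mul_inv_cancel_right]; exact z_mem_V4)
    (by rw [hga', mul_inv_cancel_right]; exact a_mem_V4)
  have hgK' : g ∈ K z := hgK
  have hgb : ∃ v ∈ V4 z a, g⁻¹ * b * g = b₂ * v := by
    have h1 := h₁.eta_conj ⟨g, hgK⟩ b₂ hb₂Q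
    rw [hgs] at h1
    have h1' : eta₁ (g * b₂ * g⁻¹) = s • eta₁ b₂ := h1
    have hcQ : g * b₂ * g⁻¹ ∈ Q := h₁.large.conj_mem g hgz' b₂ hb₂Q
    have h2 : eta₁ ((g * b₂ * g⁻¹)⁻¹ * b) ∈ W1 := by
      rw [h₁.eta_mul _ (Q.inv_mem hcQ) _ hbQ, h₁.eta_inv hcQ, h1']
      have hs' : s • eta₁ b₂ - eta₁ b ∈ W1 := hs
      have e : s • eta₁ b₂ - eta₁ b = s • eta₁ b₂ + eta₁ b := by
        rw [sub_eq_add_neg, Lam2.neg_eq]
      rw [e] at hs'; exact hs'
    have h3 : (g * b₂ * g⁻¹)⁻¹ * b ∈ AmalGen.pre h₁ W1 := ⟨Q.mul_mem (Q.inv_mem hcQ) hbQ, h2⟩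
    rw [AmalGen.pre_W1 h₁ M.aQ hy₁] at h3
    refine ⟨g⁻¹ * ((g * b₂ * g⁻¹)⁻¹ * b) * g, ?_, by group⟩
    have h4 : (g * b₂ * g⁻¹)⁻¹ * b ∈ V4 z a := h3
    have h5 := PlaneGeo.Plane.conj_mem_V4 (inv_mem hgN) h4
    rwa [inv_inv] at h5
  -- the new homomorphisms
  let α₂ : K z →* G := α.comp (cj hgK')
  let β₂ : N z a →* G := β.comp (cj hgN)
  have hα₂ : ∀ x (hx : x ∈ K z), α₂ ⟨x, hx⟩ =
      α ⟨g⁻¹ * x * g, (K z).mul_mem ((K z).mul_mem ((K z).inv_mem hgK') hx) hgK'⟩ := fun x hx => by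
    show α (cj hgK' ⟨x, hx⟩) = _
    rw [cj_apply]
  have hβ₂ : ∀ x (hx : x ∈ N z a), β₂ ⟨x, hx⟩ =
      β ⟨g⁻¹ * x * g, (N z a).mul_mem ((N z a).mul_mem ((N z a).inv_mem hgN) hx) hgN⟩ := fun x hx => by
    show β (cj hgN ⟨x, hx⟩) = _
    rw [cj_apply]
  have kn₂ : ∀ x (h : x ∈ K z) (h' : x ∈ N z a), α₂ ⟨x, h⟩ = β₂ ⟨x, h'⟩ := by
    intro x h h'
    rw [hα₂, hβ₂]
    exact hh.kn _ _ _
  have inj₂ : Function.Injective α₂ := hh.inj.comp (MulEquiv.injective (MulAut.conj (⟨g, hgK'⟩ : K z)⁻¹))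
  have range₂ : α₂.range = C := by
    rw [← hh.range]
    apply le_antisymm
    · rintro _ ⟨k, rfl⟩
      exact ⟨_, rfl⟩
    · rintro _ ⟨⟨k, hk⟩, rfl⟩
      refine ⟨⟨g * k * g⁻¹, (K z).mul_mem ((K z).mul_mem hgK' hk) ((K z).inv_mem hgK')⟩, ?_⟩
      rw [hα₂]
      congr 1
      apply Subtype.ext
      show g⁻¹ * (g * k * g⁻¹) * g = k
      group
  have αz₂ : ∀ hz : z ∈ K z, α₂ ⟨z, hz⟩ = z' := by
    intro hz
    rw [hα₂, ← hh.αz hzK]
    congr 1
    apply Subtype.ext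
    show g⁻¹ * z * g = z
    rw [mul_assoc, ← hgz']; group
  have αa₂ : ∀ ha : a ∈ K z, α₂ ⟨a, ha⟩ = y' := by
    intro ha
    rw [hα₂, ← hh.αy haK]
    congr 1
    apply Subtype.ext
    show g⁻¹ * a * g = a
    rw [mul_assoc, ← hga']; group
  -- the elements of `K ∩ N` go to `N'`
  have h' := H.chart
  have hKN : ∀ k (hk : k ∈ K z), k ∈ N z a → α ⟨k, hk⟩ ∈ N' := by
    intro k hk hkN
    have h1 : k * a * k⁻¹ = a ∨ k * a * k⁻¹ = z * a := by
      have h2 := PlaneGeo.Plane.conj_mem_V4 hkN (a_mem_V4 (z := z) (a := a))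
      rcases (PlaneGeo.mem_V4 pl.z_sq pl.a_sq pl.za).1 h2 with e | e | e | e
      · exfalso
        apply pl.a_ne
        calc a = k⁻¹ * (k * a * k⁻¹) * k := by group
          _ = 1 := by rw [e]; group
      · exfalso
        apply hane
        calc a = k⁻¹ * (k * a * k⁻¹) * k := by group
          _ = k⁻¹ * z * k := by rw [e]
          _ = k⁻¹ * (z * k) := by group
          _ = k⁻¹ * (k * z) := by rw [← Subgroup.mem_centralizer_singleton_iff.1 hk]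
          _ = z := by group
      · exact Or.inl e
      · exact Or.inr e
    have hkC : α ⟨k, hk⟩ ∈ C := by rw [← hh.range]; exact ⟨_, rfl⟩
    have hkconj : α ⟨k, hk⟩ * y' * (α ⟨k, hk⟩)⁻¹ = y' ∨ α ⟨k, hk⟩ * y' * (α ⟨k, hk⟩)⁻¹ = z' * y' := by
      have h3 : α ⟨k, hk⟩ * y' * (α ⟨k, hk⟩)⁻¹ = α (⟨k, hk⟩ * ⟨a, haK⟩ * ⟨k, hk⟩⁻¹) := by
        rw [map_mul, map_mul, map_inv, hh.αy haK]
      rcases h1 with e | e
      · left
        rw [h3, ← hh.αy haK]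
        congr 1
        exact Subtype.ext e
      · right
        rw [h3, ← hh.αy haK, ← hh.αz hzK, ← map_mul]
        congr 1
        exact Subtype.ext e
    have hy'z : z' * y' = y' * z' := RPerf.zy h' H.yQ
    rcases hkconj with e | e
    · exact H.nrm.BN (mem_cent2.2 ⟨hkC, h'.Cz _ hkC, mul_inv_eq_iff_eq_mul.1 e⟩)
    · obtain ⟨q₀, hq₀, e₀⟩ := RPerf.exists_not_comm h' H.yQ H.ey
      have hmC : α ⟨k, hk⟩ * q₀ ∈ C := C.mul_mem hkC (h'.QC hq₀)
      have h4 : α ⟨k, hk⟩ * q₀ ∈ N' := by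
        refine H.nrm.BN (mem_cent2.2 ⟨hmC, h'.Cz _ hmC, ?_⟩)
        have e1 : α ⟨k, hk⟩ * y' = z' * y' * α ⟨k, hk⟩ := mul_inv_eq_iff_eq_mul.1 e
        have e2 := h'.Cz _ hkC
        have e3 := h'.large.comm_z _ hq₀
        calc α ⟨k, hk⟩ * q₀ * y' = α ⟨k, hk⟩ * (q₀ * y') := by group
          _ = α ⟨k, hk⟩ * (y' * q₀ * z') := by rw [e₀]
          _ = (α ⟨k, hk⟩ * y') * (q₀ * z') := by group
          _ = (z' * y' * α ⟨k, hk⟩) * (z' * q₀) := by rw [e1, e3]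
          _ = z' * y' * (α ⟨k, hk⟩ * z') * q₀ := by group
          _ = z' * y' * (z' * α ⟨k, hk⟩) * q₀ := by rw [e2]
          _ = (y' * z') * z' * (α ⟨k, hk⟩ * q₀) := by rw [hy'z]; group
          _ = y' * (z' * z') * (α ⟨k, hk⟩ * q₀) := by group
          _ = y' * (α ⟨k, hk⟩ * q₀) := by rw [h'.large.z_sq, mul_one]
      have h5 := N'.mul_mem h4 (N'.inv_mem (H.nrm.QN hq₀))
      rwa [mul_inv_cancel_right] at h5
  -- the elements of `N`
  obtain ⟨τ₁, hτ₁N, hτ₁', k1, k2, k3, k4⟩ := hh.τ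
  set T' : G := β ⟨τ₁, hτ₁N⟩ with hT'
  have decomp : ∀ n (hn : n ∈ N z a), ∃ i : ℕ, τ₁ ^ i * n ∈ K z := by
    intro n hn
    have h1 := PlaneGeo.Plane.conj_mem_V4 hn (z_mem_V4 (z := z) (a := a))
    have k5 : τ₁ * (z * a) * τ₁⁻¹ = z := by
      have : τ₁ * (z * a) * τ₁⁻¹ = (τ₁ * z * τ₁⁻¹) * (τ₁ * a * τ₁⁻¹) := by group
      rw [this, k3, k4, pl.za, ← mul_assoc, pl.a_sq, one_mul]
    rcases (PlaneGeo.mem_V4 pl.z_sq pl.a_sq pl.za).1 h1 with e | e | e | e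
    · exfalso
      apply pl.z_ne
      calc z = n⁻¹ * (n * z * n⁻¹) * n := by group
        _ = 1 := by rw [e]; group
    · exact ⟨0, by rw [pow_zero, one_mul]; exact mem_K.2 e⟩
    · refine ⟨2, mem_K.2 ?_⟩
      calc τ₁ ^ 2 * n * z * (τ₁ ^ 2 * n)⁻¹ = τ₁ * (τ₁ * (n * z * n⁻¹) * τ₁⁻¹) * τ₁⁻¹ := by
            rw [pow_two]; group
        _ = z := by rw [e, k4, k5]
    · refine ⟨1, mem_K.2 ?_⟩
      calc τ₁ ^ 1 * n * z * (τ₁ ^ 1 * n)⁻¹ = τ₁ * (n * z * n⁻¹) * τ₁⁻¹ := by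
            rw [pow_one]; group
        _ = z := by rw [e, k5]
  have hβN : ∀ n : N z a, β n ∈ N' := by
    rintro ⟨n, hn⟩
    obtain ⟨i, hi⟩ := decomp n hn
    have hiN : τ₁ ^ i * n ∈ N z a := (N z a).mul_mem ((N z a).pow_mem hτ₁N i) hn
    have h1 := hKN _ hi hiN
    rw [hh.kn _ hi hiN] at h1
    have h2 : β ⟨n, hn⟩ = (T' ^ i)⁻¹ * β ⟨τ₁ ^ i * n, hiN⟩ := by
      have h3 : (⟨τ₁ ^ i * n, hiN⟩ : N z a) = (⟨τ₁, hτ₁N⟩ : N z a) ^ i * ⟨n, hn⟩ := rfl
      rw [h3, map_mul, map_pow, inv_mul_cancel_left]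
    rw [h2]
    exact N'.mul_mem (N'.inv_mem (N'.pow_mem hτ₁' i)) h1
  have hβ₂N : ∀ n : N z a, β₂ n ∈ N' := fun n => hβN _
  -- the images
  have hyC : y' ∈ C := h'.QC H.yQ
  have imV4 : im α₂ (V4 z a) = four z' y' := by
    apply le_antisymm
    · rintro _ hx
      obtain ⟨s, hs, hS, rfl⟩ := mem_im.1 hx
      rcases (PlaneGeo.mem_V4 pl.z_sq pl.a_sq pl.za).1 hS with e | e | e | e
      · subst e
        have : α₂ ⟨1, hs⟩ = 1 := map_one α₂
        rw [this]; exact one_mem _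
      · subst e
        rw [αz₂]; exact Subgroup.subset_closure (by simp)
      · subst e
        rw [αa₂]; exact Subgroup.subset_closure (by simp)
      · subst e
        have : α₂ ⟨z * a, hs⟩ = α₂ ⟨z, hzK⟩ * α₂ ⟨a, haK⟩ := map_mul α₂ ⟨z, hzK⟩ ⟨a, haK⟩
        rw [this, αz₂, αa₂]
        exact mul_mem (Subgroup.subset_closure (by simp)) (Subgroup.subset_closure (by simp))
    · rw [four, Subgroup.closure_le]
      rintro x (rfl | hx)
      · exact mem_im.2 ⟨z, hzK, z_mem_V4, αz₂ hzK⟩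
      · rw [Set.mem_singleton_iff] at hx
        subst hx
        exact mem_im.2 ⟨a, haK, a_mem_V4, αa₂ haK⟩
  have αb₂ : ∃ v ∈ four z' y', α₂ ⟨b, hbK⟩ = b' * v := by
    obtain ⟨v, hv, e⟩ := hgb
    have hvK : v ∈ K z := by
      have h1 : V4 z a ≤ K z := by
        unfold V4
        rw [Subgroup.closure_le]
        rintro t (rfl | ht)
        · exact hzK
        · rw [Set.mem_singleton_iff] at ht; rw [ht]; exact haK
      exact h1 hv
    refine ⟨α ⟨v, hvK⟩, ?_, ?_⟩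
    · have h3 : α₂ ⟨v, hvK⟩ = α ⟨v, hvK⟩ := by
        rw [hα₂]
        congr 1
        apply Subtype.ext
        show g⁻¹ * v * g = v
        have h4 : g * v = v * g := by
          rcases (PlaneGeo.mem_V4 pl.z_sq pl.a_sq pl.za).1 hv with e | e | e | e
          · rw [e, mul_one, one_mul]
          · rw [e, hgz']
          · rw [e, hga']
          · rw [e, ← mul_assoc, hgz', mul_assoc, hga', mul_assoc]
        rw [mul_assoc, ← h4]; group
      rw [← h3, ← imV4]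
      exact mem_im.2 ⟨v, hvK, hv, rfl⟩
    · rw [hα₂, ← hb₂, ← map_mul]
      congr 1
      exact Subtype.ext e
  have imV8 : im α₂ (V8 z a b) = Subgroup.closure {z', y', b'} := by
    have hz8 : z' ∈ Subgroup.closure {z', y', b'} := Subgroup.subset_closure (by simp)
    have hy8 : y' ∈ Subgroup.closure {z', y', b'} := Subgroup.subset_closure (by simp)
    have hb8 : b' ∈ Subgroup.closure {z', y', b'} := Subgroup.subset_closure (by simp)
    have h48 : four z' y' ≤ Subgroup.closure {z', y', b'} := by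
      rw [four, Subgroup.closure_le]
      rintro x (rfl | hx)
      · exact hz8
      · rw [Set.mem_singleton_iff] at hx
        subst hx
        exact hy8
    obtain ⟨v, hv, e⟩ := αb₂
    have h8K : V8 z a b ≤ K z := by
      unfold V8
      rw [Subgroup.closure_le]
      rintro t (rfl | rfl | ht)
      · exact hzK
      · exact haK
      · rw [Set.mem_singleton_iff] at ht; rw [ht]; exact hbK
    apply le_antisymm
    · rintro _ hx
      obtain ⟨s, hs, hS, rfl⟩ := mem_im.1 hx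
      have h1 : V8 z a b ≤ ((Subgroup.closure {z', y', b'}).comap α₂).map (K z).subtype := by
        unfold V8
        rw [Subgroup.closure_le]
        rintro t (rfl | rfl | ht)
        · exact ⟨⟨t, hzK⟩, by rw [SetLike.mem_coe, Subgroup.mem_comap, αz₂]; exact hz8, rfl⟩
        · exact ⟨⟨t, haK⟩, by rw [SetLike.mem_coe, Subgroup.mem_comap, αa₂]; exact hy8, rfl⟩
        · rw [Set.mem_singleton_iff] at ht
          subst ht
          exact ⟨⟨t, hbK⟩, by rw [SetLike.mem_coe, Subgroup.mem_comap, e]; exact mul_mem hb8 (h48 hv), rfl⟩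
      obtain ⟨⟨s', hs'⟩, h2, h3⟩ := h1 hS
      have h4 : s' = s := h3
      subst h4
      exact h2
    · rw [Subgroup.closure_le]
      have hzi : z' ∈ im α₂ (V8 z a b) := mem_im.2 ⟨z, hzK, z_mem_V8, αz₂ hzK⟩
      have hyi : y' ∈ im α₂ (V8 z a b) := mem_im.2 ⟨a, haK, a_mem_V8, αa₂ haK⟩
      rintro x (rfl | rfl | hx)
      · exact hzi
      · exact hyi
      · rw [Set.mem_singleton_iff] at hx
        subst hx
        have h4i : four z' y' ≤ im α₂ (V8 z a b) := by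
          rw [four, Subgroup.closure_le]
          rintro x (rfl | hx)
          · exact hzi
          · rw [Set.mem_singleton_iff] at hx
            subst hx
            exact hyi
        have h5 : α₂ ⟨b, hbK⟩ ∈ im α₂ (V8 z a b) := mem_im.2 ⟨b, hbK, b_mem_V8, rfl⟩
        rw [e] at h5
        have := mul_mem h5 (inv_mem (h4i hv))
        rwa [mul_inv_cancel_right] at this
  have T : Third α₂.range N' L z' (im α₂ (V4 z a)) (im α₂ (V8 z a b)) := by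
    rw [range₂, imV4, imV8]
    exact H.third
  -- the group is generated
  have hNle : N' ≤ α₂.range ⊔ β₂.range := by
    intro n hn
    have hT2 : T' ∈ β₂.range := by
      refine ⟨⟨g * τ₁ * g⁻¹, (N z a).mul_mem ((N z a).mul_mem hgN hτ₁N) ((N z a).inv_mem hgN)⟩, ?_⟩
      rw [hβ₂, hT']
      congr 1
      apply Subtype.ext
      show g⁻¹ * (g * τ₁ * g⁻¹) * g = τ₁
      group
    have hz4 : z' ∈ four z' y' := Subgroup.subset_closure (by simp)
    have h1 := H.nrm.NV n hn z' hz4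
    rw [← RGen.pre_W1 h' H.yQ H.ey, RGen.pre_W1 h' H.yQ H.ey, RPerf.mem_four h' H.yQ H.ey] at h1
    have k6 : T' * (z' * y') * T'⁻¹ = z' := by
      have h2 : T' * (z' * y') * T'⁻¹ = (T' * z' * T'⁻¹) * (T' * y' * T'⁻¹) := by group
      rw [h2, k1, k2, RPerf.zy h' H.yQ, ← mul_assoc, RPerf.y_sq h' H.yQ H.ey, one_mul]
    have key : ∃ i : ℕ, T' ^ i * n * z' * (T' ^ i * n)⁻¹ = z' := by
      rcases h1 with e | e | e | e
      · exfalso
        apply h'.large.z_ne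
        calc z' = n⁻¹ * (n * z' * n⁻¹) * n := by group
          _ = 1 := by rw [e]; group
      · exact ⟨0, by rw [pow_zero, one_mul]; exact e⟩
      · refine ⟨2, ?_⟩
        calc T' ^ 2 * n * z' * (T' ^ 2 * n)⁻¹ = T' * (T' * (n * z' * n⁻¹) * T'⁻¹) * T'⁻¹ := by
              rw [pow_two]; group
          _ = z' := by rw [e, k2, k6]
      · refine ⟨1, ?_⟩
        calc T' ^ 1 * n * z' * (T' ^ 1 * n)⁻¹ = T' * (n * z' * n⁻¹) * T'⁻¹ := by
              rw [pow_one]; group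
          _ = z' := by rw [e, k6]
    obtain ⟨i, hi⟩ := key
    have h2 : T' ^ i * n ∈ C := H.nrm.NB _ (N'.mul_mem (N'.pow_mem hτ₁' i) hn)
      (mul_inv_eq_iff_eq_mul.1 hi)
    have h3 : n = (T' ^ i)⁻¹ * (T' ^ i * n) := by group
    rw [h3]
    refine mul_mem (inv_mem (pow_mem (Subgroup.mem_sup_right hT2) i)) (Subgroup.mem_sup_left ?_)
    rw [range₂]; exact h2
  have hCle : C ≤ α₂.range ⊔ β₂.range := by
    rw [range₂]; exact le_sup_left
  have hgen : α₂.range ⊔ β₂.range = ⊤ := by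
    rw [eq_top_iff, ← H.gen, sup_le_iff, sup_le_iff]
    exact ⟨⟨hCle, hNle⟩, H.LCN.trans (sup_le hCle hNle)⟩
  exact RGlue.exists_surj M.geo kn₂ inj₂ hβ₂N
    (fun n hn hcomm => by
      rw [range₂]
      have := hcomm hzK
      rw [αz₂] at this
      exact H.nrm.NB n hn this)
    (fun c hc hcomm => by
      rw [range₂] at hc
      have := hcomm haK
      rw [αa₂] at this
      exact H.nrm.BN (mem_cent2.2 ⟨hc, h'.Cz _ hc, this⟩))
    αz₂ T hgen

end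

/-- **The group is the Monster.** -/
theorem isoM {G : Type*} [Group G] {C N' L Q' : Subgroup G} {z' y' b' : G} {eta' : G → L2} {pi' : C →* Co1}
    (H : Hyp C N' L Q' z' y' eta' pi' b') : Cfsg.Spor.IsoM G := by
  obtain ⟨z, a, b, τ, ξ, y, q, Q, eta, pi, M⟩ := RModel.model
  obtain ⟨φ, hφ⟩ := exists_surj M H
  have hs := M.simple
  have hinj : Function.Injective φ := by
    rw [← MonoidHom.ker_eq_bot_iff]
    rcases hs.eq_bot_or_eq_top_of_normal φ.ker inferInstance with h | h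
    · exact h
    · exfalso
      obtain ⟨x, hx⟩ := hφ z'
      have h3 : x ∈ φ.ker := by rw [h]; trivial
      rw [MonoidHom.mem_ker, hx] at h3
      exact H.chart.large.z_ne h3
  obtain ⟨e⟩ := M.isM
  exact ⟨(MulEquiv.ofBijective φ ⟨hinj, hφ⟩).symm.trans e⟩

end Cfsg.Agent.H861.RFinal
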