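import Cfsg.Agent.H861.RTwo
import Cfsg.Agent.MonsterU.AmalGraph

/-!
The graphs of the isomorphisms `B ≃ B'`, `P ≃ P'`, `C ≃ C'` and `N ≃ N'`.
-/

set_option autoImplicit false
set_option linter.unusedSectionVars false

namespace Cfsg.Agent.H861.RGraph

open Cfsg.Agent.MonsterU.AmalPin
open Cfsg.Agent.MonsterU.AmalSide (four NoTwo)
open Cfsg.Agent.H861.RSide Cfsg.Agent.H861.RSide.Side
open Cfsg.Agent.H861.RQuot Cfsg.Agent.H861.RTwo
open Cfsg.Agent.MonsterU.AmalGraph (mulSub mem_mulSub)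

variable {G G' : Type*} [Group G] [Group G']

/-- The graph over `B`. -/
def DB (C : Subgroup G) (C' : Subgroup G') (D : Subgroup (G × G')) (z y τ : G) (τ' : G') : Subgroup (G × G') :=
  Gam C C' D ⊓ ((cent2 C z y).comap (MonoidHom.fst G G') ⊓
    (Gam C C' D).comap (MulAut.conj ((τ, τ') : G × G')).toMonoidHom)

theorem mem_DB {C : Subgroup G} {C' : Subgroup G'} {D : Subgroup (G × G')} {z y τ : G} {τ' : G'} {g : G × G'} :
    g ∈ DB C C' D z y τ τ' ↔ g ∈ Gam C C' D ∧ g.1 ∈ cent2 C z y ∧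
      (τ, τ') * g * (τ, τ')⁻¹ ∈ Gam C C' D := Iff.rfl

section

variable {C Q E : Subgroup G} {z y τ x u q₀ e₁ a₁ : G} {C' Q' E' : Subgroup G'}
  {z' y' τ' x' u' q₀' e₁' a₁' : G'} {D : Subgroup (G × G')}
  (h : Side C Q E z y τ x u q₀ e₁ a₁) (h' : Side C' Q' E' z' y' τ' x' u' q₀' e₁' a₁')
  (t : Two C Q E z y x q₀ C' Q' E' z' y' x' q₀' D)

include h h' t

/-- Elements of `Γ` with the same first component. -/
theorem Gam_eq {a b : G × G'} (ha : a ∈ Gam C C' D) (hb : b ∈ Gam C C' D) (e : a.1 = b.1) :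
    b = a ∨ b = a * (1, z') := by
  have h1 : a⁻¹ * b ∈ Gam C C' D := Subgroup.mul_mem _ (Subgroup.inv_mem _ ha) hb
  have h2 : a⁻¹ * b = (1, a.2⁻¹ * b.2) := by
    refine Prod.ext ?_ rfl
    show a.1⁻¹ * b.1 = 1
    rw [e]; group
  rw [h2] at h1
  rcases Gam_one h h' t h1 with h3 | h3 <;> rw [h3] at h2
  · left
    exact (inv_mul_eq_one.1 h2).symm
  · right
    rw [← h2]; group

/-- `(1, z')` commutes with `Γ`. -/
theorem ζ_comm {a : G × G'} (ha : a ∈ Gam C C' D) : a * (1, z') = (1, z') * a := by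
  refine Prod.ext (by simp) ?_
  exact h'.Cz _ ha.2.1

theorem ζ_sq : ((1, z') : G × G') * (1, z') = 1 := by
  refine Prod.ext (by simp) ?_
  exact h'.z_sq

theorem DB_surj {b : G} (hb : b ∈ cent2 C z y) : ∃ b', ((b, b') : G × G') ∈ DB C C' D z y τ τ' := by
  obtain ⟨b', hb', hg⟩ := GB_surj h h' t hb
  obtain ⟨b'', hb'', hg'⟩ := GB_surj h h' t (h.B_τ hb)
  have key := key h h' t hb hg hg'
  have e0 : τ' * b' * τ'⁻¹ = b'' * (b''⁻¹ * (τ' * b' * τ'⁻¹)) := by group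
  have hζ := Gam_z h h' t
  rcases h'.mem_four.1 key with e | e | e | e
  · refine ⟨b', hg, hb, ?_⟩
    have : ((τ, τ') : G × G') * (b, b') * (τ, τ')⁻¹ = (τ * b * τ⁻¹, b'') := by
      refine Prod.ext rfl ?_
      show τ' * b' * τ'⁻¹ = b''
      rw [e0, e, mul_one]
    show ((τ, τ') : G × G') * (b, b') * (τ, τ')⁻¹ ∈ Gam C C' D
    rw [this]; exact hg'
  · refine ⟨b', hg, hb, ?_⟩
    have : ((τ, τ') : G × G') * (b, b') * (τ, τ')⁻¹ = (τ * b * τ⁻¹, b'') * (1, z') := by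
      refine Prod.ext (by simp) ?_
      show τ' * b' * τ'⁻¹ = b'' * z'
      rw [e0, e]
    show ((τ, τ') : G × G') * (b, b') * (τ, τ')⁻¹ ∈ Gam C C' D
    rw [this]; exact Subgroup.mul_mem _ hg' hζ
  · refine ⟨b' * z', ?_, hb, ?_⟩
    · have : ((b, b' * z') : G × G') = (b, b') * (1, z') := Prod.ext (by simp) rfl
      rw [this]; exact Subgroup.mul_mem _ hg hζ
    · have : ((τ, τ') : G × G') * (b, b' * z') * (τ, τ')⁻¹ = (τ * b * τ⁻¹, b'') := by
        refine Prod.ext rfl ?_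
        show τ' * (b' * z') * τ'⁻¹ = b''
        have e1 : τ' * (b' * z') * τ'⁻¹ = (τ' * b' * τ'⁻¹) * (τ' * z' * τ'⁻¹) := by group
        rw [e1, h'.τz, e0, e, mul_assoc, h'.y_sq, mul_one]
      show ((τ, τ') : G × G') * (b, b' * z') * (τ, τ')⁻¹ ∈ Gam C C' D
      rw [this]; exact hg'
  · refine ⟨b' * z', ?_, hb, ?_⟩
    · have : ((b, b' * z') : G × G') = (b, b') * (1, z') := Prod.ext (by simp) rfl
      rw [this]; exact Subgroup.mul_mem _ hg hζ
    · have : ((τ, τ') : G × G') * (b, b' * z') * (τ, τ')⁻¹ = (τ * b * τ⁻¹, b'') * (1, z') := by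
        refine Prod.ext (by simp) ?_
        show τ' * (b' * z') * τ'⁻¹ = b'' * z'
        have e1 : τ' * (b' * z') * τ'⁻¹ = (τ' * b' * τ'⁻¹) * (τ' * z' * τ'⁻¹) := by group
        rw [e1, h'.τz, e0, e, mul_assoc, mul_assoc, h'.y_sq, mul_one]
      show ((τ, τ') : G × G') * (b, b' * z') * (τ, τ')⁻¹ ∈ Gam C C' D
      rw [this]; exact Subgroup.mul_mem _ hg' hζ

theorem DB_one {b' : G'} (hb : ((1, b') : G × G') ∈ DB C C' D z y τ τ') : b' = 1 := by
  obtain ⟨h1, -, h2⟩ := mem_DB.1 hb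
  rcases Gam_one h h' t h1 with e | e
  · exact e
  · exfalso
    have h3 : ((τ, τ') : G × G') * (1, b') * (τ, τ')⁻¹ = (1, y') := by
      refine Prod.ext ?_ ?_
      · show τ * 1 * τ⁻¹ = 1
        group
      · show τ' * b' * τ'⁻¹ = y'
        rw [e, h'.τz]
    rw [h3] at h2
    rcases Gam_one h h' t h2 with e | e
    · exact h'.y_ne e
    · exact h'.y_ne_z e

theorem DB_inj {a b : G × G'} (ha : a ∈ DB C C' D z y τ τ') (hb : b ∈ DB C C' D z y τ τ')
    (e : a.1 = b.1) : a = b := by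
  have h1 : a⁻¹ * b ∈ DB C C' D z y τ τ' := Subgroup.mul_mem _ (Subgroup.inv_mem _ ha) hb
  have h2 : a⁻¹ * b = (1, a.2⁻¹ * b.2) := by
    refine Prod.ext ?_ rfl
    show a.1⁻¹ * b.1 = 1
    rw [e]; group
  rw [h2] at h1
  have h3 := DB_one h h' t h1
  exact Prod.ext e (inv_mul_eq_one.1 h3)

/-- The graph over `B` has no subgroup of index two. -/
theorem DB_noTwo (S : Subgroup (G × G')) (hS : S ≤ DB C C' D z y τ τ')
    (hS2 : ∀ a ∈ DB C C' D z y τ τ', ∀ b ∈ DB C C' D z y τ τ', a ∉ S → b ∉ S → a * b ∈ S) :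
    DB C C' D z y τ τ' ≤ S := by
  have key : cent2 C z y ≤ S.map (MonoidHom.fst G G') := by
    apply h.perf
    · rintro _ ⟨g, hg, rfl⟩
      exact (mem_DB.1 (hS hg)).2.1
    · intro a ha b hb hna hnb
      obtain ⟨a', ha'⟩ := DB_surj h h' t (τ' := τ') ha
      obtain ⟨b', hb'⟩ := DB_surj h h' t (τ' := τ') hb
      exact ⟨_, hS2 _ ha' _ hb' (fun h1 => hna ⟨_, h1, rfl⟩) (fun h1 => hnb ⟨_, h1, rfl⟩), rfl⟩
  intro g hg
  obtain ⟨s, hs, e⟩ := key (mem_DB.1 hg).2.1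
  have : s = g := DB_inj h h' t (hS hs) hg e
  rw [← this]; exact hs

theorem DB_B {g : G × G'} (hg : g ∈ DB C C' D z y τ τ') : g.1 ∈ cent2 C z y ∧ g.2 ∈ cent2 C' z' y' :=
  ⟨(mem_DB.1 hg).2.1, (Gam_B h h' t (mem_DB.1 hg).1).1 (mem_DB.1 hg).2.1⟩

/-- `(τ, τ')` normalises the graph. -/
theorem DB_T {g : G × G'} (hg : g ∈ DB C C' D z y τ τ') :
    ((τ, τ') : G × G') * g * (τ, τ')⁻¹ ∈ DB C C' D z y τ τ' := by
  set T : G × G' := (τ, τ') with hT
  let S : Subgroup (G × G') := DB C C' D z y τ τ' ⊓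
    (Gam C C' D).comap (MulAut.conj (T * T)).toMonoidHom
  have memS : ∀ a, a ∈ S ↔ a ∈ DB C C' D z y τ τ' ∧ (T * T) * a * (T * T)⁻¹ ∈ Gam C C' D :=
    fun a => Iff.rfl
  have step : ∀ a ∈ DB C C' D z y τ τ', a ∉ S → (T * T) * a * (T * T)⁻¹ * (1, y') ∈ Gam C C' D := by
    intro a ha hna
    obtain ⟨h1, h2, h3⟩ := mem_DB.1 ha
    have h4 : τ * a.1 * τ⁻¹ ∈ cent2 C z y := h.B_τ h2
    obtain ⟨b'', hb'', hg'⟩ := GB_surj h h' t (h.B_τ h4)
    have h3' : ((τ * a.1 * τ⁻¹, τ' * a.2 * τ'⁻¹) : G × G') ∈ Gam C C' D := h3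
    have k := key h h' t h4 h3' hg'
    have e0 : (T * T) * a * (T * T)⁻¹ = (τ * (τ * a.1 * τ⁻¹) * τ⁻¹, b'') *
        (1, b''⁻¹ * (τ' * (τ' * a.2 * τ'⁻¹) * τ'⁻¹)) := by
      refine Prod.ext ?_ ?_
      · show τ * τ * a.1 * (τ * τ)⁻¹ = τ * (τ * a.1 * τ⁻¹) * τ⁻¹ * 1
        group
      · show τ' * τ' * a.2 * (τ' * τ')⁻¹ = b'' * (b''⁻¹ * (τ' * (τ' * a.2 * τ'⁻¹) * τ'⁻¹))
        group
    have hζ := Gam_z h h' t
    rcases h'.mem_four.1 k with e | e | e | e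
    · exfalso; apply hna
      rw [memS]
      refine ⟨ha, ?_⟩
      rw [e0, e]
      exact Subgroup.mul_mem _ hg' (Subgroup.one_mem _)
    · exfalso; apply hna
      rw [memS]
      refine ⟨ha, ?_⟩
      rw [e0, e]
      exact Subgroup.mul_mem _ hg' hζ
    · rw [e0, e, mul_assoc]
      have : ((1, y') : G × G') * (1, y') = 1 := Prod.ext (by simp) h'.y_sq
      rw [this, mul_one]; exact hg'
    · rw [e0, e, mul_assoc]
      have : ((1, z' * y') : G × G') * (1, y') = (1, z') := by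
        refine Prod.ext (by simp) ?_
        show z' * y' * y' = z'
        rw [mul_assoc, h'.y_sq, mul_one]
      rw [this]; exact Subgroup.mul_mem _ hg' hζ
  have hle : DB C C' D z y τ τ' ≤ S := by
    apply DB_noTwo h h' t S inf_le_left
    intro a ha b hb hna hnb
    rw [memS]
    refine ⟨Subgroup.mul_mem _ ha hb, ?_⟩
    have h1 := step a ha hna
    have h2 := step b hb hnb
    have h3 := Subgroup.mul_mem _ h1 h2
    have hbB : (τ' * τ') * b.2 * (τ' * τ')⁻¹ ∈ cent2 C' z' y' := by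
      have := h'.B_τ (h'.B_τ (DB_B h h' t hb).2)
      have e : τ' * (τ' * b.2 * τ'⁻¹) * τ'⁻¹ = τ' * τ' * b.2 * (τ' * τ')⁻¹ := by group
      rwa [e] at this
    have e1 : T * T * a * (T * T)⁻¹ * (1, y') * (T * T * b * (T * T)⁻¹ * (1, y')) =
        T * T * (a * b) * (T * T)⁻¹ := by
      have e2 : ((1, y') : G × G') * (T * T * b * (T * T)⁻¹) =
          (T * T * b * (T * T)⁻¹) * (1, y') := by
        refine Prod.ext (by simp) ?_
        exact ((mem_cent2.1 hbB).2.2).symm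
      have e3 : ((1, y') : G × G') * (1, y') = 1 := Prod.ext (by simp) h'.y_sq
      calc T * T * a * (T * T)⁻¹ * (1, y') * (T * T * b * (T * T)⁻¹ * (1, y'))
          = T * T * a * (T * T)⁻¹ * ((1, y') * (T * T * b * (T * T)⁻¹)) * (1, y') := by
            simp only [mul_assoc]
        _ = T * T * a * (T * T)⁻¹ * ((T * T * b * (T * T)⁻¹) * (1, y')) * (1, y') := by rw [e2]
        _ = T * T * a * (T * T)⁻¹ * (T * T * b * (T * T)⁻¹) * ((1, y') * (1, y')) := by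
            simp only [mul_assoc]
        _ = T * T * (a * b) * (T * T)⁻¹ := by rw [e3, mul_one]; group
    rw [e1] at h3
    exact h3
  rw [mem_DB]
  refine ⟨(mem_DB.1 hg).2.2, h.B_τ (mem_DB.1 hg).2.1, ?_⟩
  have h1 := ((memS g).1 (hle hg)).2
  have : T * (T * g * T⁻¹) * T⁻¹ = T * T * g * (T * T)⁻¹ := by group
  rw [this]; exact h1

omit h' t in
theorem Q_y {q : G} (hq : q ∈ Q) : q * y * q⁻¹ = y ∨ q * y * q⁻¹ = z * y := by
  rcases h.Qcomm q hq y h.yQ with e | e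
  · left
    exact mul_inv_eq_one.1 e
  · right
    exact mul_inv_eq_iff_eq_mul.1 e

omit h' t in
theorem Q_B {q : G} (hq : q ∈ Q) {b : G} (hb : b ∈ cent2 C z y) : q * b * q⁻¹ ∈ cent2 C z y := by
  have hqv : ∀ v ∈ four z y, q⁻¹ * v * q ∈ four z y := by
    intro v hv
    have h1 : q⁻¹ * z * q = z := by
      rw [mul_assoc, ← h.Qz q hq]; group
    have h2 : q⁻¹ * y * q ∈ four z y := by
      rcases Q_y h (Q.inv_mem hq) with e | e <;> rw [inv_inv] at e <;> rw [e]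
      · exact h.y_four
      · exact h.zy_four
    rcases h.mem_four.1 hv with rfl | rfl | rfl | rfl
    · simp
    · rw [h1]; exact h.z_four
    · exact h2
    · have : q⁻¹ * (z * y) * q = (q⁻¹ * z * q) * (q⁻¹ * y * q) := by group
      rw [this, h1]
      exact Subgroup.mul_mem _ h.z_four h2
  rw [h.mem_B_iff_four] at hb ⊢
  refine ⟨C.mul_mem (C.mul_mem (h.QC hq) hb.1) (C.inv_mem (h.QC hq)), ?_⟩
  intro v hv
  have h1 := hb.2 _ (hqv v hv)
  have h2 : q * b * q⁻¹ * v = q * (b * (q⁻¹ * v * q)) * q⁻¹ := by group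
  have h3 : v * (q * b * q⁻¹) = q * ((q⁻¹ * v * q) * b) * q⁻¹ := by group
  rw [h2, h3, h1]

/-- `D` normalises the graph. -/
theorem DB_D {d g : G × G'} (hd : d ∈ D) (hg : g ∈ DB C C' D z y τ τ') :
    d * g * d⁻¹ ∈ DB C C' D z y τ τ' := by
  let S : Subgroup (G × G') := DB C C' D z y τ τ' ⊓
    (DB C C' D z y τ τ').comap (MulAut.conj d).toMonoidHom
  have memS : ∀ a, a ∈ S ↔ a ∈ DB C C' D z y τ τ' ∧ d * a * d⁻¹ ∈ DB C C' D z y τ τ' :=
    fun a => Iff.rfl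
  have hdG := D_le_Gam h h' t hd
  have step : ∀ a ∈ DB C C' D z y τ τ', a ∉ S → d * a * d⁻¹ * (1, z') ∈ DB C C' D z y τ τ' := by
    intro a ha hna
    obtain ⟨h1, h2, h3⟩ := mem_DB.1 ha
    have h4 : d * a * d⁻¹ ∈ Gam C C' D :=
      Subgroup.mul_mem _ (Subgroup.mul_mem _ hdG h1) (Subgroup.inv_mem _ hdG)
    have h5 : (d * a * d⁻¹).1 ∈ cent2 C z y := Q_B h (t.D1 d hd) h2
    obtain ⟨c', hc'⟩ := DB_surj h h' t (τ' := τ') h5
    rcases Gam_eq h h' t h4 (mem_DB.1 hc').1 rfl with e | e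
    · exfalso; apply hna
      rw [memS]
      refine ⟨ha, ?_⟩
      rw [← e]; exact hc'
    · rw [← e]; exact hc'
  have hle : DB C C' D z y τ τ' ≤ S := by
    apply DB_noTwo h h' t S inf_le_left
    intro a ha b hb hna hnb
    rw [memS]
    refine ⟨Subgroup.mul_mem _ ha hb, ?_⟩
    have h1 := step a ha hna
    have h2 := step b hb hnb
    have h3 := Subgroup.mul_mem _ h1 h2
    have hb1 : d * b * d⁻¹ ∈ Gam C C' D :=
      Subgroup.mul_mem _ (Subgroup.mul_mem _ hdG (mem_DB.1 hb).1) (Subgroup.inv_mem _ hdG)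
    have e1 : d * a * d⁻¹ * (1, z') * (d * b * d⁻¹ * (1, z')) = d * (a * b) * d⁻¹ := by
      calc d * a * d⁻¹ * (1, z') * (d * b * d⁻¹ * (1, z'))
          = d * a * d⁻¹ * ((1, z') * (d * b * d⁻¹)) * (1, z') := by simp only [mul_assoc]
        _ = d * a * d⁻¹ * ((d * b * d⁻¹) * (1, z')) * (1, z') := by rw [ζ_comm h h' t hb1]
        _ = d * a * d⁻¹ * (d * b * d⁻¹) * ((1, z') * (1, z')) := by simp only [mul_assoc]
        _ = d * (a * b) * d⁻¹ := by rw [ζ_sq h h' t, mul_one]; group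
    rw [e1] at h3
    exact h3
  exact ((memS g).1 (hle hg)).2

/-- The part of `D` over `B` lies in the graph. -/
theorem D_DB {d : G × G'} (hd : d ∈ D) (hdB : d.1 * y = y * d.1) : d ∈ DB C C' D z y τ τ' := by
  let S : Subgroup G := (D ⊓ DB C C' D z y τ τ').map (MonoidHom.fst G G')
  have hgen : ∀ s ∈ {s | ∃ q ∈ Q, q * y = y * q ∧ ∃ b ∈ cent2 C z y, s = q * b * q⁻¹ * b⁻¹}, s ∈ S := by
    rintro _ ⟨q, hq, hqy, b, hb, rfl⟩
    obtain ⟨q', hq'⟩ := t.Ds1 q hq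
    have hqB : q ∈ cent2 C z y := mem_cent2.2 ⟨h.QC hq, h.Qz q hq, hqy⟩
    obtain ⟨q'', hq''⟩ := DB_surj h h' t (τ' := τ') hqB
    obtain ⟨b', hb'⟩ := DB_surj h h' t (τ' := τ') hb
    have hbG := (mem_DB.1 hb').1
    have h1 : ((q, q') : G × G') * (b, b') * (q, q')⁻¹ * (b, b')⁻¹ ∈ D := by
      have : ((q, q') : G × G') * (b, b') * (q, q')⁻¹ * (b, b')⁻¹ =
        (q, q') * ((b, b') * (q, q')⁻¹ * (b, b')⁻¹) := by group
      rw [this]
      exact D.mul_mem hq' (hbG.2.2.1 _ (D.inv_mem hq'))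
    have h2 : ((q, q') : G × G') * (b, b') * (q, q')⁻¹ * (b, b')⁻¹ ∈ DB C C' D z y τ τ' := by
      have h3 : ((q, q'') : G × G') * (b, b') * (q, q'')⁻¹ * (b, b')⁻¹ ∈ DB C C' D z y τ τ' :=
        Subgroup.mul_mem _ (Subgroup.mul_mem _ (Subgroup.mul_mem _ hq'' hb')
          (Subgroup.inv_mem _ hq'')) (Subgroup.inv_mem _ hb')
      rcases Gam_eq h h' t (D_le_Gam h h' t hq') (mem_DB.1 hq'').1 rfl with e | e
      · rwa [e] at h3
      · have e2 : ((q, q'') : G × G') * (b, b') * (q, q'')⁻¹ * (b, b')⁻¹ =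
            ((q, q') : G × G') * (b, b') * (q, q')⁻¹ * (b, b')⁻¹ := by
          rw [e]
          have c1 := ζ_comm h h' t hbG
          have c2 : ((q, q') : G × G') * (1, z') * (b, b') * ((q, q') * (1, z'))⁻¹ =
              (q, q') * ((1, z') * (b, b') * (1, z')⁻¹) * (q, q')⁻¹ := by group
          rw [c2, ← c1]
          group
        rwa [e2] at h3
    exact ⟨_, ⟨h1, h2⟩, rfl⟩
  have h1 := h.comm0 d.1 (t.D1 d hd) hdB
  have h2 : d.1 ∈ S := (Subgroup.closure_le S).2 hgen h1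
  obtain ⟨s, ⟨hs, hs'⟩, e⟩ := h2
  have : s = d := D_inj t hs hd e
  rw [← this]; exact hs'

end

end Cfsg.Agent.H861.RGraph
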