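import Cfsg.Agent.H820.SL32
import Cfsg.Agent.H861.RUtil

/-!
# `SL(3, 2)` has no elements of order 6
-/

set_option autoImplicit false

namespace Cfsg.Agent.H861.RSL

open Cfsg.Agent.H820.SL32 (S3)
open Cfsg.Agent.H861.RUtil

/-- a matrix over the field of two elements -/
structure M3 where
  (a b c d e f g h i : Bool)
  deriving DecidableEq

/-- the product -/
def M3.mul (x y : M3) : M3 :=
  ⟨((x.a && y.a) ^^ (x.b && y.d)) ^^ (x.c && y.g), ((x.a && y.b) ^^ (x.b && y.e)) ^^ (x.c && y.h),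
    ((x.a && y.c) ^^ (x.b && y.f)) ^^ (x.c && y.i),
   ((x.d && y.a) ^^ (x.e && y.d)) ^^ (x.f && y.g), ((x.d && y.b) ^^ (x.e && y.e)) ^^ (x.f && y.h),
    ((x.d && y.c) ^^ (x.e && y.f)) ^^ (x.f && y.i),
   ((x.g && y.a) ^^ (x.h && y.d)) ^^ (x.i && y.g), ((x.g && y.b) ^^ (x.h && y.e)) ^^ (x.i && y.h),
    ((x.g && y.c) ^^ (x.h && y.f)) ^^ (x.i && y.i)⟩

/-- the unit matrix -/
def M3.one : M3 := ⟨true, false, false, false, true, false, false, false, true⟩

theorem check : ∀ a b c d e f g h i : Bool,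
    (let A : M3 := ⟨a, b, c, d, e, f, g, h, i⟩
     let B := A.mul A
     let C := B.mul A
     decide (C.mul C = M3.one) = true → (decide (B = M3.one) || decide (C = M3.one)) = true) := by
  decide +kernel

/-- the booleans of a matrix -/
def tob (x : ZMod 2) : Bool := decide (x = 1)

theorem tob_mul : ∀ x y z u v w : ZMod 2, tob (x * u + y * v + z * w) =
    (((tob x && tob u) ^^ (tob y && tob v)) ^^ (tob z && tob w)) := by decide

theorem tob_inj : ∀ x y : ZMod 2, tob x = tob y → x = y := by decide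

def conv (A : Matrix (Fin 3) (Fin 3) (ZMod 2)) : M3 :=
  ⟨tob (A 0 0), tob (A 0 1), tob (A 0 2), tob (A 1 0), tob (A 1 1), tob (A 1 2), tob (A 2 0),
    tob (A 2 1), tob (A 2 2)⟩

theorem conv_mul (A B : Matrix (Fin 3) (Fin 3) (ZMod 2)) : conv (A * B) = (conv A).mul (conv B) := by
  have h : ∀ i j, (A * B) i j = A i 0 * B 0 j + A i 1 * B 1 j + A i 2 * B 2 j := by
    intro i j
    rw [Matrix.mul_apply, Fin.sum_univ_three]
  unfold conv
  simp only [h, tob_mul, M3.mul]

theorem conv_one : conv 1 = M3.one := by decide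

theorem conv_inj {A B : Matrix (Fin 3) (Fin 3) (ZMod 2)} (h : conv A = conv B) : A = B := by
  unfold conv at h
  rw [M3.mk.injEq] at h
  obtain ⟨h1, h2, h3, h4, h5, h6, h7, h8, h9⟩ := h
  ext i j
  fin_cases i <;> fin_cases j
  · exact tob_inj _ _ h1
  · exact tob_inj _ _ h2
  · exact tob_inj _ _ h3
  · exact tob_inj _ _ h4
  · exact tob_inj _ _ h5
  · exact tob_inj _ _ h6
  · exact tob_inj _ _ h7
  · exact tob_inj _ _ h8
  · exact tob_inj _ _ h9

theorem six (k : S3) (h : (k * k * k) * (k * k * k) = 1) : k * k = 1 ∨ k * k * k = 1 := by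
  let A : Matrix (Fin 3) (Fin 3) (ZMod 2) := k.1
  have h1 : (A * A * A) * (A * A * A) = 1 := congrArg Subtype.val h
  have h2 := congrArg conv h1
  rw [conv_mul, conv_mul, conv_mul, conv_one] at h2
  have h3 := check (conv A).a (conv A).b (conv A).c (conv A).d (conv A).e (conv A).f (conv A).g
    (conv A).h (conv A).i
  have h4 := h3 (decide_eq_true h2)
  rw [Bool.or_eq_true, decide_eq_true_eq, decide_eq_true_eq] at h4
  rcases h4 with h4 | h4
  · left
    apply Subtype.ext
    show A * A = 1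
    apply conv_inj
    rw [conv_mul, conv_one]; exact h4
  · right
    apply Subtype.ext
    show A * A * A = 1
    apply conv_inj
    rw [conv_mul, conv_mul, conv_one]; exact h4

/-- An element of order 3 commutes with no involution. -/
theorem noSix {g h : S3} (hg : g ^ 3 = 1) (hg1 : g ≠ 1) (hh : h * h = 1) (hh1 : h ≠ 1)
    (hc : g * h = h * g) : False := by
  have hg' : g * g * g = 1 := by rw [← hg, pow_succ, pow_two]
  have h2 : (g * h) * (g * h) = g * g := by
    calc (g * h) * (g * h) = g * (h * g) * h := by group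
      _ = g * g * (h * h) := by rw [← hc]; group
      _ = g * g := by rw [hh, mul_one]
  have h3 : (g * h) * (g * h) * (g * h) = h := by
    rw [h2]
    calc g * g * (g * h) = (g * g * g) * h := by group
      _ = h := by rw [hg', one_mul]
  rcases six (g * h) (by rw [h3, hh]) with h4 | h4
  · rw [h2] at h4
    rw [h4, one_mul] at hg'
    exact hg1 hg'
  · rw [h3] at h4
    exact hh1 h4

theorem noSix' {g h : S3} (hg : g ^ 3 = 1) (hg1 : g ≠ 1) {k : ℕ} (hh : h ^ 2 ^ k = 1) (hh1 : h ≠ 1) :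
    g * h ≠ h * g := by
  intro hc
  obtain ⟨m, hm1, hm2⟩ := exists_invol hh hh1
  have h1 : Commute g h := hc
  exact noSix hg hg1 hm2 hm1 (h1.pow_right m).eq

/-- A 2-subgroup normalised by an element of order 3 has order `1` or `4`. -/
theorem card_two {P : Subgroup S3} (hP : IsPGroup 2 P) {g : S3} (hg : g ^ 3 = 1) (hg1 : g ≠ 1)
    (hn : ∀ x ∈ P, g * x * g⁻¹ ∈ P) : Nat.card P = 1 ∨ Nat.card P = 4 := by
  have hfin := Cfsg.Agent.H820.SL32.finite
  obtain ⟨k, hk⟩ := IsPGroup.iff_card.1 hP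
  have h1 : 2 ^ k ∣ 168 := by
    rw [← hk, ← Cfsg.Agent.H820.SL32.card]; exact Subgroup.card_subgroup_dvd_card P
  have hk3 : k ≤ 3 := by
    by_contra hlt
    have h1 : 2 ^ 4 ∣ 168 := (pow_dvd_pow 2 (by omega)).trans h1
    norm_num at h1
  have : Fact (Nat.Prime 3) := ⟨Nat.prime_three⟩
  have h2 := card_mod_conj (p := 3) (P : Set S3) g hg hn
  have h3 : Nat.card {x : S3 // x ∈ (P : Set S3) ∧ g * x = x * g} = 1 := by
    rw [Nat.card_eq_one_iff_unique]
    have key : ∀ x ∈ P, g * x = x * g → x = 1 := by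
      intro x hx hc
      by_contra hne
      obtain ⟨m, hm⟩ := hP ⟨x, hx⟩
      exact noSix' hg hg1 (k := m) (congrArg Subtype.val hm) hne hc
    refine ⟨⟨fun a b => Subtype.ext ?_⟩, ⟨⟨1, P.one_mem, by simp⟩⟩⟩
    rw [key a a.2.1 a.2.2, key b b.2.1 b.2.2]
  rw [h3] at h2
  have h4 : Nat.card P ≡ 1 [MOD 3] := h2
  rw [hk] at h4 ⊢
  unfold Nat.ModEq at h4
  interval_cases k <;> simp at h4 ⊢

end Cfsg.Agent.H861.RSL
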