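import Cfsg.Agent.H861.RN
import Cfsg.Agent.H861.RSL

/-!
# The subgroup `L` with `L_3(2)` on top
-/

set_option autoImplicit false

open Cfsg

namespace Cfsg.Agent.H861.RL

open Cfsg.Agent.H861.RUtil
open Cfsg.Agent.H861.RN
open Cfsg.Agent.H861.RSL
open Cfsg.Agent.H820.SL32 (S3)

/-- the shape of `L` -/
structure LStr {G : Type*} [Group G] (C N L : Subgroup G) (ρ : L →* S3) : Prop where
  surj : Function.Surjective ρ
  not7 : ¬ 7 ∣ Nat.card ρ.ker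
  d81 : 81 ∣ Nat.card L
  idxN : N.relIndex L = 7
  idxC : C.relIndex L = 7
  fin : Finite L

theorem prime7 : Nat.Prime 7 := by norm_num

instance : Finite S3 := Cfsg.Agent.H820.SL32.finite

variable {G : Type*} [Group G] {C N L U : Subgroup G} {φ : N →* Equiv.Perm (Fin 3) × M24} {ρ : L →* S3}
  (HN : NStr C N U φ) (H : LStr C N L ρ)

include H in
theorem ker_le_C {x : L} (hx : ρ x = 1) : (x : G) ∈ C := by
  have := H.fin
  have h : ρ.ker ≤ C.subgroupOf L := le_of_prime_index prime7 H.idxC H.not7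
  exact h hx

include H in
theorem ker_le_N {x : L} (hx : ρ x = 1) : (x : G) ∈ N := by
  have := H.fin
  have h : ρ.ker ≤ N.subgroupOf L := le_of_prime_index prime7 H.idxN H.not7
  exact h hx

include H in
theorem card_map {K : Subgroup L} (hK : K.index = 7) (hker : ρ.ker ≤ K) : Nat.card (K.map ρ) = 24 := by
  have h1 : (K.map ρ).index = 7 := by rw [Subgroup.index_map_eq K H.surj hker, hK]
  have h2 := (K.map ρ).card_mul_index
  rw [h1, Cfsg.Agent.H820.SL32.card] at h2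
  omega

/-- the restriction of the homomorphism to `L ∩ N` -/
def res (φ : N →* Equiv.Perm (Fin 3) × M24) (L : Subgroup G) : N.subgroupOf L →* Equiv.Perm (Fin 3) × M24 :=
  φ.comp { toFun := fun x => ⟨((x : L) : G), x.2⟩
           map_one' := rfl
           map_mul' := fun _ _ => rfl }

theorem res_apply (x : N.subgroupOf L) : res φ L x = φ ⟨((x : L) : G), x.2⟩ := rfl

include H in
/-- The element `f`. -/
theorem exists_f : ∃ (f : G) (hN : f ∈ N), f ∈ L ∧ f ^ 3 = 1 ∧ f ≠ 1 ∧ (φ ⟨f, hN⟩).2 = 1 := by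
  have := H.fin
  let FL : Subgroup L := N.subgroupOf L
  let μ : FL →* M24 := (MonoidHom.snd _ _).comp (res φ L)
  have h1 : Nat.card FL * 7 = Nat.card L := by
    have := FL.card_mul_index
    rwa [show FL.index = 7 from H.idxN] at this
  have h2 : 81 ∣ Nat.card FL := by
    have h3 : 81 ∣ Nat.card FL * 7 := by rw [h1]; exact H.d81
    exact (by norm_num : Nat.Coprime 81 7).dvd_of_dvd_mul_right h3
  have h3 : Nat.card μ.ker * Nat.card μ.range = Nat.card FL := by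
    rw [← μ.ker.card_mul_index, Subgroup.index_ker]
  have h4 : Nat.card μ.range ∣ 244823040 := by
    rw [← card_M24]; exact Subgroup.card_subgroup_dvd_card _
  have h5 : 3 ∣ Nat.card μ.ker := by
    by_contra hn
    have hc : Nat.Coprime 81 (Nat.card μ.ker) := by
      rw [show (81 : ℕ) = 3 ^ 4 by norm_num]
      exact Nat.Coprime.pow_left 4 ((Nat.Prime.coprime_iff_not_dvd Nat.prime_three).2 hn)
    rw [← h3] at h2
    have h6 := (hc.dvd_of_dvd_mul_left h2).trans h4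
    norm_num at h6
  obtain ⟨f, hf⟩ := exists_prime_orderOf_dvd_card' (hp := ⟨Nat.prime_three⟩) 3 h5
  have hf3 := pow_orderOf_eq_one f
  rw [hf] at hf3
  refine ⟨((f : FL) : L), (f : FL).2, ((f : FL) : L).2, ?_, ?_, ?_⟩
  · exact congrArg (fun x : μ.ker => (((x : FL) : L) : G)) hf3
  · intro h
    have h6 : f = 1 := Subtype.ext (Subtype.ext (Subtype.ext h))
    rw [h6, orderOf_one] at hf
    norm_num at hf
  · exact f.2

variable {f : G}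

include HN H in
theorem rho_ne (hfN : f ∈ N) (hfL : f ∈ L) (h3 : f ^ 3 = 1) (h1 : f ≠ 1) (hμ : (φ ⟨f, hfN⟩).2 = 1) :
    ρ ⟨f, hfL⟩ ≠ 1 := fun h => notMem_C HN (f := ⟨f, hfN⟩) h3 h1 hμ (ker_le_C H h)

include HN H in
/-- The element `w`. -/
theorem exists_w (hfN : f ∈ N) (hfL : f ∈ L) (h3 : f ^ 3 = 1) (h1 : f ≠ 1) (hμ : (φ ⟨f, hfN⟩).2 = 1) :
    ∃ (w : G) (hw : w ∈ L), w ∈ U ∧ ρ ⟨w, hw⟩ ≠ 1 ∧ f * w ≠ w * f := by
  have hfin := H.fin
  have hρ := rho_ne HN H hfN hfL h3 h1 hμ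
  have hρ3 : (ρ ⟨f, hfL⟩) ^ 3 = 1 := by
    rw [← map_pow]
    have : (⟨f, hfL⟩ : L) ^ 3 = 1 := Subtype.ext h3
    rw [this, map_one]
  let FL : Subgroup L := N.subgroupOf L
  let θ : FL →* Equiv.Perm (Fin 3) := (MonoidHom.fst _ _).comp (res φ L)
  let ρ' : FL →* FL.map ρ := ρ.subgroupMap FL
  have hρ' : Function.Surjective ρ' := ρ.subgroupMap_surjective FL
  have hc : Nat.card (FL.map ρ) = 24 := card_map H H.idxN (fun x hx => ker_le_N H hx)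
  have h4 : (θ.ker.map ρ').index ∣ 6 := by
    refine (Subgroup.index_map_dvd θ.ker hρ').trans ?_
    rw [Subgroup.index_ker]
    have e : Nat.card (Equiv.Perm (Fin 3)) = 6 := by
      rw [Nat.card_eq_fintype_card, Fintype.card_perm, Fintype.card_fin]; rfl
    rw [← e]
    exact Subgroup.card_subgroup_dvd_card _
  have h5 := (θ.ker.map ρ').card_mul_index
  rw [hc] at h5
  have h6 : 2 ∣ Nat.card (θ.ker.map ρ') := by
    obtain ⟨k, hk⟩ := h4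
    set i := (θ.ker.map ρ').index with hi
    have hk' : Nat.card (θ.ker.map ρ') = 4 * k := by
      have hi0 : i ≠ 0 := by rintro h; rw [h, zero_mul] at hk; norm_num at hk
      have e : Nat.card (θ.ker.map ρ') * i = 4 * k * i := by
        rw [h5, mul_assoc, mul_comm k i, ← hk]; rfl
      exact Nat.eq_of_mul_eq_mul_right (Nat.pos_of_ne_zero hi0) e
    rw [hk']
    exact ⟨2 * k, by ring⟩
  obtain ⟨⟨y, x, hx, hxy⟩, hy⟩ := exists_prime_orderOf_dvd_card' (hp := ⟨Nat.prime_two⟩) 2 h6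
  have hy2 := pow_orderOf_eq_one (⟨y, x, hx, hxy⟩ : θ.ker.map ρ')
  rw [hy] at hy2
  have hρx : ρ x = y := by rw [← hxy]; rfl
  have hx2 : (ρ x) ^ 2 = 1 := by
    rw [hρx]
    exact congrArg (fun t : θ.ker.map ρ' => ((t : FL.map ρ) : S3)) hy2
  have hx1 : ρ x ≠ 1 := by
    intro h
    have h7 : (⟨y, x, hx, hxy⟩ : θ.ker.map ρ') = 1 := Subtype.ext (Subtype.ext (hρx ▸ h))
    rw [h7, orderOf_one] at hy
    norm_num at hy
  have hxN : ((x : L) : G) ∈ N := x.2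
  have hθ : (φ ⟨((x : L) : G), hxN⟩).1 = 1 := hx
  refine ⟨f * x * f⁻¹ * (x : G)⁻¹, L.mul_mem (L.mul_mem (L.mul_mem hfL (x : L).2) (L.inv_mem hfL))
    (L.inv_mem (x : L).2), ?_, ?_, ?_⟩
  · refine (HN.ker (⟨f, hfN⟩ * ⟨_, hxN⟩ * ⟨f, hfN⟩⁻¹ * ⟨_, hxN⟩⁻¹)).1 ?_
    rw [map_mul, map_mul, map_mul, map_inv, map_inv]
    apply Prod.ext
    · show (φ ⟨f, hfN⟩).1 * (φ ⟨_, hxN⟩).1 * ((φ ⟨f, hfN⟩).1)⁻¹ * ((φ ⟨_, hxN⟩).1)⁻¹ = 1
      rw [hθ]; group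
    · show (φ ⟨f, hfN⟩).2 * (φ ⟨_, hxN⟩).2 * ((φ ⟨f, hfN⟩).2)⁻¹ * ((φ ⟨_, hxN⟩).2)⁻¹ = 1
      rw [hμ]; group
  · intro h
    have h7 : ρ ⟨f, hfL⟩ * ρ x * (ρ ⟨f, hfL⟩)⁻¹ * (ρ x)⁻¹ = 1 := by
      rw [← map_inv, ← map_inv, ← map_mul, ← map_mul, ← map_mul]; exact h
    rw [mul_inv_eq_one, mul_inv_eq_iff_eq_mul] at h7
    exact noSix hρ3 hρ (by rw [← pow_two]; exact hx2) hx1 h7
  · intro h
    have hwL : f * x * f⁻¹ * (x : G)⁻¹ ∈ L := L.mul_mem (L.mul_mem (L.mul_mem hfL (x : L).2) (L.inv_mem hfL))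
      (L.inv_mem (x : L).2)
    have hwU : f * x * f⁻¹ * (x : G)⁻¹ ∈ U := by
      refine (HN.ker (⟨f, hfN⟩ * ⟨_, hxN⟩ * ⟨f, hfN⟩⁻¹ * ⟨_, hxN⟩⁻¹)).1 ?_
      rw [map_mul, map_mul, map_mul, map_inv, map_inv]
      apply Prod.ext
      · show (φ ⟨f, hfN⟩).1 * (φ ⟨_, hxN⟩).1 * ((φ ⟨f, hfN⟩).1)⁻¹ * ((φ ⟨_, hxN⟩).1)⁻¹ = 1
        rw [hθ]; group
      · show (φ ⟨f, hfN⟩).2 * (φ ⟨_, hxN⟩).2 * ((φ ⟨f, hfN⟩).2)⁻¹ * ((φ ⟨_, hxN⟩).2)⁻¹ = 1
        rw [hμ]; group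
    obtain ⟨k, hk⟩ := HN.U2 ⟨_, hwU⟩
    have hk' : (f * x * f⁻¹ * (x : G)⁻¹) ^ 2 ^ k = 1 := congrArg Subtype.val hk
    have h8 : (ρ ⟨_, hwL⟩) ^ 2 ^ k = 1 := by
      rw [← map_pow]
      have : (⟨_, hwL⟩ : L) ^ 2 ^ k = 1 := Subtype.ext hk'
      rw [this, map_one]
    have h9 : ρ ⟨_, hwL⟩ ≠ 1 := by
      intro h
      have h7 : ρ ⟨f, hfL⟩ * ρ x * (ρ ⟨f, hfL⟩)⁻¹ * (ρ x)⁻¹ = 1 := by
        rw [← map_inv, ← map_inv, ← map_mul, ← map_mul, ← map_mul]; exact h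
      rw [mul_inv_eq_one, mul_inv_eq_iff_eq_mul] at h7
      exact noSix hρ3 hρ (by rw [← pow_two]; exact hx2) hx1 h7
    refine noSix' hρ3 hρ h8 h9 ?_
    rw [← map_mul, ← map_mul]
    exact congrArg ρ (Subtype.ext h)

include HN H in
/-- `U` is not contained in a normal 2-subgroup of `C`. -/
theorem not_le (hfN : f ∈ N) (hfL : f ∈ L) (h3 : f ^ 3 = 1) (h1 : f ≠ 1) (hμ : (φ ⟨f, hfN⟩).2 = 1)
    {Q : Subgroup G} (hQ2 : IsPGroup 2 Q) (hQn : ∀ c ∈ C, ∀ x ∈ Q, c * x * c⁻¹ ∈ Q) : ¬ U ≤ Q := by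
  intro hUQ
  have hfin := H.fin
  have hρ := rho_ne HN H hfN hfL h3 h1 hμ
  have hρ3 : (ρ ⟨f, hfL⟩) ^ 3 = 1 := by
    rw [← map_pow]
    have : (⟨f, hfL⟩ : L) ^ 3 = 1 := Subtype.ext h3
    rw [this, map_one]
  obtain ⟨w, hwL, hwU, hw1, -⟩ := exists_w HN H hfN hfL h3 h1 hμ
  let P1 : Subgroup S3 := (U.subgroupOf L).map ρ
  let P2 : Subgroup S3 := (Q.subgroupOf L).map ρ
  have h12 : P1 ≤ P2 := Subgroup.map_mono (fun x hx => hUQ hx)
  have hP2p : IsPGroup 2 P2 := (hQ2.comap_subtype (K := L)).map ρ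
  have hP1p : IsPGroup 2 P1 := hP2p.to_le h12
  have hN1 : ∀ n : L, (n : G) ∈ N → ∀ x ∈ P1, ρ n * x * (ρ n)⁻¹ ∈ P1 := by
    rintro n hn _ ⟨x, hx, rfl⟩
    refine ⟨n * x * n⁻¹, ?_, by rw [map_mul, map_mul, map_inv]⟩
    exact Unorm HN hn hx
  have hN2 : ∀ n : L, (n : G) ∈ C → ∀ x ∈ P2, ρ n * x * (ρ n)⁻¹ ∈ P2 := by
    rintro n hn _ ⟨x, hx, rfl⟩
    refine ⟨n * x * n⁻¹, ?_, by rw [map_mul, map_mul, map_inv]⟩
    exact hQn _ hn _ hx
  have hc1 : Nat.card P1 = 4 := by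
    rcases card_two hP1p hρ3 hρ (hN1 ⟨f, hfL⟩ hfN) with h | h
    · exfalso
      have h4 : ρ ⟨w, hwL⟩ ∈ P1 := ⟨⟨w, hwL⟩, hwU, rfl⟩
      rw [Subgroup.card_eq_one.1 h, Subgroup.mem_bot] at h4
      exact hw1 h4
    · exact h
  -- an element of order three of `L ∩ C`
  have hcE : Nat.card ((C.subgroupOf L).map ρ) = 24 := card_map H H.idxC (fun x hx => ker_le_C H hx)
  obtain ⟨⟨g, e, he, heg⟩, hg⟩ := exists_prime_orderOf_dvd_card' (hp := ⟨Nat.prime_three⟩)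
    (G := ((C.subgroupOf L).map ρ : Subgroup S3)) 3 (by rw [hcE]; norm_num)
  have hg3 := pow_orderOf_eq_one (⟨g, e, he, heg⟩ : ((C.subgroupOf L).map ρ : Subgroup S3))
  rw [hg] at hg3
  have hg3' : (ρ e) ^ 3 = 1 := by rw [heg]; exact congrArg Subtype.val hg3
  have hg1 : ρ e ≠ 1 := by
    intro h
    have h7 : (⟨g, e, he, heg⟩ : ((C.subgroupOf L).map ρ : Subgroup S3)) = 1 := Subtype.ext (heg ▸ h)
    rw [h7, orderOf_one] at hg
    norm_num at hg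
  have hc2 : Nat.card P2 ≤ 4 := by
    rcases card_two hP2p hg3' hg1 (hN2 e he) with h | h <;> omega
  have hP : P1 = P2 := Subgroup.eq_of_le_of_card_ge h12 (by rw [hc1]; exact hc2)
  let K : Subgroup L :=
    { carrier := {l | ∀ x, x ∈ P1 ↔ ρ l * x * (ρ l)⁻¹ ∈ P1}
      one_mem' := by intro x; simp
      mul_mem' := by
        intro a b ha hb x
        rw [hb x, ha (ρ b * x * (ρ b)⁻¹), map_mul]
        have e : ρ a * (ρ b * x * (ρ b)⁻¹) * (ρ a)⁻¹ = ρ a * ρ b * x * (ρ a * ρ b)⁻¹ := by group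
        rw [e]
      inv_mem' := by
        intro a ha x
        rw [ha (ρ a⁻¹ * x * (ρ a⁻¹)⁻¹), map_inv]
        have e : ρ a * ((ρ a)⁻¹ * x * ((ρ a)⁻¹)⁻¹) * (ρ a)⁻¹ = x := by group
        rw [e] }
  have hiff : ∀ S : Subgroup G, (∀ n : L, (n : G) ∈ S → ∀ x ∈ P1, ρ n * x * (ρ n)⁻¹ ∈ P1) →
      S.subgroupOf L ≤ K := by
    intro S hS n hn x
    refine ⟨hS n hn x, fun hx => ?_⟩
    have h4 := hS n⁻¹ (S.inv_mem hn) _ hx
    rw [map_inv] at h4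
    have e : (ρ n)⁻¹ * (ρ n * x * (ρ n)⁻¹) * ((ρ n)⁻¹)⁻¹ = x := by group
    rwa [e] at h4
  have hKC : C.subgroupOf L ≤ K := hiff C (by rw [hP]; exact hN2)
  have hKN : N.subgroupOf L ≤ K := hiff N hN1
  have hK : K = ⊤ := eq_top_of_prime_index prime7 H.idxC hKC (g := ⟨f, hfL⟩) (hKN hfN)
    (notMem_C HN (f := ⟨f, hfN⟩) h3 h1 hμ)
  have hnorm : P1.Normal := by
    constructor
    intro x hx s
    obtain ⟨l, rfl⟩ := H.surj s
    have h4 : l ∈ K := by rw [hK]; exact Subgroup.mem_top l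
    exact (h4 x).1 hx
  have hs := Cfsg.Agent.H820.SL32.isSimple
  rcases hs.eq_bot_or_eq_top_of_normal P1 hnorm with h | h
  · rw [h, Subgroup.card_bot] at hc1
    norm_num at hc1
  · rw [h, Subgroup.card_top, Cfsg.Agent.H820.SL32.card] at hc1
    norm_num at hc1

end Cfsg.Agent.H861.RL
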