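import Cfsg.Agent.H861.RN
import Cfsg.Agent.H861.RCoD
import Cfsg.Agent.H861.RChart

/-!
# The images of `N ∩ C` and of `O_2(N)` in `Co1`
-/

set_option autoImplicit false

open Cfsg

namespace Cfsg.Agent.H861.RM

open Cfsg.Agent.MonsterU.Lam2 (L2)
open Cfsg.Agent.MonsterU.CoFrameL2 (f0 f0_ne mem_F_iff mem_W1 mem_W1_of_E smul_f0)
open Cfsg.Agent.MonsterU.CoFrameIrr (X)
open Cfsg.Agent.MonsterU.CoFrameF (F card_F E_le_F)
open Cfsg.Agent.CoOneType.CoOneE (pr E card_E)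
open Cfsg.Spor (Co1)
open Cfsg.Agent.H861.RUtil
open Cfsg.Agent.H861.RN

/-- the kernel of `N → S_3` -/
def MM {G : Type*} [Group G] {N : Subgroup G} (φ : N →* Equiv.Perm (Fin 3) × M24) : Subgroup G :=
  (((MonoidHom.fst _ _).comp φ).ker).map N.subtype

/-- the data on `N`, with an element `u` of order 23 -/
structure NData {G : Type*} [Group G] (C N U Q : Subgroup G) (z : G) (eta : G → L2) (pi : C →* Co1)
    (φ : N →* Equiv.Perm (Fin 3) × M24) (f u : G) : Prop where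
  chart : RCh.Chart C Q z eta pi
  str : NStr C N U φ
  fN : f ∈ N
  f3 : f ^ 3 = 1
  f1 : f ≠ 1
  fμ : (φ ⟨f, fN⟩).2 = 1
  fw : ∃ w ∈ U, f * w ≠ w * f
  nle : ¬ U ≤ Q
  uN : u ∈ N
  uσ : (φ ⟨u, uN⟩).1 = 1
  uC : u ∈ C
  uX : pi ⟨u, uC⟩ = X
  u23 : u ^ 23 = 1

section

variable {G : Type*} [Group G] {C N U : Subgroup G} {φ : N →* Equiv.Perm (Fin 3) × M24}

theorem mem_MM {n : G} (hn : n ∈ N) : n ∈ MM φ ↔ (φ ⟨n, hn⟩).1 = 1 := by
  constructor
  · rintro ⟨x, hx, rfl⟩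
    exact hx
  · intro h
    exact ⟨⟨n, hn⟩, h, rfl⟩

theorem MM_le : MM φ ≤ N := Subgroup.map_subtype_le _

theorem MM_norm {n x : G} (hn : n ∈ N) (hx : x ∈ MM φ) : n * x * n⁻¹ ∈ MM φ := by
  have hxN := MM_le hx
  have h1 := (mem_MM hxN).1 hx
  refine (mem_MM (N.mul_mem (N.mul_mem hn hxN) (N.inv_mem hn))).2 ?_
  have e : (⟨n * x * n⁻¹, N.mul_mem (N.mul_mem hn hxN) (N.inv_mem hn)⟩ : N) =
    ⟨n, hn⟩ * ⟨x, hxN⟩ * ⟨n, hn⟩⁻¹ := rfl
  rw [e, map_mul, map_mul, map_inv]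
  show (φ ⟨n, hn⟩).1 * (φ ⟨x, hxN⟩).1 * ((φ ⟨n, hn⟩).1)⁻¹ = 1
  rw [h1, mul_one, mul_inv_cancel]

variable (H : NStr C N U φ)

include H

theorem MM_le_C : MM φ ≤ C := by
  rintro _ ⟨x, hx, rfl⟩
  exact M_le H hx

theorem U_le_MM : U ≤ MM φ := by
  intro x hx
  rw [mem_MM (H.UN hx), (H.ker ⟨x, H.UN hx⟩).2 hx]; rfl

/-- the image in `M_24` -/
theorem card_MM : Nat.card (MM φ) = Nat.card U * Nat.card M24 := by
  have := H.fin
  have e0 : Nat.card (MM φ) = Nat.card ((MonoidHom.fst (Equiv.Perm (Fin 3)) M24).comp φ).ker :=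
    Subgroup.card_map_of_injective N.subtype_injective
  let σ : N →* Equiv.Perm (Fin 3) := (MonoidHom.fst _ _).comp φ
  let μ : σ.ker →* M24 := ((MonoidHom.snd _ _).comp φ).comp σ.ker.subtype
  have hμ : Function.Surjective μ := by
    intro m
    obtain ⟨n, hn⟩ := H.surj (1, m)
    exact ⟨⟨n, show (φ n).1 = 1 by rw [hn]⟩, show (φ n).2 = m by rw [hn]⟩
  have h1 : Nat.card μ.ker = Nat.card U := by
    refine Nat.card_congr
      { toFun := fun x => ⟨((x : σ.ker) : N), ?_⟩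
        invFun := fun x => ⟨⟨⟨x, H.UN x.2⟩, ?_⟩, ?_⟩
        left_inv := fun x => rfl
        right_inv := fun x => rfl }
    · exact (H.ker _).1 (Prod.ext x.1.2 x.2)
    · show (φ ⟨x, H.UN x.2⟩).1 = 1
      rw [(H.ker ⟨x, H.UN x.2⟩).2 x.2]; rfl
    · show (φ ⟨x, H.UN x.2⟩).2 = 1
      rw [(H.ker ⟨x, H.UN x.2⟩).2 x.2]; rfl
  have h2 := μ.ker.card_mul_index
  rw [Subgroup.index_ker, MonoidHom.range_eq_top.2 hμ, Subgroup.card_top, h1] at h2
  rw [e0]; exact h2.symm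

theorem card_N : Nat.card N = 6 * Nat.card (MM φ) := by
  have := H.fin
  have e0 : Nat.card (MM φ) = Nat.card ((MonoidHom.fst (Equiv.Perm (Fin 3)) M24).comp φ).ker :=
    Subgroup.card_map_of_injective N.subtype_injective
  have hσ : Function.Surjective ((MonoidHom.fst (Equiv.Perm (Fin 3)) M24).comp φ) :=
    Prod.fst_surjective.comp H.surj
  have h2 := ((MonoidHom.fst (Equiv.Perm (Fin 3)) M24).comp φ).ker.card_mul_index
  have e : Nat.card (Equiv.Perm (Fin 3)) = 6 := by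
    rw [Nat.card_eq_fintype_card, Fintype.card_perm, Fintype.card_fin]; rfl
  rw [Subgroup.index_ker, MonoidHom.range_eq_top.2 hσ, Subgroup.card_top, e] at h2
  rw [e0, mul_comm]; exact h2.symm

theorem card_CN : Nat.card ↥(C ⊓ N) = 2 * Nat.card (MM φ) := by
  have h1 := card_inf_mul C N
  rw [H.idx, card_N H] at h1
  omega

/-- A normal 2-subgroup of `M` is contained in `U`. -/
theorem le_U {T : Subgroup G} (hT : T ≤ MM φ) (h2 : IsPGroup 2 T)
    (hn : ∀ m ∈ MM φ, ∀ t ∈ T, m * t * m⁻¹ ∈ T) : T ≤ U := by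
  let μ : N →* M24 := (MonoidHom.snd _ _).comp φ
  let S : Subgroup M24 := (T.subgroupOf N).map μ
  have hS2 : IsPGroup 2 S := (h2.comap_subtype (K := N)).map μ
  have hS : S.Normal := by
    constructor
    rintro _ ⟨t, ht, rfl⟩ m
    obtain ⟨n, hn'⟩ := H.surj (1, m)
    have hnM : (n : G) ∈ MM φ := (mem_MM n.2).2 (by rw [hn'])
    refine ⟨n * t * n⁻¹, hn _ hnM _ ht, ?_⟩
    rw [map_mul, map_mul, map_inv]
    show (φ n).2 * _ * ((φ n).2)⁻¹ = _
    rw [hn']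
  rcases (inferInstance : IsSimpleGroup M24).eq_bot_or_eq_top_of_normal S hS with h | h
  · intro t ht
    have htN := MM_le (hT ht)
    refine (H.ker ⟨t, htN⟩).1 (Prod.ext ((mem_MM htN).1 (hT ht)) ?_)
    have h3 : μ ⟨t, htN⟩ ∈ S := ⟨⟨t, htN⟩, ht, rfl⟩
    rw [h, Subgroup.mem_bot] at h3
    exact h3
  · exfalso
    obtain ⟨n, hn⟩ := IsPGroup.iff_card.1 hS2
    rw [h, Subgroup.card_top, card_M24] at hn
    have h5 : 23 ∣ 2 ^ n := by rw [← hn]; norm_num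
    have h6 := (by norm_num : Nat.Prime 23).dvd_of_dvd_pow h5
    exact absurd h6 (by norm_num)

end

/-- A normaliser of `E` lies in `F`. -/
theorem mem_F_of_norm {k : Co1} (h : ∀ s ∈ E, k⁻¹ * s * k ∈ E) : k ∈ F := by
  have h1 : k • f0 ∈ MonsterU.CoFrameL2.W1 := by
    apply mem_W1_of_E
    intro s hs
    have h3 := smul_f0 (E_le_F (h s hs))
    calc s • k • f0 = k • ((k⁻¹ * s * k) • f0) := by rw [smul_smul, smul_smul]; congr 1; group
      _ = k • f0 := by rw [h3]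
  rcases (mem_W1 _).1 h1 with h2 | h2
  · exfalso
    have : k⁻¹ • k • f0 = 0 := by rw [h2, smul_zero]
    rw [inv_smul_smul] at this
    exact f0_ne this
  · exact (mem_F_iff k).2 h2

variable {G : Type*} [Group G] {C N U Q : Subgroup G} {z : G} {eta : G → L2} {pi : C →* Co1}
  {φ : N →* Equiv.Perm (Fin 3) × M24} {f u : G} (H : NData C N U Q z eta pi φ f u)

/-- the image in `Co1` -/
def img (pi : C →* Co1) (S : Subgroup G) : Subgroup Co1 := (S.subgroupOf C).map pi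

theorem mem_img {S : Subgroup G} {s : Co1} : s ∈ img pi S ↔ ∃ (x : G) (hx : x ∈ C), x ∈ S ∧ pi ⟨x, hx⟩ = s := by
  constructor
  · rintro ⟨x, hx, rfl⟩
    exact ⟨x, x.2, hx, rfl⟩
  · rintro ⟨x, hx, hxS, rfl⟩
    exact ⟨⟨x, hx⟩, hxS, rfl⟩

include H

theorem Q2 : IsPGroup 2 Q := IsPGroup.of_card H.chart.card_Q

/-- `|S| = |S ∩ Q| |pi S|` -/
theorem card_img {S : Subgroup G} (hS : S ≤ C) : Nat.card ↥(Q ⊓ S) * Nat.card (img pi S) = Nat.card S := by
  have h1 := card_inf_mul pi.ker (S.subgroupOf C)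
  rw [Subgroup.relIndex_ker] at h1
  have h2 : Nat.card (S.subgroupOf C) = Nat.card S :=
    Nat.card_congr (Subgroup.subgroupOfEquivOfLe hS).toEquiv
  have h3 : Nat.card ↥(pi.ker ⊓ S.subgroupOf C) = Nat.card ↥(Q ⊓ S) := by
    refine Nat.card_congr
      { toFun := fun x => ⟨((x : C) : G), (H.chart.pi_eq_one _).1 x.2.1, x.2.2⟩
        invFun := fun x => ⟨⟨x, hS x.2.2⟩, (H.chart.pi_eq_one _).2 x.2.1, x.2.2⟩
        left_inv := fun x => rfl
        right_inv := fun x => rfl }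
  rw [h2, h3] at h1
  exact h1

theorem QM : Q ⊓ MM φ = Q ⊓ U := by
  apply le_antisymm
  · refine le_inf inf_le_left (le_U H.str inf_le_right ((Q2 H).to_le inf_le_left) ?_)
    intro m hm t ht
    exact ⟨H.chart.large.conj_mem m (MM_le_C H.str hm) t ht.1, (MM φ).mul_mem ((MM φ).mul_mem hm ht.2)
      ((MM φ).inv_mem hm)⟩
  · exact inf_le_inf le_rfl (U_le_MM H.str)

theorem hyp : RCoB.Hyp (img pi (MM φ)) (img pi U) where
  le := Subgroup.map_mono (fun x hx => U_le_MM H.str hx)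
  normal := by
    rintro _ ⟨k, hk, rfl⟩ _ ⟨s, hs, rfl⟩
    refine ⟨k * s * k⁻¹, ?_, by rw [map_mul, map_mul, map_inv]⟩
    exact Unorm H.str (MM_le hk) hs
  two := (H.str.U2.comap_subtype (K := C)).map pi
  ne := by
    intro h
    apply H.nle
    intro x hx
    have h1 : pi ⟨x, U_le H.str hx⟩ ∈ img pi U := mem_img.2 ⟨x, U_le H.str hx, hx, rfl⟩
    rw [h, Subgroup.mem_bot] at h1
    exact (H.chart.pi_eq_one _).1 h1
  X := mem_img.2 ⟨u, H.uC, (mem_MM H.uN).2 H.uσ, H.uX⟩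
  card := by
    have h1 := card_img H (MM_le_C H.str)
    have h2 := card_img H (U_le H.str)
    rw [QM H, card_MM H.str, ← h2, mul_assoc] at h1
    have hpos : 0 < Nat.card ↥(Q ⊓ U) := by
      have := H.chart.fin
      have : Finite ↥(Q ⊓ U) := Set.Finite.subset (Set.toFinite (Q : Set G)) (fun x hx => hx.1)
      exact Nat.card_pos
    exact Nat.eq_of_mul_eq_mul_left hpos h1

theorem img_U : img pi U = E := (RCoD.eq_F_of_hyp (hyp H)).1

theorem img_M : img pi (MM φ) = F := (RCoD.eq_F_of_hyp (hyp H)).2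

theorem pi_mem_F {d : G} (hC : d ∈ C) (hN : d ∈ N) : pi ⟨d, hC⟩ ∈ F := by
  apply mem_F_of_norm
  intro s hs
  rw [← img_U H] at hs ⊢
  obtain ⟨x, hx, hxU, rfl⟩ := mem_img.1 hs
  refine mem_img.2 ⟨d⁻¹ * x * d, C.mul_mem (C.mul_mem (C.inv_mem hC) hx) hC, ?_, ?_⟩
  · have := Unorm H.str (N.inv_mem hN) hxU
    rwa [inv_inv] at this
  · rw [← map_inv, ← map_mul, ← map_mul]; rfl

theorem img_D : img pi (C ⊓ N) = F := by
  apply le_antisymm
  · intro s hs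
    obtain ⟨x, hx, hxN, rfl⟩ := mem_img.1 hs
    exact pi_mem_F H hx hxN.2
  · rw [← img_M H]
    exact Subgroup.map_mono (fun x hx => ⟨MM_le_C H.str hx, MM_le hx⟩)

/-- `|Q ∩ N| = 2 |Q ∩ U|` -/
theorem card_QN : Nat.card ↥(Q ⊓ N) = 2 * Nat.card ↥(Q ⊓ U) := by
  have h1 := card_img H (MM_le_C H.str)
  have h2 := card_img H (inf_le_left : C ⊓ N ≤ C)
  rw [img_D H, card_CN H.str, ← h1, img_M H, QM H] at h2
  have h3 : Q ⊓ (C ⊓ N) = Q ⊓ N := by
    rw [← inf_assoc, inf_eq_left.2 H.chart.QC]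
  rw [h3] at h2
  have hF : 0 < Nat.card F := by rw [card_F]; norm_num
  have h4 : Nat.card ↥(Q ⊓ N) * Nat.card F = 2 * Nat.card ↥(Q ⊓ U) * Nat.card F := by
    rw [h2]; ring
  exact Nat.eq_of_mul_eq_mul_right hF h4

end Cfsg.Agent.H861.RM
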