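import Cfsg.Agent.MonsterU.Uncond
import Cfsg.Agent.MonsterU.ModelAmal
import Cfsg.Agent.MonsterP.Equiv

/-!
# The model: the Monster with its point-line-plane geometry and its chart
-/

set_option autoImplicit false

namespace Cfsg.Agent.H861.RModel

open Cfsg Cfsg.Agent.MonsterU Cfsg.Agent.MonsterX Cfsg.Agent.MonsterX.Space Cfsg.Agent.MonsterX.Conc
open Cfsg.Agent.MonsterX.Model
open Cfsg.Agent.MonsterX.InstData Cfsg.Agent.MonsterX.MainTrans Cfsg.Agent.MonsterX.MainSimple
open Cfsg.Agent.MonsterX.MainPack Cfsg.Agent.MonsterX.MainBasic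
open Cfsg.Agent.MonsterU.ModelGeo
open Cfsg.Agent.MonsterU.Lam2 (L2)
open Cfsg.Spor (Co1)

/-- what is used about the model -/
structure Model {Γ : Type*} [Group Γ] (z a b τ ξ y q : Γ) (Q : Subgroup Γ) (eta : Γ → L2)
    (pi : Subgroup.centralizer ({z} : Set Γ) →* Co1) : Prop where
  fin : Finite Γ
  simple : IsSimpleGroup Γ
  geo : EmbOf.Geometry z a b τ ξ y q
  chart : Ch.Chart Q z eta pi
  aQ : a ∈ Q
  isM : Cfsg.Spor.IsoM Γ

/-- **The model exists.** -/
theorem model : ∃ (z a b τ ξ y q : InstData.M.G) (Q : Subgroup InstData.M.G) (eta : InstData.M.G → L2)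
    (pi : Subgroup.centralizer ({z} : Set InstData.M.G) →* Co1), Model z a b τ ξ y q Q eta pi := by
  have hO := Uncond.mOrbit
  have hT := Instance.mTrans
  obtain ⟨eta, pi, hc⟩ := ModelChart.chart KDone.mGroup KDone.mRep KDone.mLat hO hT
  have hg := GeometryInst.geometry KDone.mGroup KDone.mRep KDone.mLat hO (Final.cent hO hT)
    GeometryInst.D_le (LevFinal.lev (Final.cent hO hT))
  obtain ⟨e⟩ := Cfsg.Agent.MonsterP.Equiv.equiv
  exact ⟨_, _, _, _, _, _, _, _, eta, pi, G_finite hO, (isM KDone.mGroup KDone.mRep KDone.mLat hO hT).1, hg, hc,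
    (show E 0 ∈ Conc.Q from E_mem_Q (by norm_num)), ⟨e.symm⟩⟩

end Cfsg.Agent.H861.RModel
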