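import Cfsg.Agent.H861.RUtil
import Cfsg.Agent.H820.SL32
import Cfsg.Agent.S0364
import Cfsg.Agent.S0365

/-!
# The subgroup `N` with `N / O_2(N) = S_3 × M_24`
-/

set_option autoImplicit false

open Cfsg

namespace Cfsg.Agent.H861.RN

open Cfsg.Agent.H861.RUtil

/-- the shape of `N` -/
structure NStr {G : Type*} [Group G] (C N U : Subgroup G) (φ : N →* Equiv.Perm (Fin 3) × M24) : Prop where
  UN : U ≤ N
  U2 : IsPGroup 2 U
  surj : Function.Surjective φ
  ker : ∀ n : N, φ n = 1 ↔ (n : G) ∈ U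
  idx : C.relIndex N = 3
  fin : Finite N

theorem card_M24 : Nat.card M24 = 244823040 := Cfsg.Agent.S0364.result

instance : Finite M24 := Nat.finite_of_card_ne_zero (by rw [card_M24]; norm_num)

instance : IsSimpleGroup M24 := Cfsg.Agent.S0365.result

/-- A subgroup of index at most `10` of `M24` is `M24`. -/
theorem eq_top_of_index {S : Subgroup M24} (h : S.index ≤ 10) : S = ⊤ := by
  by_contra hS
  have h1 := Cfsg.Agent.H820.SL32.card_dvd_factorial S hS
  rw [card_M24] at h1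
  have h2 : S.index ≠ 0 := Subgroup.index_ne_zero_of_finite
  have h3 : ∀ n ≤ 10, n ≠ 0 → ¬ 244823040 ∣ n.factorial := by decide
  exact h3 _ h h2 h1

variable {G : Type*} [Group G] {C N U : Subgroup G} {φ : N →* Equiv.Perm (Fin 3) × M24}
  (H : NStr C N U φ)

include H

theorem Unorm {n x : G} (hn : n ∈ N) (hx : x ∈ U) : n * x * n⁻¹ ∈ U := by
  have h1 := (H.ker ⟨x, H.UN hx⟩).2 hx
  have h2 := (H.ker (⟨n, hn⟩ * ⟨x, H.UN hx⟩ * ⟨n, hn⟩⁻¹)).1 (by
    rw [map_mul, map_mul, h1, mul_one, ← map_mul, mul_inv_cancel, map_one])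
  exact h2

/-- `U ≤ C`. -/
theorem U_le : U ≤ C := by
  have := H.fin
  have hn : (U.subgroupOf N).Normal := by
    constructor
    intro x hx n
    exact Unorm H n.2 hx
  have h2 : IsPGroup 2 (U.subgroupOf N) := H.U2.comap_subtype
  have h1 : U.subgroupOf N ≤ C.subgroupOf N := by
    refine le_of_prime_index Nat.prime_three H.idx ?_
    intro h3
    obtain ⟨k, hk⟩ := IsPGroup.iff_card.1 h2
    rw [hk] at h3
    have h4 := Nat.prime_three.dvd_of_dvd_pow h3
    norm_num at h4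
  intro x hx
  exact h1 (show (⟨x, H.UN hx⟩ : N) ∈ U.subgroupOf N from hx)

/-- **`M ≤ C`.** -/
theorem M_le {n : N} (hn : (φ n).1 = 1) : (n : G) ∈ C := by
  have := H.fin
  let D : Subgroup N := C.subgroupOf N
  have hD : D.index = 3 := H.idx
  have hker : φ.ker ≤ D := by
    intro x hx
    exact U_le H ((H.ker x).1 hx)
  have h1 : (D.map φ).index = 3 := by
    rw [Subgroup.index_map_eq D H.surj hker, hD]
  let R : Subgroup (Equiv.Perm (Fin 3) × M24) := (MonoidHom.inr (Equiv.Perm (Fin 3)) M24).range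
  have hR : R.Normal := by
    constructor
    rintro _ ⟨m, rfl⟩ ⟨a, b⟩
    refine ⟨b * m * b⁻¹, ?_⟩
    apply Prod.ext
    · show (1 : Equiv.Perm (Fin 3)) = a * 1 * a⁻¹
      rw [mul_one, mul_inv_cancel]
    · rfl
  have h2 : (D.map φ).relIndex R ∣ 3 := (relIndex_dvd_index (D.map φ) R).trans h1.dvd
  have h3 : ((D.map φ).comap (MonoidHom.inr (Equiv.Perm (Fin 3)) M24)).index ∣ 3 := by
    rw [Subgroup.index_comap]; exact h2
  have h4 := eq_top_of_index ((Nat.le_of_dvd (by norm_num) h3).trans (by norm_num))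
  have h5 : (φ n).2 ∈ (D.map φ).comap (MonoidHom.inr (Equiv.Perm (Fin 3)) M24) := by
    rw [h4]; exact Subgroup.mem_top _
  have h6 : φ n ∈ D.map φ := by
    have e : φ n = MonoidHom.inr (Equiv.Perm (Fin 3)) M24 (φ n).2 := Prod.ext hn rfl
    rw [e]; exact h5
  obtain ⟨d, hd, hdn⟩ := h6
  have h7 : d⁻¹ * n ∈ φ.ker := by
    rw [MonoidHom.mem_ker, map_mul, map_inv, hdn, inv_mul_cancel]
  have h8 := D.mul_mem hd (hker h7)
  rw [mul_inv_cancel_left] at h8
  exact h8

/-- the elements of `N ∩ C` have image of order at most 2 in `S_3` -/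
theorem sq {n : N} (hn : (n : G) ∈ C) : (φ n).1 * (φ n).1 = 1 := by
  have := H.fin
  let D : Subgroup N := C.subgroupOf N
  have hD : D.index = 3 := H.idx
  let σ : N →* Equiv.Perm (Fin 3) := (MonoidHom.fst _ _).comp φ
  have hσ : Function.Surjective σ := Prod.fst_surjective.comp H.surj
  have hker : σ.ker ≤ D := fun x hx => M_le H hx
  have h1 : (D.map σ).index = 3 := by
    rw [Subgroup.index_map_eq D hσ hker, hD]
  have h2 := (D.map σ).card_mul_index
  have h3 : Nat.card (Equiv.Perm (Fin 3)) = 6 := by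
    rw [Nat.card_eq_fintype_card, Fintype.card_perm, Fintype.card_fin]; rfl
  rw [h1, h3] at h2
  have h4 : Nat.card (D.map σ) = 2 := by omega
  have h5 : (⟨σ n, ⟨n, hn, rfl⟩⟩ : D.map σ) ^ 2 = 1 := by
    rw [← h4]; exact pow_card_eq_one'
  rw [pow_two] at h5
  exact congrArg Subtype.val h5

/-- the elements of order 3 of the kernel of `N → M_24` -/
theorem notMem_C {f : N} (h3 : (f : G) ^ 3 = 1) (h1 : (f : G) ≠ 1) (h2 : (φ f).2 = 1) : (f : G) ∉ C := by
  intro hC
  have h4 := sq H hC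
  have h5 : f ^ 3 = 1 := Subtype.ext h3
  have h6 : (φ f).1 ^ 3 = 1 := by
    have := congrArg (fun x => (φ x).1) h5
    simp only [map_pow, map_one] at this
    exact this
  have h7 : (φ f).1 = 1 := by
    rw [pow_succ, pow_two, h4, one_mul] at h6
    exact h6
  have h8 : (f : G) ∈ U := (H.ker f).1 (Prod.ext h7 h2)
  obtain ⟨k, hk⟩ := H.U2 ⟨f, h8⟩
  have hk' : (f : G) ^ 2 ^ k = 1 := congrArg Subtype.val hk
  have h9 : orderOf (f : G) ∣ 3 := orderOf_dvd_of_pow_eq_one h3
  have h10 : orderOf (f : G) ∣ 2 ^ k := orderOf_dvd_of_pow_eq_one hk'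
  have h11 : Nat.Coprime 3 (2 ^ k) := Nat.Coprime.pow_right k (by norm_num)
  exact h1 (orderOf_eq_one_iff.1 (Nat.eq_one_of_dvd_coprimes h11 h9 h10))

end Cfsg.Agent.H861.RN
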