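import Cfsg.Agent.H861.RSide

/-!
The quotient of the centraliser of the four group by the four group satisfies the hypotheses of
`AmalPin.PinHyp`.
-/

set_option autoImplicit false

namespace Cfsg.Agent.H861.RQuot

open Cfsg.Agent.MonsterU.AmalPin
open Cfsg.Agent.MonsterU.AmalSide (four NoTwo)
open Cfsg.Agent.H861.RSide Cfsg.Agent.H861.RSide.Side

variable {G : Type*} [Group G] {C : Subgroup G}

theorem four_comm {z y v b : G} (hv : v ∈ four z y) (hb : b ∈ cent2 C z y) : b * v = v * b := by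
  rw [mem_cent2] at hb
  induction hv using Subgroup.closure_induction with
  | mem t ht =>
    rcases ht with rfl | ht
    · exact hb.2.1
    · rw [Set.mem_singleton_iff] at ht; rw [ht]; exact hb.2.2
  | one => simp
  | mul a c _ _ ha hc => rw [← mul_assoc, ha, mul_assoc, hc, mul_assoc]
  | inv a _ ha =>
    calc b * a⁻¹ = a⁻¹ * (a * b) * a⁻¹ := by group
      _ = a⁻¹ * (b * a) * a⁻¹ := by rw [ha]
      _ = a⁻¹ * b := by group

instance normV (C : Subgroup G) (z y : G) : ((four z y).subgroupOf (cent2 C z y)).Normal where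
  conj_mem := by
    rintro ⟨v, hv⟩ hv' ⟨b, hb⟩
    rw [Subgroup.mem_subgroupOf] at hv' ⊢
    have h1 : b * v = v * b := four_comm hv' hb
    show b * v * b⁻¹ ∈ four z y
    rw [h1, mul_inv_cancel_right]
    exact hv'

/-- The quotient `B / V`. -/
abbrev Bq (C : Subgroup G) (z y : G) : Type _ := ↥(cent2 C z y) ⧸ (four z y).subgroupOf (cent2 C z y)

/-- The image in the quotient. -/
def mk {z y : G} (b : G) (hb : b ∈ cent2 C z y) : Bq C z y := QuotientGroup.mk ⟨b, hb⟩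

theorem mk_surj {z y : G} (a : Bq C z y) : ∃ b, ∃ hb : b ∈ cent2 C z y, mk b hb = a := by
  obtain ⟨⟨b, hb⟩, rfl⟩ := QuotientGroup.mk_surjective a
  exact ⟨b, hb, rfl⟩

theorem mk_mul {z y b c : G} (hb : b ∈ cent2 C z y) (hc : c ∈ cent2 C z y) :
    mk b hb * mk c hc = mk (b * c) (Subgroup.mul_mem _ hb hc) := rfl

theorem mk_inv {z y b : G} (hb : b ∈ cent2 C z y) :
    (mk b hb)⁻¹ = mk b⁻¹ (Subgroup.inv_mem _ hb) := rfl

theorem mk_pow {z y b : G} (hb : b ∈ cent2 C z y) (n : ℕ) :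
    (mk b hb) ^ n = mk (b ^ n) (Subgroup.pow_mem _ hb n) := rfl

theorem mk_eq_one {z y b : G} (hb : b ∈ cent2 C z y) : mk b hb = 1 ↔ b ∈ four z y := by
  rw [mk, QuotientGroup.eq_one_iff, Subgroup.mem_subgroupOf]

theorem mk_eq {z y b c : G} (hb : b ∈ cent2 C z y) (hc : c ∈ cent2 C z y) :
    mk b hb = mk c hc ↔ b * c⁻¹ ∈ four z y := by
  rw [← mul_inv_eq_one, mk_inv, mk_mul, mk_eq_one]

theorem mk_comm_iff {z y b c : G} (hb : b ∈ cent2 C z y) (hc : c ∈ cent2 C z y) :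
    mk b hb * mk c hc = mk c hc * mk b hb ↔ b * c * b⁻¹ * c⁻¹ ∈ four z y := by
  rw [mk_mul, mk_mul, mk_eq]
  have : b * c * (c * b)⁻¹ = b * c * b⁻¹ * c⁻¹ := by group
  rw [this]

/-- The image of a subgroup. -/
def hat (C : Subgroup G) (z y : G) (S : Subgroup G) : Subgroup (Bq C z y) :=
  (S.subgroupOf (cent2 C z y)).map (QuotientGroup.mk' _)

theorem mem_hat {z y : G} {S : Subgroup G} {a : Bq C z y} :
    a ∈ hat C z y S ↔ ∃ b, ∃ hb : b ∈ cent2 C z y, b ∈ S ∧ mk b hb = a := by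
  rw [hat, Subgroup.mem_map]
  constructor
  · rintro ⟨⟨b, hb⟩, hS, rfl⟩
    exact ⟨b, hb, hS, rfl⟩
  · rintro ⟨b, hb, hS, rfl⟩
    exact ⟨⟨b, hb⟩, hS, rfl⟩

theorem mk_mem_hat {z y : G} {S : Subgroup G} (hS : four z y ≤ S) {b : G} (hb : b ∈ cent2 C z y) :
    mk b hb ∈ hat C z y S ↔ b ∈ S := by
  rw [mem_hat]
  constructor
  · rintro ⟨c, hc, hcS, e⟩
    rw [mk_eq] at e
    have := S.mul_mem (S.inv_mem (hS e)) hcS
    have e2 : (c * b⁻¹)⁻¹ * c = b := by group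
    rwa [e2] at this
  · intro hbS
    exact ⟨b, hb, hbS, rfl⟩

theorem hat_normal {z y : G} {S : Subgroup G} (hS : ∀ b ∈ cent2 C z y, ∀ s ∈ S, b * s * b⁻¹ ∈ S) :
    (hat C z y S).Normal where
  conj_mem := by
    intro n hn g
    obtain ⟨s, hs, hsS, rfl⟩ := mem_hat.1 hn
    obtain ⟨b, hb, rfl⟩ := mk_surj g
    exact mem_hat.2 ⟨b * s * b⁻¹, _, hS b hb s hsS, rfl⟩

theorem mk_prod {z y : G} (x a : G) (hx : x ∈ cent2 C z y) (ha : a ∈ cent2 C z y) :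
    ∃ hp : qrProd x a ∈ cent2 C z y, qrProd (mk x hx) (mk a ha) = mk (qrProd x a) hp := by
  have key : ∀ l : List ℕ, ∃ hp : (l.map fun i => x ^ i * a * (x ^ i)⁻¹).prod ∈ cent2 C z y,
      (l.map fun i => mk x hx ^ i * mk a ha * (mk x hx ^ i)⁻¹).prod = mk _ hp := by
    intro l
    induction l with
    | nil => exact ⟨Subgroup.one_mem _, rfl⟩
    | cons i l ih =>
      obtain ⟨hp, e⟩ := ih
      refine ⟨?_, ?_⟩
      · rw [List.map_cons, List.prod_cons]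
        exact Subgroup.mul_mem _ (Subgroup.mul_mem _ (Subgroup.mul_mem _
          (Subgroup.pow_mem _ hx i) ha) (Subgroup.inv_mem _ (Subgroup.pow_mem _ hx i))) hp
      · rw [List.map_cons, List.prod_cons, e]
        rfl
  exact key qr

variable {Q E : Subgroup G} {z y τ x u q₀ e₁ a₁ : G} (h : Side C Q E z y τ x u q₀ e₁ a₁)
include h

theorem four_KK (n : ℕ) : four z y ≤ KK C Q z y τ n := h.fourE.trans (h.E_KK n)

theorem K0_sq {a : G} (ha : a ∈ KK C Q z y τ 0) : a * a ∈ four z y := by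
  rcases h.Qsq a ha.1 with e | e <;> rw [e]
  · exact Subgroup.one_mem _
  · exact h.z_four

theorem mem_sup_iff {b : G} (hb : b ∈ cent2 C z y) :
    mk b hb ∈ hat C z y (KK C Q z y τ 0) ⊔ hat C z y (KK C Q z y τ 1) ↔
      ∃ r ∈ KK C Q z y τ 0, ∃ s ∈ KK C Q z y τ 1, b = r * s := by
  have hn : (hat C z y (KK C Q z y τ 1)).Normal := hat_normal fun b hb s hs => h.KK_conj 1 hb s hs
  rw [Subgroup.mem_sup_of_normal_right]
  constructor
  · rintro ⟨a, ha, c, hc, e⟩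
    obtain ⟨r, hr, hrS, rfl⟩ := mem_hat.1 ha
    obtain ⟨s, hs, hsS, rfl⟩ := mem_hat.1 hc
    rw [mk_mul, mk_eq] at e
    refine ⟨b * (r * s)⁻¹ * r, ?_, s, hsS, by group⟩
    have h1 : (r * s * b⁻¹)⁻¹ ∈ four z y := Subgroup.inv_mem _ e
    have h2 : b * (r * s)⁻¹ = (r * s * b⁻¹)⁻¹ := by group
    rw [h2]
    exact Subgroup.mul_mem _ (four_KK h 0 h1) hrS
  · rintro ⟨r, hr, s, hs, rfl⟩
    exact ⟨mk r (h.KK_le 0 hr), mem_hat.2 ⟨r, _, hr, rfl⟩, mk s (h.KK_le 1 hs),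
      mem_hat.2 ⟨s, _, hs, rfl⟩, rfl⟩

theorem E_B {e : G} (he : e ∈ E) : e ∈ cent2 C z y := h.EB he

/-- The hypotheses of the uniqueness theorem hold in `B / V`. -/
theorem pinHyp : PinHyp (hat C z y E) (hat C z y (KK C Q z y τ 0)) (hat C z y (KK C Q z y τ 1))
    (mk x h.xB) (mk u h.uB) (mk e₁ (h.EB h.e₁E)) (mk a₁ (h.mem_K0.2 ⟨h.a₁Q, h.a₁y⟩).2) where
  normE := hat_normal fun b hb e he => h.En b hb e he
  norm0 := hat_normal fun b hb s hs => h.KK_conj 0 hb s hs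
  norm1 := hat_normal fun b hb s hs => h.KK_conj 1 hb s hs
  E0 := by
    intro a ha
    obtain ⟨e, he, heE, rfl⟩ := mem_hat.1 ha
    exact mem_hat.2 ⟨e, he, h.E_KK 0 heE, rfl⟩
  E1 := by
    intro a ha
    obtain ⟨e, he, heE, rfl⟩ := mem_hat.1 ha
    exact mem_hat.2 ⟨e, he, h.E_KK 1 heE, rfl⟩
  inf := by
    rintro a ⟨ha, ha'⟩
    obtain ⟨b, hb, rfl⟩ := mk_surj a
    have h0 : b ∈ KK C Q z y τ 0 := (mk_mem_hat (four_KK h 0) hb).1 ha
    have h1 : b ∈ KK C Q z y τ 1 := (mk_mem_hat (four_KK h 1) hb).1 ha'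
    rw [mk_mem_hat h.fourE]
    exact h.Einf b h0.1 ((h.mem_K1_iff.1 h1).1)
  sq0 := by
    intro a ha
    obtain ⟨b, hb, hbS, rfl⟩ := mem_hat.1 ha
    rw [mk_mul, mk_eq_one]
    exact K0_sq h hbS
  comm1 := by
    intro r hr e he
    obtain ⟨b, hb, hbS, rfl⟩ := mem_hat.1 hr
    obtain ⟨c, hc, hcS, rfl⟩ := mem_hat.1 he
    rw [mk_comm_iff]
    rcases h.comm_K1 b hbS c (h.E_KK 1 hcS) with e | e <;> rw [e]
    · exact Subgroup.one_mem _
    · exact h.y_four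
  cent := by
    intro a ha
    obtain ⟨b, hb, rfl⟩ := mk_surj a
    obtain ⟨r, hr, s, hs, e⟩ := h.cent' hb (by
      intro e he
      have h1 := ha (mk e (h.EB he)) (mem_hat.2 ⟨e, _, he, rfl⟩)
      exact (mk_comm_iff hb (h.EB he)).1 h1)
    exact ⟨mk r (h.KK_le 0 hr), mem_hat.2 ⟨r, _, hr, rfl⟩, mk s (h.KK_le 1 hs),
      mem_hat.2 ⟨s, _, hs, rfl⟩, by rw [mk_mul]; subst e; rfl⟩
  sep0 := by
    intro a ha hc
    obtain ⟨b, hb, hbS, rfl⟩ := mem_hat.1 ha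
    rw [mk_mem_hat h.fourE]
    apply h.sep0' hbS
    intro s hs
    exact (mk_comm_iff hb (h.KK_le 1 hs)).1 (hc _ (mem_hat.2 ⟨s, h.KK_le 1 hs, hs, rfl⟩))
  sep1 := by
    intro a ha hc
    obtain ⟨b, hb, hbS, rfl⟩ := mem_hat.1 ha
    rw [mk_mem_hat h.fourE]
    apply h.sep1' hbS
    intro s hs
    exact (mk_comm_iff (h.KK_le 0 hs) hb).1 (hc _ (mem_hat.2 ⟨s, h.KK_le 0 hs, hs, rfl⟩))
  x23 := by
    rw [mk_pow, mk_eq_one, h.x23]
    exact Subgroup.one_mem _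
  ux := by
    obtain ⟨r, hr, e⟩ := h.ux
    have hrB : r ∈ cent2 C z y := by
      have : r = u * x * (x ^ 2 * u)⁻¹ := by rw [e]; group
      rw [this]
      exact Subgroup.mul_mem _ (Subgroup.mul_mem _ h.uB h.xB) (Subgroup.inv_mem _
        (Subgroup.mul_mem _ (Subgroup.pow_mem _ h.xB 2) h.uB))
    refine ⟨mk r hrB, Subgroup.mem_sup_left (mem_hat.2 ⟨r, hrB, ⟨hr, hrB⟩, rfl⟩), ?_⟩
    rw [mk_mul, mk_pow, mk_mul, mk_mul]
    congr 1
  e₀_mem := mem_hat.2 ⟨e₁, _, h.e₁E, rfl⟩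
  q₀_mem := mem_hat.2 ⟨a₁, _, h.mem_K0.2 ⟨h.a₁Q, h.a₁y⟩, rfl⟩
  genE := by
    intro a ha
    obtain ⟨e, he, heE, rfl⟩ := mem_hat.1 ha
    have key : ∀ t, t ∈ Subgroup.closure
        ((Set.range fun n : ℕ => x ^ n * e₁ * (x ^ n)⁻¹) ∪ (four z y : Set G)) →
        ∃ ht : t ∈ cent2 C z y, mk t ht ∈ Subgroup.closure (Set.range fun n : ℕ =>
          mk x h.xB ^ n * mk e₁ (h.EB h.e₁E) * (mk x h.xB ^ n)⁻¹) := by
      intro t ht
      induction ht using Subgroup.closure_induction with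
      | mem t ht =>
        rcases ht with ⟨n, rfl⟩ | ht
        · refine ⟨Subgroup.mul_mem _ (Subgroup.mul_mem _ (Subgroup.pow_mem _ h.xB n)
            (h.EB h.e₁E)) (Subgroup.inv_mem _ (Subgroup.pow_mem _ h.xB n)), ?_⟩
          exact Subgroup.subset_closure ⟨n, rfl⟩
        · refine ⟨h.fourB ht, ?_⟩
          rw [(mk_eq_one (h.fourB ht)).2 ht]
          exact Subgroup.one_mem _
      | one => exact ⟨Subgroup.one_mem _, Subgroup.one_mem _⟩
      | mul a b _ _ ha hb =>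
        obtain ⟨ha, ha'⟩ := ha
        obtain ⟨hb, hb'⟩ := hb
        exact ⟨Subgroup.mul_mem _ ha hb, Subgroup.mul_mem _ ha' hb'⟩
      | inv a _ ha =>
        obtain ⟨ha, ha'⟩ := ha
        exact ⟨Subgroup.inv_mem _ ha, Subgroup.inv_mem _ ha'⟩
    obtain ⟨_, h2⟩ := key e (h.genE e heE)
    exact h2
  gen0 := by
    intro a ha
    obtain ⟨e, he, heE, rfl⟩ := mem_hat.1 ha
    have hK := h.mem_K0.1 heE
    have key : ∀ t, t ∈ Subgroup.closure
        ((Set.range fun n : ℕ => x ^ n * a₁ * (x ^ n)⁻¹) ∪ (E : Set G)) →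
        ∃ ht : t ∈ cent2 C z y, mk t ht ∈ Subgroup.closure ((Set.range fun n : ℕ =>
          mk x h.xB ^ n * mk a₁ (h.mem_K0.2 ⟨h.a₁Q, h.a₁y⟩).2 * (mk x h.xB ^ n)⁻¹) ∪
            (hat C z y E : Set (Bq C z y))) := by
      intro t ht
      induction ht using Subgroup.closure_induction with
      | mem t ht =>
        rcases ht with ⟨n, rfl⟩ | ht
        · refine ⟨Subgroup.mul_mem _ (Subgroup.mul_mem _ (Subgroup.pow_mem _ h.xB n)
            (h.mem_K0.2 ⟨h.a₁Q, h.a₁y⟩).2) (Subgroup.inv_mem _ (Subgroup.pow_mem _ h.xB n)), ?_⟩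
          exact Subgroup.subset_closure (Or.inl ⟨n, rfl⟩)
        · exact ⟨h.EB ht, Subgroup.subset_closure (Or.inr (mem_hat.2 ⟨t, _, ht, rfl⟩))⟩
      | one => exact ⟨Subgroup.one_mem _, Subgroup.one_mem _⟩
      | mul a b _ _ ha hb =>
        obtain ⟨ha, ha'⟩ := ha
        obtain ⟨hb, hb'⟩ := hb
        exact ⟨Subgroup.mul_mem _ ha hb, Subgroup.mul_mem _ ha' hb'⟩
      | inv a _ ha =>
        obtain ⟨ha, ha'⟩ := ha
        exact ⟨Subgroup.inv_mem _ ha, Subgroup.inv_mem _ ha'⟩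
    obtain ⟨_, h2⟩ := key e (h.gen0 e hK.1 hK.2)
    exact h2
  qrE := by
    intro a ha
    obtain ⟨e, he, heE, rfl⟩ := mem_hat.1 ha
    obtain ⟨hp, h1⟩ := mk_prod x e h.xB he
    rw [h1, mk_eq]
    exact h.qrE e heE
  qr0 := by
    intro a ha
    obtain ⟨e, he, heE, rfl⟩ := mem_hat.1 ha
    obtain ⟨hp, h1⟩ := mk_prod x e h.xB he
    rw [h1, mk_mem_hat h.fourE]
    have hK := h.mem_K0.1 heE
    exact h.qr0 e hK.1 hK.2

/-- Conjugation by `τ` on `B`. -/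
def conjB : ↥(cent2 C z y) ≃* ↥(cent2 C z y) where
  toFun b := ⟨τ * b * τ⁻¹, h.B_τ b.2⟩
  invFun b := ⟨τ⁻¹ * b * τ, h.B_τ' b.2⟩
  left_inv b := Subtype.ext (by simp [mul_assoc])
  right_inv b := Subtype.ext (by simp [mul_assoc])
  map_mul' a b := Subtype.ext (by simp)

/-- Conjugation by `τ` on `B / V`. -/
def tauHat : Bq C z y ≃* Bq C z y :=
  QuotientGroup.congr _ _ (conjB h) (by
    ext ⟨b, hb⟩
    rw [Subgroup.mem_map, Subgroup.mem_subgroupOf]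
    constructor
    · rintro ⟨⟨c, hc⟩, hc', e⟩
      rw [Subgroup.mem_subgroupOf] at hc'
      have e' : τ * c * τ⁻¹ = b := congrArg Subtype.val e
      show b ∈ four z y
      rw [← e']
      exact h.four_τ hc'
    · intro hb'
      refine ⟨⟨τ⁻¹ * b * τ, h.B_τ' hb⟩, ?_, ?_⟩
      · show τ⁻¹ * b * τ ∈ four z y
        exact h.four_τ' hb'
      · exact (conjB h).apply_symm_apply ⟨b, hb⟩)

theorem tauHat_mk {b : G} (hb : b ∈ cent2 C z y) :
    tauHat h (mk b hb) = mk (τ * b * τ⁻¹) (h.B_τ hb) := rfl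

theorem tauHat_three (a : Bq C z y) : tauHat h (tauHat h (tauHat h a)) = a := by
  obtain ⟨b, hb, rfl⟩ := mk_surj a
  rw [tauHat_mk, tauHat_mk, tauHat_mk]
  congr 1
  show τ * (τ * (τ * b * τ⁻¹) * τ⁻¹) * τ⁻¹ = b
  have : τ * (τ * (τ * b * τ⁻¹) * τ⁻¹) * τ⁻¹ = (τ * τ * τ) * b * (τ * τ * τ)⁻¹ := by group
  rw [this, h.τ3]; group

theorem tauHat_x : tauHat h (mk x h.xB) = mk x h.xB := by
  rw [tauHat_mk]
  congr 1
  show τ * x * τ⁻¹ = x
  rw [h.τx]; group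

theorem tauHat_hat {n : ℕ} {a : Bq C z y} (ha : a ∈ hat C z y (KK C Q z y τ n)) :
    tauHat h a ∈ hat C z y (KK C Q z y τ (n + 1)) := by
  obtain ⟨b, hb, hbS, rfl⟩ := mem_hat.1 ha
  exact mem_hat.2 ⟨_, _, KK_τ hbS, rfl⟩

theorem tauHat_hat2 {a : Bq C z y} (ha : a ∈ hat C z y (KK C Q z y τ 2)) :
    tauHat h a ∈ hat C z y (KK C Q z y τ 0) := by
  obtain ⟨b, hb, hbS, rfl⟩ := mem_hat.1 ha
  exact mem_hat.2 ⟨_, _, h.KK_three (KK_τ hbS), rfl⟩

theorem tauHat_E {a : Bq C z y} (ha : a ∈ hat C z y E) : tauHat h a ∈ hat C z y E := by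
  obtain ⟨b, hb, hbS, rfl⟩ := mem_hat.1 ha
  exact mem_hat.2 ⟨_, _, h.Eτ b hbS, rfl⟩

end Cfsg.Agent.H861.RQuot
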