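import Cfsg.Agent.MonsterU.AmalSide

/-!
The facts on one group with a large extraspecial subgroup used for the uniqueness of the
amalgam, and the quotient `B / V` of the centraliser of the four group.
-/

set_option autoImplicit false

namespace Cfsg.Agent.H861.RSide

open Cfsg.Agent.MonsterU.AmalPin
open Cfsg.Agent.MonsterU.AmalSide (four NoTwo)

variable {G : Type*} [Group G]

/-- The centraliser of `z` and `y` in `C`. -/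
def cent2 (C : Subgroup G) (z y : G) : Subgroup G :=
  C ⊓ (Subgroup.centralizer {z} ⊓ Subgroup.centralizer {y})

theorem mem_cent2 {C : Subgroup G} {z y b : G} :
    b ∈ cent2 C z y ↔ b ∈ C ∧ b * z = z * b ∧ b * y = y * b := by
  rw [cent2, Subgroup.mem_inf, Subgroup.mem_inf, Subgroup.mem_centralizer_singleton_iff,
    Subgroup.mem_centralizer_singleton_iff]

/-- The facts on one group. -/
structure Side (C Q E : Subgroup G) (z y τ x u q₀ e₁ a₁ : G) : Prop where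
  Cz : ∀ c ∈ C, c * z = z * c
  QC : Q ≤ C
  z_sq : z * z = 1
  z_ne : z ≠ 1
  y_sq : y * y = 1
  y_ne : y ≠ 1
  y_ne_z : y ≠ z
  yQ : y ∈ Q
  zQ : z ∈ Q
  Qz : ∀ q ∈ Q, q * z = z * q
  Qn : ∀ c ∈ C, ∀ q ∈ Q, c * q * c⁻¹ ∈ Q
  Qsq : ∀ q ∈ Q, q * q = 1 ∨ q * q = z
  Qcomm : ∀ a ∈ Q, ∀ b ∈ Q, a * b * a⁻¹ * b⁻¹ = 1 ∨ a * b * a⁻¹ * b⁻¹ = z
  centQ : ∀ c ∈ C, (∀ q ∈ Q, c * q = q * c) → c = 1 ∨ c = z
  -- the element of order three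
  τ3 : τ * τ * τ = 1
  τz : τ * z * τ⁻¹ = y
  τy : τ * y * τ⁻¹ = z * y
  Bτ : ∀ b ∈ cent2 C z y, τ * b * τ⁻¹ ∈ cent2 C z y
  Bτ' : ∀ b ∈ cent2 C z y, τ⁻¹ * b * τ ∈ cent2 C z y
  -- the involution in `Q`
  q₀Q : q₀ ∈ Q
  q₀_sq : q₀ * q₀ = 1
  q₀y : q₀ * y * q₀⁻¹ = z * y
  q₀τ : q₀ * τ * q₀⁻¹ = τ⁻¹
  q₀x : q₀ * x = x * q₀
  -- the elements of orders 23 and 11
  xB : x ∈ cent2 C z y
  uB : u ∈ cent2 C z y
  x23 : x ^ 23 = 1
  τx : τ * x = x * τ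
  ux : ∃ r ∈ Q, u * x = r * x ^ 2 * u
  -- the subgroup `E`
  EQ : E ≤ Q
  En : ∀ b ∈ cent2 C z y, ∀ e ∈ E, b * e * b⁻¹ ∈ E
  zE : z ∈ E
  yE : y ∈ E
  Ey : ∀ e ∈ E, e * y = y * e
  Eab : ∀ e ∈ E, ∀ f ∈ E, e * f = f * e
  Eτ : ∀ e ∈ E, τ * e * τ⁻¹ ∈ E
  Eself : ∀ q ∈ Q, (∀ e ∈ E, q * e = e * q) → q ∈ E
  Einf : ∀ a ∈ Q, τ⁻¹ * a * τ ∈ Q → a ∈ E
  cent : ∀ b ∈ cent2 C z y, (∀ e ∈ E, b * e * b⁻¹ * e⁻¹ ∈ four z y) →
    ∃ r ∈ Q, ∃ s ∈ Q, s * y = y * s ∧ τ * s * τ⁻¹ * z = z * (τ * s * τ⁻¹) ∧ b = r * (τ * s * τ⁻¹)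
  sep0 : ∀ a ∈ Q, a * y = y * a →
    (∀ s ∈ Q, τ * s * τ⁻¹ ∈ cent2 C z y → a * (τ * s * τ⁻¹) * a⁻¹ * (τ * s * τ⁻¹)⁻¹ ∈ four z y) →
    a ∈ E
  sep1 : ∀ s ∈ Q, τ * s * τ⁻¹ ∈ cent2 C z y →
    (∀ a ∈ Q, a * y = y * a → a * (τ * s * τ⁻¹) * a⁻¹ * (τ * s * τ⁻¹)⁻¹ ∈ four z y) →
    τ * s * τ⁻¹ ∈ E
  e₁E : e₁ ∈ E
  genE : ∀ e ∈ E, e ∈ Subgroup.closure
    ((Set.range fun n : ℕ => x ^ n * e₁ * (x ^ n)⁻¹) ∪ (four z y : Set G))
  a₁Q : a₁ ∈ Q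
  a₁y : a₁ * y = y * a₁
  gen0 : ∀ a ∈ Q, a * y = y * a → a ∈ Subgroup.closure
    ((Set.range fun n : ℕ => x ^ n * a₁ * (x ^ n)⁻¹) ∪ (E : Set G))
  qrE : ∀ e ∈ E, qrProd x e * e⁻¹ ∈ four z y
  qr0 : ∀ a ∈ Q, a * y = y * a → qrProd x a ∈ E
  -- generation by commutators
  perf : NoTwo (cent2 C z y)
  comm0 : ∀ a ∈ Q, a * y = y * a → a ∈ Subgroup.closure
    {t | ∃ q ∈ Q, q * y = y * q ∧ ∃ b ∈ cent2 C z y, t = q * b * q⁻¹ * b⁻¹}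
  commQ : ∀ a ∈ Q, a ∈ Subgroup.closure
    {t | ∃ q ∈ Q, ∃ c ∈ C, t = q * c * q⁻¹ * c⁻¹}

namespace Side

variable {C Q E : Subgroup G} {z y τ x u q₀ e₁ a₁ : G} (h : Side C Q E z y τ x u q₀ e₁ a₁)
include h

theorem zy : z * y = y * z := (h.Qz y h.yQ).symm

theorem z_inv : z⁻¹ = z := inv_eq_of_mul_eq_one_left h.z_sq

theorem y_inv : y⁻¹ = y := inv_eq_of_mul_eq_one_left h.y_sq

theorem zy_sq : (z * y) * (z * y) = 1 := by
  have h1 : (z * y) * (z * y) = z * (y * z) * y := by group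
  rw [h1, ← h.zy]
  have h2 : z * (z * y) * y = (z * z) * (y * y) := by group
  rw [h2, h.z_sq, h.y_sq, one_mul]

theorem zy_inv : (z * y)⁻¹ = z * y := inv_eq_of_mul_eq_one_left h.zy_sq

theorem mem_four {v : G} : v ∈ four z y ↔ v = 1 ∨ v = z ∨ v = y ∨ v = z * y := by
  constructor
  · intro hv
    induction hv using Subgroup.closure_induction with
    | mem t ht =>
      rcases ht with rfl | ht
      · exact Or.inr (Or.inl rfl)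
      · rw [Set.mem_singleton_iff] at ht
        exact Or.inr (Or.inr (Or.inl ht))
    | one => exact Or.inl rfl
    | mul a b _ _ ha hb =>
      have e1 : z * (z * y) = y := by rw [← mul_assoc, h.z_sq, one_mul]
      have e2 : z * y * z = y := by rw [h.zy, mul_assoc, h.z_sq, mul_one]
      have e3 : y * (z * y) = z := by rw [h.zy, ← mul_assoc, h.y_sq, one_mul]
      have e4 : z * y * y = z := by rw [mul_assoc, h.y_sq, mul_one]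
      rcases ha with rfl | rfl | rfl | rfl <;> rcases hb with rfl | rfl | rfl | rfl <;>
        simp [h.z_sq, h.y_sq, h.zy_sq, e1, e2, e3, e4, ← h.zy]
    | inv a _ ha =>
      rcases ha with rfl | rfl | rfl | rfl
      · simp
      · simp [h.z_inv]
      · simp [h.y_inv]
      · right; right; right; exact h.zy_inv
  · rintro (rfl | rfl | rfl | rfl)
    · exact Subgroup.one_mem _
    · exact Subgroup.subset_closure (by simp)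
    · exact Subgroup.subset_closure (by simp)
    · exact Subgroup.mul_mem _ (Subgroup.subset_closure (by simp)) (Subgroup.subset_closure (by simp))

theorem z_four : z ∈ four z y := h.mem_four.2 (Or.inr (Or.inl rfl))

theorem y_four : y ∈ four z y := h.mem_four.2 (Or.inr (Or.inr (Or.inl rfl)))

theorem zy_four : z * y ∈ four z y := h.mem_four.2 (Or.inr (Or.inr (Or.inr rfl)))

theorem zyz : z * y * z⁻¹ = y := by rw [h.zy]; group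

theorem τzy : τ * (z * y) * τ⁻¹ = z := by
  have : τ * (z * y) * τ⁻¹ = (τ * z * τ⁻¹) * (τ * y * τ⁻¹) := by group
  rw [this, h.τz, h.τy, h.zy, ← mul_assoc, h.y_sq, one_mul]

theorem four_τ {v : G} (hv : v ∈ four z y) : τ * v * τ⁻¹ ∈ four z y := by
  rcases h.mem_four.1 hv with rfl | rfl | rfl | rfl
  · simp
  · rw [h.τz]; exact h.y_four
  · rw [h.τy]; exact h.zy_four
  · rw [h.τzy]; exact h.z_four

theorem τ_inv : τ⁻¹ = τ * τ := inv_eq_of_mul_eq_one_left h.τ3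

theorem four_τ' {v : G} (hv : v ∈ four z y) : τ⁻¹ * v * τ ∈ four z y := by
  have : τ⁻¹ * v * τ = τ * (τ * v * τ⁻¹) * τ⁻¹ := by
    have h1 : τ = τ⁻¹ * τ⁻¹ := by
      have : τ⁻¹ * τ⁻¹ = (τ * τ)⁻¹ := by group
      rw [this, ← h.τ_inv, inv_inv]
    calc τ⁻¹ * v * τ = (τ * τ) * v * (τ⁻¹ * τ⁻¹) := by rw [← h.τ_inv, ← h1]
      _ = _ := by group
  rw [this]
  exact h.four_τ (h.four_τ hv)

theorem mem_B_iff_four {b : G} : b ∈ cent2 C z y ↔ b ∈ C ∧ ∀ v ∈ four z y, b * v = v * b := by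
  rw [mem_cent2]
  constructor
  · rintro ⟨h0, h1, h2⟩
    refine ⟨h0, fun v hv => ?_⟩
    rcases h.mem_four.1 hv with rfl | rfl | rfl | rfl
    · simp
    · exact h1
    · exact h2
    · rw [← mul_assoc, h1, mul_assoc, h2, mul_assoc]
  · intro hb
    exact ⟨hb.1, hb.2 z h.z_four, hb.2 y h.y_four⟩

theorem B_τ {b : G} (hb : b ∈ cent2 C z y) : τ * b * τ⁻¹ ∈ cent2 C z y := h.Bτ b hb

theorem B_τ' {b : G} (hb : b ∈ cent2 C z y) : τ⁻¹ * b * τ ∈ cent2 C z y := h.Bτ' b hb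

theorem Eτ' : ∀ e ∈ E, τ⁻¹ * e * τ ∈ E := by
  intro e he
  have h1 : τ⁻¹ * e * τ = τ * (τ * e * τ⁻¹) * τ⁻¹ := by
    have h1 : τ = τ⁻¹ * τ⁻¹ := by
      have : τ⁻¹ * τ⁻¹ = (τ * τ)⁻¹ := by group
      rw [this, ← h.τ_inv, inv_inv]
    calc τ⁻¹ * e * τ = (τ * τ) * e * (τ⁻¹ * τ⁻¹) := by rw [← h.τ_inv, ← h1]
      _ = _ := by group
  rw [h1]
  exact h.Eτ _ (h.Eτ _ he)

theorem EB : E ≤ cent2 C z y := fun e he =>
  mem_cent2.2 ⟨h.QC (h.EQ he), h.Qz e (h.EQ he), h.Ey e he⟩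

theorem fourE : four z y ≤ E := by
  rw [four, Subgroup.closure_le]
  rintro t (rfl | ht)
  · exact h.zE
  · rw [Set.mem_singleton_iff] at ht; rw [ht]; exact h.yE

theorem fourB : four z y ≤ cent2 C z y := h.fourE.trans h.EB

/-- `Q ∩ B` -/
theorem mem_K0 {a : G} : a ∈ Q ⊓ cent2 C z y ↔ a ∈ Q ∧ a * y = y * a := by
  rw [Subgroup.mem_inf, mem_cent2]
  exact ⟨fun ⟨h1, _, _, h3⟩ => ⟨h1, h3⟩, fun ⟨h1, h2⟩ => ⟨h1, h.QC h1, h.Qz a h1, h2⟩⟩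

omit h in
/-- The three conjugates of `Q ∩ B`. -/
def KK (C Q : Subgroup G) (z y τ : G) : ℕ → Subgroup G
  | 0 => Q ⊓ cent2 C z y
  | n + 1 => (KK C Q z y τ n).map (MulAut.conj τ).toMonoidHom

omit h in
theorem mem_KK_succ {n : ℕ} {a : G} : a ∈ KK C Q z y τ (n + 1) ↔ τ⁻¹ * a * τ ∈ KK C Q z y τ n := by
  rw [KK, Subgroup.mem_map]
  constructor
  · rintro ⟨b, hb, rfl⟩
    have : τ⁻¹ * ((MulAut.conj τ).toMonoidHom b) * τ = b := by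
      show τ⁻¹ * (τ * b * τ⁻¹) * τ = b
      group
    rw [this]; exact hb
  · intro hb
    refine ⟨_, hb, ?_⟩
    show τ * (τ⁻¹ * a * τ) * τ⁻¹ = a
    group

omit h in
theorem KK_τ {n : ℕ} {a : G} (ha : a ∈ KK C Q z y τ n) : τ * a * τ⁻¹ ∈ KK C Q z y τ (n + 1) := by
  rw [mem_KK_succ]
  have : τ⁻¹ * (τ * a * τ⁻¹) * τ = a := by group
  rwa [this]

theorem KK_three {a : G} (ha : a ∈ KK C Q z y τ 3) : a ∈ KK C Q z y τ 0 := by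
  rw [mem_KK_succ, mem_KK_succ, mem_KK_succ] at ha
  have : τ⁻¹ * (τ⁻¹ * (τ⁻¹ * a * τ) * τ) * τ = a := by
    have h1 : τ⁻¹ * (τ⁻¹ * (τ⁻¹ * a * τ) * τ) * τ = (τ * τ * τ)⁻¹ * a * (τ * τ * τ) := by group
    rw [h1, h.τ3]; group
  rwa [this] at ha

theorem KK_le (n : ℕ) : KK C Q z y τ n ≤ cent2 C z y := by
  induction n with
  | zero => exact inf_le_right
  | succ n ih =>
    intro a ha
    rw [mem_KK_succ] at ha
    have h1 := h.B_τ (ih ha)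
    have : τ * (τ⁻¹ * a * τ) * τ⁻¹ = a := by group
    rwa [this] at h1

theorem E_KK (n : ℕ) : E ≤ KK C Q z y τ n := by
  induction n with
  | zero => exact le_inf h.EQ h.EB
  | succ n ih =>
    intro e he
    rw [mem_KK_succ]
    exact ih (h.Eτ' e he)

theorem KK_conj (n : ℕ) {b : G} (hb : b ∈ cent2 C z y) : ∀ a ∈ KK C Q z y τ n,
    b * a * b⁻¹ ∈ KK C Q z y τ n := by
  induction n generalizing b with
  | zero =>
    rintro a ⟨ha, ha'⟩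
    exact ⟨h.Qn b (mem_cent2.1 hb).1 a ha,
      Subgroup.mul_mem _ (Subgroup.mul_mem _ hb ha') (Subgroup.inv_mem _ hb)⟩
  | succ n ih =>
    intro a ha
    rw [mem_KK_succ] at ha ⊢
    have : τ⁻¹ * (b * a * b⁻¹) * τ = (τ⁻¹ * b * τ) * (τ⁻¹ * a * τ) * (τ⁻¹ * b * τ)⁻¹ := by group
    rw [this]
    exact ih (h.B_τ' hb) _ ha

/-- the central element of the `n`-th conjugate -/
theorem comm_KK (n : ℕ) : ∀ a ∈ KK C Q z y τ n, ∀ b ∈ KK C Q z y τ n,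
    a * b * a⁻¹ * b⁻¹ = 1 ∨ a * b * a⁻¹ * b⁻¹ = τ ^ n * z * (τ ^ n)⁻¹ := by
  induction n with
  | zero =>
    rintro a ⟨ha, -⟩ b ⟨hb, -⟩
    simpa using h.Qcomm a ha b hb
  | succ n ih =>
    intro a ha b hb
    rw [mem_KK_succ] at ha hb
    rcases ih _ ha _ hb with e | e
    · left
      have : a * b * a⁻¹ * b⁻¹ = τ * (τ⁻¹ * a * τ * (τ⁻¹ * b * τ) * (τ⁻¹ * a * τ)⁻¹ *
          (τ⁻¹ * b * τ)⁻¹) * τ⁻¹ := by group
      rw [this, e]; group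
    · right
      have : a * b * a⁻¹ * b⁻¹ = τ * (τ⁻¹ * a * τ * (τ⁻¹ * b * τ) * (τ⁻¹ * a * τ)⁻¹ *
          (τ⁻¹ * b * τ)⁻¹) * τ⁻¹ := by group
      rw [this, e, pow_succ']; group

theorem comm_K0 : ∀ a ∈ KK C Q z y τ 0, ∀ b ∈ KK C Q z y τ 0,
    a * b * a⁻¹ * b⁻¹ = 1 ∨ a * b * a⁻¹ * b⁻¹ = z := by
  intro a ha b hb
  simpa using h.comm_KK 0 a ha b hb

theorem comm_K1 : ∀ a ∈ KK C Q z y τ 1, ∀ b ∈ KK C Q z y τ 1,
    a * b * a⁻¹ * b⁻¹ = 1 ∨ a * b * a⁻¹ * b⁻¹ = y := by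
  intro a ha b hb
  have := h.comm_KK 1 a ha b hb
  rwa [pow_one, h.τz] at this

theorem comm_K2 : ∀ a ∈ KK C Q z y τ 2, ∀ b ∈ KK C Q z y τ 2,
    a * b * a⁻¹ * b⁻¹ = 1 ∨ a * b * a⁻¹ * b⁻¹ = z * y := by
  intro a ha b hb
  have := h.comm_KK 2 a ha b hb
  have e : τ ^ 2 * z * (τ ^ 2)⁻¹ = z * y := by
    have : τ ^ 2 * z * (τ ^ 2)⁻¹ = τ * (τ * z * τ⁻¹) * τ⁻¹ := by rw [pow_two]; group
    rw [this, h.τz, h.τy]
  rwa [e] at this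

/-- `B` is the product with respect to the action on `E`. -/
theorem cent' {b : G} (hb : b ∈ cent2 C z y) (hE : ∀ e ∈ E, b * e * b⁻¹ * e⁻¹ ∈ four z y) :
    ∃ r ∈ KK C Q z y τ 0, ∃ s ∈ KK C Q z y τ 1, b = r * s := by
  obtain ⟨r, hr, s, hs, hsy, hsz, e⟩ := h.cent b hb hE
  have hs1 : s ∈ KK C Q z y τ 0 := h.mem_K0.2 ⟨hs, hsy⟩
  have hs2 : τ * s * τ⁻¹ ∈ KK C Q z y τ 1 := KK_τ hs1
  have hr' : r ∈ cent2 C z y := by
    have : r = b * (τ * s * τ⁻¹)⁻¹ := by rw [e]; group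
    rw [this]
    exact Subgroup.mul_mem _ hb (Subgroup.inv_mem _ (h.KK_le 1 hs2))
  exact ⟨r, ⟨hr, hr'⟩, _, hs2, e⟩

theorem mem_K1_iff {s : G} : s ∈ KK C Q z y τ 1 ↔ τ⁻¹ * s * τ ∈ Q ∧ s ∈ cent2 C z y := by
  constructor
  · intro hs
    exact ⟨(mem_KK_succ.1 hs).1, h.KK_le 1 hs⟩
  · rintro ⟨h1, h2⟩
    rw [mem_KK_succ]
    exact ⟨h1, h.B_τ' h2⟩

theorem sep0' {a : G} (ha : a ∈ KK C Q z y τ 0)
    (hc : ∀ s ∈ KK C Q z y τ 1, a * s * a⁻¹ * s⁻¹ ∈ four z y) : a ∈ E := by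
  obtain ⟨h1, h2⟩ := h.mem_K0.1 ha
  apply h.sep0 a h1 h2
  intro s hs hsB
  apply hc
  rw [h.mem_K1_iff]
  refine ⟨?_, hsB⟩
  have : τ⁻¹ * (τ * s * τ⁻¹) * τ = s := by group
  rwa [this]

theorem sep1' {s : G} (hs : s ∈ KK C Q z y τ 1)
    (hc : ∀ a ∈ KK C Q z y τ 0, a * s * a⁻¹ * s⁻¹ ∈ four z y) : s ∈ E := by
  obtain ⟨h1, h2⟩ := h.mem_K1_iff.1 hs
  have e : τ * (τ⁻¹ * s * τ) * τ⁻¹ = s := by group
  have key := h.sep1 (τ⁻¹ * s * τ) h1 (by rw [e]; exact h2) (by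
    intro a ha ha'
    rw [e]
    exact hc a (h.mem_K0.2 ⟨ha, ha'⟩))
  rwa [e] at key

/-- Characterisation of the three subgroups by the action on `E`, first case. -/
theorem mem_K0_of {b : G} (hb : b ∈ cent2 C z y)
    (hE : ∀ e ∈ E, b * e * b⁻¹ * e⁻¹ = 1 ∨ b * e * b⁻¹ * e⁻¹ = z) : b ∈ KK C Q z y τ 0 := by
  obtain ⟨r, hr, s, hs, rfl⟩ := h.cent' hb (by
    intro e he
    rcases hE e he with e1 | e1 <;> rw [e1]
    · exact Subgroup.one_mem _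
    · exact h.z_four)
  -- `s` centralises `E`
  have hs' : ∀ e ∈ E, s * e * s⁻¹ * e⁻¹ = 1 := by
    intro e he
    have h1 := h.comm_K1 s hs e (h.E_KK 1 he)
    rcases h1 with h1 | h1
    · exact h1
    · exfalso
      have h2 := hE e he
      have h3 : r * s * e * (r * s)⁻¹ * e⁻¹ = r * (s * e * s⁻¹ * e⁻¹) * r⁻¹ * (r * e * r⁻¹ * e⁻¹) := by
        group
      have h4 := h.comm_K0 r hr e (h.E_KK 0 he)
      have h5 : r * y * r⁻¹ = y := by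
        rw [(h.mem_K0.1 hr).2]; group
      rw [h3, h1, h5] at h2
      rcases h4 with h4 | h4 <;> rw [h4] at h2
      · rw [mul_one] at h2
        rcases h2 with h2 | h2
        · exact h.y_ne h2
        · exact h.y_ne_z h2
      · rcases h2 with h2 | h2
        · have : y = z := by
            have := congrArg (· * z) h2
            simp only [mul_assoc, h.z_sq, mul_one, one_mul] at this
            exact this
          exact h.y_ne_z this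
        · have : y = 1 := mul_eq_right.1 h2
          exact h.y_ne this
  have h6 : s ∈ E := by
    -- `s` is in the conjugate of `Q`, transport by `τ`
    have h7 : τ⁻¹ * s * τ ∈ E := by
      apply h.Eself _ (h.mem_K1_iff.1 hs).1
      intro e he
      have h8 := hs' _ (h.Eτ e he)
      have h9 : s * (τ * e * τ⁻¹) = (τ * e * τ⁻¹) * s := by
        rw [mul_assoc (s * (τ * e * τ⁻¹)) s⁻¹, ← mul_inv_rev, mul_inv_eq_one] at h8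
        exact h8
      calc τ⁻¹ * s * τ * e = τ⁻¹ * (s * (τ * e * τ⁻¹)) * τ := by group
        _ = τ⁻¹ * ((τ * e * τ⁻¹) * s) * τ := by rw [h9]
        _ = e * (τ⁻¹ * s * τ) := by group
    have := h.Eτ _ h7
    have e : τ * (τ⁻¹ * s * τ) * τ⁻¹ = s := by group
    rwa [e] at this
  exact Subgroup.mul_mem _ hr (h.E_KK 0 h6)

theorem K0_act {b : G} (hb : b ∈ KK C Q z y τ 0) :
    ∀ e ∈ E, b * e * b⁻¹ * e⁻¹ = 1 ∨ b * e * b⁻¹ * e⁻¹ = z :=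
  fun e he => h.comm_K0 b hb e (h.E_KK 0 he)

theorem K1_act {b : G} (hb : b ∈ KK C Q z y τ 1) :
    ∀ e ∈ E, b * e * b⁻¹ * e⁻¹ = 1 ∨ b * e * b⁻¹ * e⁻¹ = y :=
  fun e he => h.comm_K1 b hb e (h.E_KK 1 he)

theorem K2_act {b : G} (hb : b ∈ KK C Q z y τ 2) :
    ∀ e ∈ E, b * e * b⁻¹ * e⁻¹ = 1 ∨ b * e * b⁻¹ * e⁻¹ = z * y :=
  fun e he => h.comm_K2 b hb e (h.E_KK 2 he)

theorem mem_K1_of {b : G} (hb : b ∈ cent2 C z y)
    (hE : ∀ e ∈ E, b * e * b⁻¹ * e⁻¹ = 1 ∨ b * e * b⁻¹ * e⁻¹ = y) : b ∈ KK C Q z y τ 1 := by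
  rw [mem_KK_succ]
  apply h.mem_K0_of (h.B_τ' hb)
  intro e he
  have h1 := hE _ (h.Eτ e he)
  have h2 : τ⁻¹ * b * τ * e * (τ⁻¹ * b * τ)⁻¹ * e⁻¹ =
      τ⁻¹ * (b * (τ * e * τ⁻¹) * b⁻¹ * (τ * e * τ⁻¹)⁻¹) * τ := by group
  rw [h2]
  rcases h1 with h1 | h1 <;> rw [h1]
  · left; group
  · right; rw [← h.τz]; group

theorem mem_K2_of {b : G} (hb : b ∈ cent2 C z y)
    (hE : ∀ e ∈ E, b * e * b⁻¹ * e⁻¹ = 1 ∨ b * e * b⁻¹ * e⁻¹ = z * y) : b ∈ KK C Q z y τ 2 := by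
  rw [mem_KK_succ]
  apply h.mem_K1_of (h.B_τ' hb)
  intro e he
  have h1 := hE _ (h.Eτ e he)
  have h2 : τ⁻¹ * b * τ * e * (τ⁻¹ * b * τ)⁻¹ * e⁻¹ =
      τ⁻¹ * (b * (τ * e * τ⁻¹) * b⁻¹ * (τ * e * τ⁻¹)⁻¹) * τ := by group
  rw [h2]
  rcases h1 with h1 | h1 <;> rw [h1]
  · left; group
  · right; rw [← h.τy]; group

end Side

end Cfsg.Agent.H861.RSide
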