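import Cfsg.Agent.H861.RElts

/-!
# The facts on one group from a relative chart
-/

set_option autoImplicit false

open Cfsg

namespace Cfsg.Agent.H861.RSideOf

open Cfsg.Agent.SporadicA
open Cfsg.Agent.SporadicA.Co1Simple
open Cfsg.Agent.MonsterU
open Cfsg.Agent.MonsterU.Lam2 (L2 IsType)
open Cfsg.Agent.MonsterU.CoFrameL2
open Cfsg.Agent.MonsterU.CoFrameIrr
open Cfsg.Agent.MonsterU.AmalSide (four)
open Cfsg.Agent.H861.RSide (cent2 mem_cent2 Side)
open Cfsg.Agent.H861.RCh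
open Cfsg.Agent.H861.RElts (Nrm)
open Cfsg.Spor (Co1)

variable {G : Type*} [Group G] {C N Q : Subgroup G} {z : G} {eta : G → L2} {pi : C →* Co1}

/-- **The facts on one group.** -/
theorem exists_side (h : Chart C Q z eta pi) {y : G} (hyQ : y ∈ Q) (hy : eta y = f0)
    (hN : Nrm C N Q z y) {t : G} (ht : t ∈ N) (htz : t * z * t⁻¹ = y) (hty : t * y * t⁻¹ = z * y) :
    ∃ (τ x u q₀ e₁ a₁ : G), Side C Q (RGen.EE h) z y τ x u q₀ e₁ a₁ ∧
      (∀ c : C, (c : G) = x → pi c = X) ∧ τ ∈ N := by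
  obtain ⟨x, u, q₀, τ, hx, hxB, hx23, huB, hux, hq, hqq, hqy, hqx, hτ3, hτz, hτy, hτx, hqτ, hτN⟩ :=
    RElts.exists_elts h hyQ hy hN ht htz hty
  obtain ⟨e₁, he₁⟩ := RGen.exists_e₁ h
  obtain ⟨a₁, ha₁⟩ := RGen.exists_a₁ h
  have hL := h.large
  have hB : ∀ b ∈ cent2 C z y, τ * b * τ⁻¹ ∈ cent2 C z y := fun b hb => hN.conj_B hτN hb
  have hB' : ∀ b ∈ cent2 C z y, τ⁻¹ * b * τ ∈ cent2 C z y := fun b hb => by
    have := hN.conj_B (N.inv_mem hτN) hb
    rwa [inv_inv] at this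
  have hx' : pi ⟨(x : G), x.2⟩ = X := hx
  refine ⟨τ, x, u, q₀, e₁, a₁, ?_, fun c hc => ?_, hτN⟩
  · exact
      { Cz := h.Cz
        QC := h.QC
        z_sq := hL.z_sq
        z_ne := hL.z_ne
        y_sq := RPerf.y_sq h hyQ hy
        y_ne := RPerf.y_ne h hyQ hy
        y_ne_z := RPerf.y_ne_z h hy
        yQ := hyQ
        zQ := hL.z_mem
        Qz := hL.comm_z
        Qn := hL.conj_mem
        Qsq := hL.sq
        Qcomm := fun a ha b hb => RInf.comm_Q' h hyQ hy hτz hτy hB hB' ha hb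
        centQ := fun c hc hq => hL.cent c (hL.self c hc hq) hq
        τ3 := hτ3
        τz := hτz
        τy := hτy
        Bτ := hB
        Bτ' := hB'
        q₀Q := hq
        q₀_sq := hqq
        q₀y := hqy
        q₀τ := hqτ
        q₀x := hqx
        xB := hxB
        uB := huB
        x23 := hx23
        τx := hτx
        ux := hux
        EQ := RGen.EQ h
        En := RGen.En h hyQ hy
        zE := RGen.zE h
        yE := RGen.yE h hyQ hy
        Ey := RGen.Ey h hyQ hy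
        Eab := RGen.Eab h
        Eτ := RInf.Eτ h hyQ hy hτz hτy hB hB'
        Eself := RGen.Eself h
        Einf := RInf.Einf h hyQ hy hτz hτy hB hB'
        cent := RInf.cent h hyQ hy hτz hτy hB hB'
        sep0 := RInf.sep0 h hyQ hy hτz hτy hB hB'
        sep1 := RInf.sep1 h hyQ hy hτz hτy hB hB'
        e₁E := ⟨he₁.1, he₁.2.1⟩
        genE := RGen.genE h hyQ hy x.2 hx' he₁.1 he₁.2.1 he₁.2.2
        a₁Q := ha₁.1
        a₁y := (RGen.comm_y h hyQ hy ha₁.1).2 ha₁.2.1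
        gen0 := RGen.gen0 h hyQ hy x.2 hx' ha₁.1 ha₁.2.1 ha₁.2.2
        qrE := RGen.qrE h hyQ hy x.2 hx'
        qr0 := RGen.qr0 h hyQ hy x.2 hx'
        perf := RPerf.perf h hyQ hy
        comm0 := RPerf.comm0 h hyQ hy
        commQ := RPerf.commQ h hyQ hy }
  · have : c = x := Subtype.ext hc
    rw [this]; exact hx

end Cfsg.Agent.H861.RSideOf
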