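import Cfsg.Agent.H861.RZ
import Cfsg.Agent.H861.RElts

/-!
# The four group `V = Z(O_2(N))`
-/

set_option autoImplicit false

open Cfsg

namespace Cfsg.Agent.H861.RV

open Cfsg.Agent.MonsterU.Lam2 (L2 bf)
open Cfsg.Agent.MonsterU.CoFrameL2 (f0 f0_ne mem_W1 W1 W12 W23 W1_le_W12 W12_le_W23 f0_mem_W1 smul_f0
  mem_F_iff mem_W1_of_E mem_W12_of_E' E_eq_one_of_W12 E_sub_mem_W1 E_sub_mem_W12 mem_W23_iff_bf F_mem_W1
  F_mem_W12 F_mem_W23)
open Cfsg.Agent.MonsterU.CoFrameIrr (X card_W1 card_W12 card_W23 uniserial fix_E irr_E irr_W12 irr_W23 X_mem_F)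
open Cfsg.Agent.MonsterU.CoFrameF (F card_F E_le_F)
open Cfsg.Agent.MonsterU.AmalSide (four)
open Cfsg.Agent.CoOneType.CoOneE (pr E card_E)
open Cfsg.Spor (Co1)
open Cfsg.Agent.H861.RUtil
open Cfsg.Agent.H861.RN
open Cfsg.Agent.H861.RM
open Cfsg.Agent.H861.RZ
open Cfsg.Agent.H861.RGen (pre pre_W1 mem_pre comm_y pre_le)
open Cfsg.Agent.H861.RSide (cent2 mem_cent2)

/-- a subgroup such that two elements outside differ by an element has index at most 2 -/
theorem index_le_two {K : Type*} [Group K] {T : Subgroup K} (h : ∀ a b : K, a ∉ T → b ∉ T → a⁻¹ * b ∈ T) :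
    T.index ≤ 2 := by
  classical
  have h1 : Nat.card (K ⧸ T) ≤ Nat.card Bool := by
    refine Nat.card_le_card_of_injective (fun q : K ⧸ T => decide (q = QuotientGroup.mk 1)) ?_
    intro p q hpq
    obtain ⟨a, rfl⟩ := QuotientGroup.mk_surjective p
    obtain ⟨b, rfl⟩ := QuotientGroup.mk_surjective q
    have hpq' : decide ((QuotientGroup.mk a : K ⧸ T) = QuotientGroup.mk 1) =
      decide ((QuotientGroup.mk b : K ⧸ T) = QuotientGroup.mk 1) := hpq
    have hm : ∀ c : K, (QuotientGroup.mk c : K ⧸ T) = QuotientGroup.mk 1 ↔ c ∈ T := by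
      intro c
      rw [QuotientGroup.eq, mul_one, inv_mem_iff]
    rw [decide_eq_decide, hm, hm] at hpq'
    by_cases ha : a ∈ T
    · rw [(hm a).2 ha, (hm b).2 (hpq'.1 ha)]
    · exact QuotientGroup.eq.2 (h a b ha (fun hb => ha (hpq'.2 hb)))
  rw [Nat.card_eq_fintype_card (α := Bool), Fintype.card_bool] at h1
  exact h1

/-- `W23^⊥ = W1` -/
theorem mem_W1_of_bf {x : L2} (h : ∀ y ∈ W23, bf x y = 0) : x ∈ W1 := by
  let S : AddSubgroup L2 :=
    { carrier := {x | ∀ y ∈ W23, bf x y = 0}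
      zero_mem' := fun y _ => by rw [MonsterU.Lam2.bf_zero_left]
      add_mem' := fun {a b} ha hb y hy => by rw [MonsterU.Lam2.bf_add_left, ha y hy, hb y hy, add_zero]
      neg_mem' := fun {a} ha y hy => by rw [MonsterU.Lam2.neg_eq]; exact ha y hy }
  have hS12 : S ≤ W12 := fun x hx => MonsterU.AmalGen.mem_W12_of_bf fun y hy => hx y (W12_le_W23 hy)
  have h1S : W1 ≤ S := by
    intro x hx y hy
    rcases (mem_W1 x).1 hx with rfl | rfl
    · rw [MonsterU.Lam2.bf_zero_left]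
    · have h2 := (mem_W23_iff_bf y).1 hy
      rw [MonsterU.Lam2.bf_comm]; exact h2
  have hinv : ∀ x ∈ S, X • x ∈ S := by
    intro x hx y hy
    have h2 := hx (X⁻¹ • y) (F_mem_W23 (F.inv_mem X_mem_F) hy)
    rw [← MonsterU.Lam2.bf_smul1 X, smul_inv_smul] at h2
    exact h2
  rcases irr_W12 S h1S hS12 hinv with h2 | h2
  · rw [← h2]; exact h
  · exfalso
    have h3 : W23 ≤ W12 := by
      intro x hx
      apply MonsterU.AmalGen.mem_W12_of_bf
      intro y hy
      rw [← h2] at hy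
      rw [MonsterU.Lam2.bf_comm]
      exact hy x hx
    have h4 : Nat.card W23 ∣ Nat.card W12 := AddSubgroup.card_dvd_of_le h3
    rw [card_W12, card_W23] at h4
    norm_num at h4

variable {G : Type*} [Group G] {C N U Q : Subgroup G} {z : G} {eta : G → L2} {pi : C →* Co1}
  {φ : N →* Equiv.Perm (Fin 3) × M24} {f u : G} (H : NData C N U Q z eta pi φ f u)

include H

section

variable {y : G} (hyQ : y ∈ Q) (hy : eta y = f0)

include hyQ hy

theorem conj_y {x : G} (hxC : x ∈ C) (hF : pi ⟨x, hxC⟩ ∈ F) : x * y * x⁻¹ = y ∨ x * y * x⁻¹ = y * z := by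
  have h1 : eta (x * y * x⁻¹) = f0 := by
    rw [H.chart.eta_conj ⟨x, hxC⟩ y hyQ, hy]; exact smul_f0 hF
  exact (H.chart.eta_eq (H.chart.large.conj_mem x hxC y hyQ) hyQ).1 (h1.trans hy.symm)

/-- two elements moving `y` differ by an element fixing `y` -/
theorem diff {a b : G} (haC : a ∈ C) (ha : pi ⟨a, haC⟩ ∈ F) (ha' : a * y ≠ y * a) (hbC : b ∈ C)
    (hb : pi ⟨b, hbC⟩ ∈ F) (hb' : b * y ≠ y * b) : (a⁻¹ * b) * y = y * (a⁻¹ * b) := by
  have h1 : a * y * a⁻¹ = y * z := by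
    rcases conj_y H hyQ hy haC ha with h | h
    · exact absurd (mul_inv_eq_iff_eq_mul.1 h) ha'
    · exact h
  have h2 : b * y * b⁻¹ = y * z := by
    rcases conj_y H hyQ hy hbC hb with h | h
    · exact absurd (mul_inv_eq_iff_eq_mul.1 h) hb'
    · exact h
  have h3 : a * y * a⁻¹ = b * y * b⁻¹ := h1.trans h2.symm
  calc (a⁻¹ * b) * y = a⁻¹ * (b * y * b⁻¹) * b := by group
    _ = a⁻¹ * (a * y * a⁻¹) * b := by rw [h3]
    _ = y * (a⁻¹ * b) := by group

theorem uy : u * y = y * u := by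
  have h1 : u ^ 2 ∈ Subgroup.centralizer ({y} : Set G) := by
    rw [Subgroup.mem_centralizer_singleton_iff, pow_two]
    rcases conj_y H hyQ hy H.uC (by rw [H.uX]; exact X_mem_F) with h | h
    · have h2 := mul_inv_eq_iff_eq_mul.1 h
      calc u * u * y = u * (u * y) := by group
        _ = u * (y * u) := by rw [h2]
        _ = (u * y) * u := by group
        _ = y * u * u := by rw [h2]
        _ = y * (u * u) := by group
    · have hz := H.chart.Cz u H.uC
      have hzz := H.chart.large.z_sq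
      have h2 : u * y = y * z * u := mul_inv_eq_iff_eq_mul.1 h
      calc u * u * y = u * (u * y) := by group
        _ = u * (y * z * u) := by rw [h2]
        _ = (u * y) * z * u := by group
        _ = (y * z * u) * z * u := by rw [h2]
        _ = y * z * (u * z) * u := by group
        _ = y * z * (z * u) * u := by rw [hz]
        _ = y * (z * z) * (u * u) := by group
        _ = y * (u * u) := by rw [hzz, mul_one]
  have h2 : u ∈ Subgroup.centralizer ({y} : Set G) := mem_of_coprime_pow (a := 2) (b := 23) (by norm_num) h1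
    (by rw [H.u23]; exact Subgroup.one_mem _)
  exact Subgroup.mem_centralizer_singleton_iff.1 h2

theorem y_mem_U : y ∈ U := ((main H).2.2 y hyQ).2 (by rw [hy]; exact W12_le_W23 (W1_le_W12 f0_mem_W1))

/-- `U` centralises `y` -/
theorem Uy {x : G} (hx : x ∈ U) : x * y = y * x := by
  let U1 : Subgroup G := Subgroup.centralizer ({y} : Set G) ⊓ U
  have h1 : Q ⊓ U ≤ U1 := by
    intro t ht
    refine ⟨Subgroup.mem_centralizer_singleton_iff.2 ?_, ht.2⟩
    exact (comm_y H.chart hyQ hy ht.1).2 (((main H).2.2 t ht.1).1 ht.2)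
  have h2 : ∀ t ∈ U1, u * t * u⁻¹ ∈ U1 := by
    intro t ht
    refine ⟨Subgroup.mem_centralizer_singleton_iff.2 ?_, uU H ht.2⟩
    have h3 := Subgroup.mem_centralizer_singleton_iff.1 ht.1
    have h4 := uy H hyQ hy
    have h5 : u⁻¹ * y = y * u⁻¹ := by rw [inv_mul_eq_iff_eq_mul, ← mul_assoc, h4]; group
    calc u * t * u⁻¹ * y = u * t * (u⁻¹ * y) := by group
      _ = u * (t * y) * u⁻¹ := by rw [h5]; group
      _ = (u * y) * t * u⁻¹ := by rw [h3]; group
      _ = y * (u * t * u⁻¹) := by rw [h4]; group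
  rcases irrU H U1 h1 inf_le_right h2 with h | h
  · exfalso
    have h3 := card_mul_conj U y
    have h4 : Nat.card {x : G // ∃ d ∈ U, d * y * d⁻¹ = x} ≤ 2 := by
      classical
      have h5 : Nat.card {x : G // ∃ d ∈ U, d * y * d⁻¹ = x} ≤ Nat.card ({y, y * z} : Set G) := by
        refine Nat.card_le_card_of_injective (fun x : {x : G // ∃ d ∈ U, d * y * d⁻¹ = x} =>
          (⟨(x : G), ?_⟩ : ({y, y * z} : Set G))) ?_
        · obtain ⟨d, hd, hdx⟩ := x.2
          have hdC := U_le H.str hd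
          have h6 : pi ⟨d, hdC⟩ ∈ F := by
            apply E_le_F
            rw [← img_U H]; exact mem_img.2 ⟨d, hdC, hd, rfl⟩
          rcases conj_y H hyQ hy hdC h6 with h7 | h7
          · left; rw [← hdx]; exact h7
          · right; rw [← hdx]; exact h7
        · intro a b hab
          have h9 := congrArg Subtype.val hab
          exact Subtype.ext h9
      refine h5.trans ?_
      rw [Nat.card_coe_set_eq]
      exact (Set.ncard_insert_le _ _).trans (by rw [Set.ncard_singleton])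
    have h5 : Nat.card ↥(Subgroup.centralizer ({y} : Set G) ⊓ U) = Nat.card ↥(Q ⊓ U) := by rw [← h]
    rw [h5, card_U H] at h3
    have h6 := fin_QU H
    have h7 : Nat.card ↥(Q ⊓ U) * 2 ^ 11 ≤ Nat.card ↥(Q ⊓ U) * 2 := by
      calc Nat.card ↥(Q ⊓ U) * 2 ^ 11 = 2 ^ 11 * Nat.card ↥(Q ⊓ U) := mul_comm _ _
        _ = Nat.card ↥(Q ⊓ U) * Nat.card {x : G // ∃ d ∈ U, d * y * d⁻¹ = x} := h3.symm
        _ ≤ Nat.card ↥(Q ⊓ U) * 2 := Nat.mul_le_mul_left _ h4
    have h8 := Nat.le_of_mul_le_mul_left h7 (Nat.pos_of_ne_zero h6)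
    norm_num at h8
  · have h3 : x ∈ U1 := by rw [h]; exact hx
    exact Subgroup.mem_centralizer_singleton_iff.1 h3.1

/-- `M` centralises `y` -/
theorem My {m : G} (hm : m ∈ MM φ) : m * y = y * m := by
  by_contra hne
  let S : Subgroup G := Subgroup.centralizer ({y} : Set G) ⊓ MM φ
  let T : Subgroup M24 := (S.subgroupOf N).map ((MonoidHom.snd _ _).comp φ)
  have hMF : ∀ t (ht : t ∈ MM φ), pi ⟨t, MM_le_C H.str ht⟩ ∈ F := fun t ht => by
    rw [← img_M H]; exact mem_img.2 ⟨t, MM_le_C H.str ht, ht, rfl⟩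
  have hUS : U ≤ S := fun x hx => ⟨Subgroup.mem_centralizer_singleton_iff.2 (Uy H hyQ hy hx), U_le_MM H.str hx⟩
  have hlift : ∀ t : M24, ∃ n : N, φ n = (1, t) ∧ (n : G) ∈ MM φ := by
    intro t
    obtain ⟨n, hn⟩ := H.str.surj (1, t)
    exact ⟨n, hn, (mem_MM n.2).2 (by rw [hn])⟩
  have hT : T.index ≤ 2 := by
    apply index_le_two
    intro a b ha hb
    obtain ⟨n, hn, hnM⟩ := hlift a
    obtain ⟨k, hk, hkM⟩ := hlift b
    have h1 : (n : G) * y ≠ y * n := by
      intro h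
      apply ha
      exact ⟨n, ⟨Subgroup.mem_centralizer_singleton_iff.2 h, hnM⟩, by show (φ n).2 = a; rw [hn]⟩
    have h2 : (k : G) * y ≠ y * k := by
      intro h
      apply hb
      exact ⟨k, ⟨Subgroup.mem_centralizer_singleton_iff.2 h, hkM⟩, by show (φ k).2 = b; rw [hk]⟩
    have h3 := diff H hyQ hy (MM_le_C H.str hnM) (hMF _ hnM) h1 (MM_le_C H.str hkM) (hMF _ hkM) h2
    refine ⟨n⁻¹ * k, ⟨Subgroup.mem_centralizer_singleton_iff.2 h3,
      (MM φ).mul_mem ((MM φ).inv_mem hnM) hkM⟩, ?_⟩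
    show (φ (n⁻¹ * k)).2 = a⁻¹ * b
    rw [map_mul, map_inv, hn, hk]; rfl
  have hT' := eq_top_of_index (hT.trans (by norm_num))
  have hmN := MM_le hm
  have h1 : (φ ⟨m, hmN⟩).2 ∈ T := by rw [hT']; exact Subgroup.mem_top _
  obtain ⟨s, hs, hsm⟩ := h1
  have hsm' : (φ s).2 = (φ ⟨m, hmN⟩).2 := hsm
  have h2 : (s : G)⁻¹ * m ∈ U := by
    refine (H.str.ker (s⁻¹ * ⟨m, hmN⟩)).1 ?_
    rw [map_mul, map_inv]
    apply Prod.ext
    · show ((φ s).1)⁻¹ * (φ ⟨m, hmN⟩).1 = 1
      rw [(mem_MM hmN).1 hm, mul_one, inv_eq_one]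
      exact (mem_MM s.2).1 hs.2
    · show ((φ s).2)⁻¹ * (φ ⟨m, hmN⟩).2 = 1
      rw [hsm', inv_mul_cancel]
  have h3 : (s : G) * ((s : G)⁻¹ * m) ∈ S := S.mul_mem hs (hUS h2)
  rw [mul_inv_cancel_left] at h3
  exact hne (Subgroup.mem_centralizer_singleton_iff.1 h3.1)

end

omit H in
/-- `E` acts non-trivially on `W12`. -/
theorem false_of_trivial (h : ∀ s ∈ E, ∀ v ∈ W12, s • v = v) : False := by
  have h1 : E = ⊥ := by
    rw [eq_bot_iff]
    intro s hs
    exact E_eq_one_of_W12 hs (h s hs)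
  have h2 := card_E
  rw [h1, Subgroup.card_bot] at h2
  norm_num at h2

theorem mem_QU {x : G} : x ∈ Q ⊓ U ↔ x ∈ pre H.chart W23 := by
  constructor
  · rintro ⟨h1, h2⟩
    exact ⟨h1, ((main H).2.2 x h1).1 h2⟩
  · rintro ⟨h1, h2⟩
    exact ⟨h1, ((main H).2.2 x h1).2 h2⟩

theorem QU_eq : Q ⊓ U = pre H.chart W23 := by
  ext x
  exact mem_QU H

/-- **`Z(U)` is the preimage of `W1`.** -/
theorem Zc_eq : Zc U = pre H.chart W1 := by
  obtain ⟨y, hyQ, hy⟩ := H.chart.eta_surj f0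
  apply le_antisymm
  · have hQ : Zc U ≤ Q := by
      rcases img_cases H (T := Zc U) inf_le_left (fun x hx => Zc_norm H H.uN hx) with h | h
      · exact h
      · exfalso
        apply false_of_trivial
        intro s hs v hv
        rw [← h] at hs
        obtain ⟨x, hxC, hx, rfl⟩ := mem_img.1 hs
        obtain ⟨q, hq, rfl⟩ := H.chart.eta_surj v
        have h1 := (mem_Zc.1 hx).2 q (((main H).2.2 q hq).2 (W12_le_W23 hv))
        have h2 : x * q * x⁻¹ = q := by rw [← h1]; group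
        have h3 := H.chart.eta_conj ⟨x, hxC⟩ q hq
        rw [← h3]
        show eta (x * q * x⁻¹) = eta q
        rw [h2]
    intro x hx
    refine ⟨hQ hx, ?_⟩
    apply mem_W1_of_bf
    intro v hv
    obtain ⟨q, hq, rfl⟩ := H.chart.eta_surj v
    have h1 := (mem_Zc.1 hx).2 q (((main H).2.2 q hq).2 hv)
    exact (H.chart.comm_iff (hQ hx) hq).1 h1.symm
  · intro x hx
    have hxU : x ∈ U := ((main H).2.2 x hx.1).2 (W12_le_W23 (W1_le_W12 hx.2))
    rw [mem_Zc]
    refine ⟨hxU, fun t ht => ?_⟩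
    rcases (mem_W1 _).1 hx.2 with h | h
    · rcases (H.chart.eta_zero x hx.1).1 h with rfl | rfl
      · simp
      · exact zC H ht
    · exact Uy H hx.1 h ht

end Cfsg.Agent.H861.RV
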