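import Cfsg.Agent.H861.RV
import Cfsg.Agent.H861.RPerf

/-!
# `f` moves `z`, and the second subgroup of the amalgam
-/

set_option autoImplicit false

open Cfsg

namespace Cfsg.Agent.H861.RW

open Cfsg.Agent.MonsterU.Lam2 (L2 bf)
open Cfsg.Agent.MonsterU.CoFrameL2 (f0 f0_ne mem_W1 W1 W12 W23 W1_le_W12 W12_le_W23 f0_mem_W1 smul_f0
  mem_F_iff mem_W1_of_E mem_W12_of_E' E_eq_one_of_W12 E_sub_mem_W1 E_sub_mem_W12 mem_W23_iff_bf F_mem_W1
  F_mem_W12 F_mem_W23)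
open Cfsg.Agent.MonsterU.CoFrameIrr (X card_W1 card_W12 card_W23 uniserial fix_E irr_E irr_W12 irr_W23 X_mem_F)
open Cfsg.Agent.MonsterU.CoFrameF (F card_F E_le_F)
open Cfsg.Agent.MonsterU.AmalSide (four)
open Cfsg.Agent.CoOneType.CoOneE (pr E card_E)
open Cfsg.Spor (Co1)
open Cfsg.Agent.H861.RUtil
open Cfsg.Agent.H861.RN
open Cfsg.Agent.H861.RM
open Cfsg.Agent.H861.RZ
open Cfsg.Agent.H861.RV
open Cfsg.Agent.H861.RElts (Nrm)
open Cfsg.Agent.H861.RGen (pre pre_W1 mem_pre comm_y pre_le z_mem_pre pre_mono)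
open Cfsg.Agent.H861.RSide (cent2 mem_cent2)

variable {G : Type*} [Group G] {C N U Q : Subgroup G} {z : G} {eta : G → L2} {pi : C →* Co1}
  {φ : N →* Equiv.Perm (Fin 3) × M24} {f u : G} (H : NData C N U Q z eta pi φ f u)

include H

/-- `|pre W| = 2 |W|` -/
theorem card_pre (W : AddSubgroup L2) : Nat.card (pre H.chart W) = 2 * Nat.card W := by
  have h1 := card_et_of_mem H (pre_le H.chart) (z_mem_pre H.chart W)
  have h2 : et H (pre H.chart W) (pre_le H.chart) = W := by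
    ext v
    constructor
    · rintro ⟨x, hx, rfl⟩
      exact hx.2
    · intro hv
      obtain ⟨x, hx, rfl⟩ := H.chart.eta_surj v
      exact ⟨x, ⟨hx, hv⟩, rfl⟩
  rw [h2] at h1
  exact h1

/-- the subgroups between two preimages -/
theorem irr_pre {W W' : AddSubgroup L2}
    (irr : ∀ S : AddSubgroup L2, W ≤ S → S ≤ W' → (∀ x ∈ S, X • x ∈ S) → S = W ∨ S = W')
    (T : Subgroup G) (h1 : pre H.chart W ≤ T) (h2 : T ≤ pre H.chart W') (hu : ∀ x ∈ T, u * x * u⁻¹ ∈ T) :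
    T = pre H.chart W ∨ T = pre H.chart W' := by
  have hTQ : T ≤ Q := h2.trans (pre_le H.chart)
  have hz : z ∈ T := h1 (z_mem_pre H.chart W)
  have hT : T = pre H.chart (et H T hTQ) := by
    ext x
    constructor
    · intro hx
      exact ⟨hTQ hx, x, hx, rfl⟩
    · rintro ⟨hx, y, hy, hyx⟩
      rcases (H.chart.eta_eq hx (hTQ hy)).1 hyx.symm with h | h
      · rw [h]; exact hy
      · rw [h]; exact T.mul_mem hy hz
  have h3 : W ≤ et H T hTQ := by
    intro v hv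
    obtain ⟨x, hx, rfl⟩ := H.chart.eta_surj v
    exact ⟨x, h1 ⟨hx, hv⟩, rfl⟩
  have h4 : et H T hTQ ≤ W' := by
    rintro _ ⟨x, hx, rfl⟩
    exact (h2 hx).2
  have h5 : ∀ x ∈ et H T hTQ, X • x ∈ et H T hTQ := by
    rintro _ ⟨x, hx, rfl⟩
    refine ⟨u * x * u⁻¹, hu x hx, ?_⟩
    have h6 := H.chart.eta_conj ⟨u, H.uC⟩ x (hTQ hx)
    rw [H.uX] at h6
    exact h6
  rcases irr _ h3 h4 h5 with h | h
  · left; rw [h] at hT; exact hT
  · right; rw [h] at hT; exact hT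

/-- the commutator of an element of `U` with an element of `Q` -/
theorem eta_comm {g x : G} (hg : g ∈ U) (hx : x ∈ Q) :
    g * x * g⁻¹ * x⁻¹ ∈ Q ∧ ∃ s ∈ E, eta (g * x * g⁻¹ * x⁻¹) = s • eta x - eta x := by
  have hgC := U_le H.str hg
  have h1 := H.chart.large.conj_mem g hgC x hx
  refine ⟨Q.mul_mem h1 (Q.inv_mem hx), pi ⟨g, hgC⟩, ?_, ?_⟩
  · rw [← img_U H]; exact mem_img.2 ⟨g, hgC, hg, rfl⟩
  · rw [H.chart.eta_mul _ h1 _ (Q.inv_mem hx), H.chart.eta_inv hx, H.chart.eta_conj ⟨g, hgC⟩ x hx,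
      sub_eq_add_neg, MonsterU.Lam2.neg_eq]

theorem u_pre {W : AddSubgroup L2} (hW : ∀ x ∈ W, X • x ∈ W) {x : G} (hx : x ∈ pre H.chart W) :
    u * x * u⁻¹ ∈ pre H.chart W :=
  RGen.pre_conj H.chart ⟨u, H.uC⟩ (by rw [H.uX]; exact hW) hx

theorem zU : z ∈ U := (main H).1

theorem QN : Q ≤ N := (main H).2.1

theorem z_Zc : z ∈ Zc U := by
  rw [mem_Zc]
  exact ⟨zU H, fun y hy => zC H hy⟩

theorem cent_of_pow {x : G} (h : f * (f * x * f⁻¹) * f⁻¹ = x) : f * x = x * f := by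
  have h1 : f ^ 2 ∈ Subgroup.centralizer ({x} : Set G) := by
    rw [Subgroup.mem_centralizer_singleton_iff, ← mul_inv_eq_iff_eq_mul, pow_two]
    calc f * f * x * (f * f)⁻¹ = f * (f * x * f⁻¹) * f⁻¹ := by group
      _ = x := h
  have h2 : f ∈ Subgroup.centralizer ({x} : Set G) := mem_of_coprime_pow (a := 2) (b := 3) (by norm_num) h1
    (by rw [H.f3]; exact Subgroup.one_mem _)
  exact Subgroup.mem_centralizer_singleton_iff.1 h2

/-- an element `f`-conjugate of a member of `pre W1` -/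
theorem f_Z {x : G} (hx : x ∈ pre H.chart W1) : f * x * f⁻¹ ∈ pre H.chart W1 := by
  rw [← Zc_eq H] at hx ⊢
  exact Zc_norm H H.fN hx

/-- if `f` centralises `z`, then it centralises `Z(U)` -/
theorem cent_W1 (hfz : f * z = z * f) {x : G} (hx : x ∈ pre H.chart W1) : f * x = x * f := by
  have h0 := f_Z H hx
  have hxQ := hx.1
  rcases (mem_W1 _).1 hx.2 with h | h
  · rcases (H.chart.eta_zero x hx.1).1 h with rfl | rfl
    · simp
    · exact hfz
  · rcases (mem_W1 _).1 h0.2 with h1 | h1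
    · exfalso
      rcases (H.chart.eta_zero _ h0.1).1 h1 with h2 | h2
      · apply f0_ne
        rw [← h]
        have : x = 1 := by
          calc x = f⁻¹ * (f * x * f⁻¹) * f := by group
            _ = 1 := by rw [h2]; group
        rw [this, H.chart.eta_one]
      · apply f0_ne
        rw [← h]
        have : x = z := by
          calc x = f⁻¹ * (f * x * f⁻¹) * f := by group
            _ = f⁻¹ * (z * f) := by rw [h2]; group
            _ = z := by rw [← hfz]; group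
        rw [this, H.chart.eta_z]
    · rw [← h] at h1
      rcases (H.chart.eta_eq h0.1 hxQ).1 h1 with h2 | h2
      · exact mul_inv_eq_iff_eq_mul.1 h2
      · apply cent_of_pow H
        have h3 : f * z * f⁻¹ = z := by rw [hfz]; group
        calc f * (f * x * f⁻¹) * f⁻¹ = f * (x * z) * f⁻¹ := by rw [h2]
          _ = (f * x * f⁻¹) * (f * z * f⁻¹) := by group
          _ = x * (z * z) := by rw [h2, h3]; group
          _ = x := by rw [H.chart.large.z_sq, mul_one]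

/-- membership in `pre W12` in terms of commutators -/
theorem mem_pre_W12 {x : G} : x ∈ pre H.chart W12 ↔ x ∈ Q ⊓ U ∧ ∀ g ∈ U, g * x * g⁻¹ * x⁻¹ ∈ pre H.chart W1 := by
  constructor
  · intro hx
    refine ⟨(mem_QU H).2 ⟨hx.1, W12_le_W23 hx.2⟩, fun g hg => ?_⟩
    obtain ⟨h1, s, hs, h2⟩ := eta_comm H hg hx.1
    exact ⟨h1, by rw [h2]; exact E_sub_mem_W1 hs hx.2⟩
  · rintro ⟨hx, hg⟩
    refine ⟨hx.1, mem_W12_of_E' fun s hs => ?_⟩
    rw [← img_U H] at hs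
    obtain ⟨g, hgC, hgU, rfl⟩ := mem_img.1 hs
    have h1 := (hg g hgU).2
    have h2 := H.chart.large.conj_mem g hgC x hx.1
    rw [H.chart.eta_mul _ h2 _ (Q.inv_mem hx.1), H.chart.eta_inv hx.1, H.chart.eta_conj ⟨g, hgC⟩ x hx.1] at h1
    rw [sub_eq_add_neg, MonsterU.Lam2.neg_eq]
    exact h1

/-- `f` normalises `pre W12` if it normalises `Q ∩ U` -/
theorem f_W12 (hf : ∀ x ∈ Q ⊓ U, f * x * f⁻¹ ∈ Q ⊓ U) {x : G} (hx : x ∈ pre H.chart W12) :
    f * x * f⁻¹ ∈ pre H.chart W12 := by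
  rw [mem_pre_W12 H] at hx ⊢
  refine ⟨hf x hx.1, fun g hg => ?_⟩
  have h1 : f⁻¹ * g * f ∈ U := by
    have := Unorm H.str (N.inv_mem H.fN) hg
    rwa [inv_inv] at this
  have h2 := f_Z H (hx.2 _ h1)
  have e : g * (f * x * f⁻¹) * g⁻¹ * (f * x * f⁻¹)⁻¹ =
      f * ((f⁻¹ * g * f) * x * (f⁻¹ * g * f)⁻¹ * x⁻¹) * f⁻¹ := by group
  rw [e]; exact h2

/-- first case: `f` normalises `Q ∩ U` -/
theorem caseA (hfz : f * z = z * f) (hf : ∀ x ∈ Q ⊓ U, f * x * f⁻¹ ∈ Q ⊓ U) : False := by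
  have hU23 : pre H.chart W23 ≤ U := by rw [← QU_eq H]; exact inf_le_right
  have h12 : pre H.chart W12 ≤ pre H.chart W23 := pre_mono H.chart W12_le_W23
  have h1 : pre H.chart W1 ≤ pre H.chart W12 := pre_mono H.chart W1_le_W12
  have hf' : ∀ x ∈ pre H.chart W23, f * x * f⁻¹ ∈ pre H.chart W23 := by
    intro x hx
    rw [← QU_eq H] at hx ⊢
    exact hf x hx
  have hX : ∀ {x : L2}, x ∈ W23 → X • x ∈ W23 := fun hx => F_mem_W23 X_mem_F hx
  have hX12 : ∀ {x : L2}, x ∈ W12 → X • x ∈ W12 := fun hx => F_mem_W12 X_mem_F hx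
  have hX1 : ∀ {x : L2}, x ∈ W1 → X • x ∈ W1 := fun hx => F_mem_W1 X_mem_F hx
  have s1 := section_trivial (U := U) (A := pre H.chart W12) (B := pre H.chart W23) h12 hU23 H.f3 (hfu H)
    (fun x hx => f_W12 H hf hx) hf' (fun x hx => u_pre H (fun _ h => hX12 h) hx)
    (fun x hx => u_pre H (fun _ h => hX h) hx) (fun g hg x hx => by
      obtain ⟨h1, s, hs, h2⟩ := eta_comm H hg hx.1
      exact ⟨h1, by rw [h2]; exact E_sub_mem_W12 hs hx.2⟩)
    (irr_pre H irr_W23) (by rw [card_pre H, card_pre H, card_W23, card_W12]; norm_num)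
    (by rw [card_pre H, card_W12]; norm_num)
  have s2 := section_trivial (U := U) (A := pre H.chart W1) (B := pre H.chart W12) h1 (h12.trans hU23) H.f3 (hfu H)
    (fun x hx => f_Z H hx) (fun x hx => f_W12 H hf hx) (fun x hx => u_pre H (fun _ h => hX1 h) hx)
    (fun x hx => u_pre H (fun _ h => hX12 h) hx) (fun g hg x hx => ((mem_pre_W12 H).1 hx).2 g hg)
    (irr_pre H irr_W12) (by rw [card_pre H, card_pre H, card_W12, card_W1]; norm_num)
    (by rw [card_pre H, card_W1]; norm_num)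
  have c12 : ∀ x ∈ pre H.chart W12, f * x = x * f := fun x hx =>
    comm_of_section H.str.U2 (h1.trans (h12.trans hU23)) H.f3 (fun a ha => cent_W1 H hfz ha) (s2 x hx)
  have c23 : ∀ x ∈ pre H.chart W23, f * x = x * f := fun x hx =>
    comm_of_section H.str.U2 (h12.trans hU23) H.f3 c12 (s1 x hx)
  exact false_of_cent H hf fun x hx => c23 x (by rw [← QU_eq H]; exact hx)

/-- the conjugate `f (Q ∩ U) f⁻¹` -/
def Y1 (Q U : Subgroup G) (f : G) : Subgroup G := (Q ⊓ U).map (MulAut.conj f).toMonoidHom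

omit H in
theorem mem_Y1 {x : G} : x ∈ Y1 Q U f ↔ ∃ a ∈ Q ⊓ U, f * a * f⁻¹ = x := Iff.rfl

theorem Y1_le : Y1 Q U f ≤ U := by
  rintro _ ⟨a, ha, rfl⟩
  exact fU H ha.2

theorem Y1_norm : ∀ m ∈ MM φ, ∀ x ∈ Y1 Q U f, m * x * m⁻¹ ∈ Y1 Q U f := by
  rintro m hm _ ⟨a, ha, rfl⟩
  have h1 : f⁻¹ * m * f ∈ MM φ := by
    have := MM_norm (N.inv_mem H.fN) hm
    rwa [inv_inv] at this
  refine ⟨(f⁻¹ * m * f) * a * (f⁻¹ * m * f)⁻¹, QU_norm H _ h1 a ha, ?_⟩
  show f * ((f⁻¹ * m * f) * a * (f⁻¹ * m * f)⁻¹) * f⁻¹ = m * (f * a * f⁻¹) * m⁻¹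
  group

theorem card_Y1 : Nat.card (Y1 Q U f) = 2 ^ 24 := by
  have h1 : Nat.card (Y1 Q U f) = Nat.card ↥(Q ⊓ U) :=
    Subgroup.card_map_of_injective (MulAut.conj f).injective
  rw [h1, QU_eq H, card_pre H, card_W23]; norm_num

/-- second case -/
theorem caseB (hfz : f * z = z * f) (hE : img pi (Y1 Q U f) = E) : False := by
  have hY1C := (Y1_le H).trans (U_le H.str)
  have h1 := card_img H hY1C
  rw [hE, card_E, card_Y1 H] at h1
  have h2 : Nat.card ↥(Q ⊓ Y1 Q U f) = 2 ^ 13 := by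
    have : Nat.card ↥(Q ⊓ Y1 Q U f) * 2048 = 2 ^ 13 * 2048 := by rw [h1]; norm_num
    exact Nat.eq_of_mul_eq_mul_right (by norm_num) this
  have hz : z ∈ Q ⊓ Y1 Q U f := by
    refine ⟨H.chart.large.z_mem, z, ⟨H.chart.large.z_mem, zU H⟩, ?_⟩
    show f * z * f⁻¹ = z
    rw [hfz]; group
  have hnorm : ∀ m ∈ MM φ, ∀ x ∈ Q ⊓ Y1 Q U f, m * x * m⁻¹ ∈ Q ⊓ Y1 Q U f := fun m hm x hx =>
    ⟨H.chart.large.conj_mem m (MM_le_C H.str hm) x hx.1, Y1_norm H m hm x hx.2⟩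
  have h3 := card_et_of_mem H inf_le_left hz
  rw [h2] at h3
  have h4 : et H (Q ⊓ Y1 Q U f) inf_le_left = W12 := by
    rcases et_cases H inf_le_left hnorm with ⟨-, h⟩ | ⟨-, h⟩ | ⟨h', h⟩ | ⟨-, h⟩ | ⟨-, h⟩
    · rw [h] at h3; norm_num at h3
    · rw [h] at h3; norm_num at h3
    · exact h'
    · rw [h] at h3; norm_num at h3
    · rw [h] at h3; norm_num at h3
  apply false_of_trivial
  intro s hs v hv
  rw [← hE] at hs
  rw [← h4] at hv
  obtain ⟨y₁, hyC, ⟨a, ha, rfl⟩, rfl⟩ := mem_img.1 hs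
  obtain ⟨t, ⟨htQ, b, hb, rfl⟩, rfl⟩ := hv
  rw [← H.chart.eta_conj ⟨_, hyC⟩ _ htQ]
  show eta ((f * a * f⁻¹) * (f * b * f⁻¹) * (f * a * f⁻¹)⁻¹) = eta (f * b * f⁻¹)
  have hfz' : f * z * f⁻¹ = z := by rw [hfz]; group
  rcases H.chart.large.comm a ha.1 b hb.1 with h | h
  · have e : (f * a * f⁻¹) * (f * b * f⁻¹) * (f * a * f⁻¹)⁻¹ = f * (a * b * a⁻¹) * f⁻¹ := by group
    rw [e, h, mul_inv_cancel_right]
  · have e : (f * a * f⁻¹) * (f * b * f⁻¹) * (f * a * f⁻¹)⁻¹ = (f * b * f⁻¹) * z := by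
      have h5 := H.chart.large.comm_z a ha.1
      calc (f * a * f⁻¹) * (f * b * f⁻¹) * (f * a * f⁻¹)⁻¹ = f * (a * b) * a⁻¹ * f⁻¹ := by group
        _ = f * (b * (a * z)) * a⁻¹ * f⁻¹ := by rw [h]; group
        _ = f * (b * (z * a)) * a⁻¹ * f⁻¹ := by rw [h5]
        _ = (f * b * f⁻¹) * (f * z * f⁻¹) := by group
        _ = (f * b * f⁻¹) * z := by rw [hfz']
    have htQ' : f * b * f⁻¹ ∈ Q := htQ
    rw [e, H.chart.eta_mul _ htQ' _ H.chart.large.z_mem, H.chart.eta_z, add_zero]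

/-- **`f` moves `z`.** -/
theorem fz : f * z ≠ z * f := by
  intro hfz
  rcases img_cases H (Y1_le H) (fun x hx => Y1_norm H u (uM H) x hx) with h | h
  · exact caseA H hfz fun x hx => ⟨h ⟨x, hx, rfl⟩, fU H hx.2⟩
  · exact caseB H hfz h

/-! ### The involution `y = f z f⁻¹` -/

theorem y_mem : f * z * f⁻¹ ∈ pre H.chart W1 := by
  rw [← Zc_eq H]; exact Zc_norm H H.fN (z_Zc H)

theorem yQ : f * z * f⁻¹ ∈ Q := (y_mem H).1

theorem ey : eta (f * z * f⁻¹) = f0 := by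
  rcases (mem_W1 _).1 (y_mem H).2 with h | h
  · exfalso
    rcases (H.chart.eta_zero _ (yQ H)).1 h with h1 | h1
    · apply H.chart.large.z_ne
      calc z = f⁻¹ * (f * z * f⁻¹) * f := by group
        _ = 1 := by rw [h1]; group
    · exact fz H (mul_inv_eq_iff_eq_mul.1 h1)
  · exact h

theorem four_eq : Zc U = four z (f * z * f⁻¹) := by
  rw [Zc_eq H, pre_W1 H.chart (yQ H) (ey H)]

theorem fy : f * (f * z * f⁻¹) * f⁻¹ = z * (f * z * f⁻¹) := by
  have h1 : f * (f * z * f⁻¹) * f⁻¹ ∈ four z (f * z * f⁻¹) := by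
    rw [← four_eq H]
    exact Zc_norm H H.fN (by rw [four_eq H]; exact Subgroup.subset_closure (by simp))
  rcases (RPerf.mem_four H.chart (yQ H) (ey H)).1 h1 with h | h | h | h
  · exfalso
    apply H.chart.large.z_ne
    calc z = f⁻¹ * (f⁻¹ * (f * (f * z * f⁻¹) * f⁻¹) * f) * f := by group
      _ = 1 := by rw [h]; group
  · exfalso
    exact fz H (cent_of_pow H h)
  · exfalso
    apply fz H
    have h2 : f * z * f⁻¹ = z := by
      calc f * z * f⁻¹ = f⁻¹ * (f * (f * z * f⁻¹) * f⁻¹) * f := by group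
        _ = z := by rw [h]; group
    exact mul_inv_eq_iff_eq_mul.1 h2
  · exact h

/-- the normaliser -/
theorem nrm : Nrm C N Q z (f * z * f⁻¹) where
  BN := by
    intro b hb
    have hbC := (mem_cent2.1 hb).1
    have h1 : pi ⟨b, hbC⟩ ∈ F := RPerf.pi_cent2 H.chart (yQ H) (ey H) ⟨b, hbC⟩ hb
    rw [← img_D H] at h1
    obtain ⟨d, hdC, hd, hdb⟩ := mem_img.1 h1
    have h2 : d⁻¹ * b ∈ Q := H.chart.pi_eq.1 hdb
    have h3 := N.mul_mem hd.2 (QN H h2)
    rwa [mul_inv_cancel_left] at h3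
  QN := QN H
  NB := by
    intro n hn hnz
    by_contra hC
    have := H.str.fin
    let K : Subgroup N := (Subgroup.centralizer ({z} : Set G)).subgroupOf N
    have hle : C.subgroupOf N ≤ K := fun x hx =>
      Subgroup.mem_centralizer_singleton_iff.2 (H.chart.Cz _ hx)
    have hK : K = ⊤ := eq_top_of_prime_index Nat.prime_three H.str.idx hle (g := ⟨n, hn⟩)
      (Subgroup.mem_centralizer_singleton_iff.2 hnz) hC
    have hfK : (⟨f, H.fN⟩ : N) ∈ K := by rw [hK]; exact Subgroup.mem_top _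
    exact fz H (Subgroup.mem_centralizer_singleton_iff.1 hfK)
  NV := by
    intro n hn v hv
    rw [← four_eq H] at hv ⊢
    exact Zc_norm H hn hv

/-- elements of `Q ∩ f Q f⁻¹` -/
theorem eb {x : G} (hx : x ∈ Q) (hfx : f⁻¹ * x * f ∈ Q) : eta x ∈ W12 := by
  have hy := y_mem H
  have hE : img pi (Y1 Q U f) = E := by
    rcases img_cases H (Y1_le H) (fun x hx => Y1_norm H u (uM H) x hx) with h | h
    · exfalso
      obtain ⟨a, ha, b, hb, hab⟩ := exists_pair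
      obtain ⟨p, hp, rfl⟩ := H.chart.eta_surj a
      obtain ⟨q, hq, rfl⟩ := H.chart.eta_surj b
      have h1 := (H.chart.comm_z_iff hp hq).2 hab
      have hpU : p ∈ Q ⊓ U := (mem_QU H).2 ⟨hp, ha⟩
      have hqU : q ∈ Q ⊓ U := (mem_QU H).2 ⟨hq, hb⟩
      have hp1 : f * p * f⁻¹ ∈ Q := h ⟨p, hpU, rfl⟩
      have hq1 : f * q * f⁻¹ ∈ Q := h ⟨q, hqU, rfl⟩
      have h2 : (f * p * f⁻¹) * (f * q * f⁻¹) = (f * q * f⁻¹) * (f * p * f⁻¹) * (f * z * f⁻¹) := by
        calc (f * p * f⁻¹) * (f * q * f⁻¹) = f * (p * q) * f⁻¹ := by group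
          _ = f * (q * p * z) * f⁻¹ := by rw [h1]
          _ = _ := by group
      rcases H.chart.large.comm _ hp1 _ hq1 with h3 | h3
      · rw [h3] at h2
        have h4 := left_eq_mul.1 h2
        exact f0_ne ((ey H).symm.trans (by rw [h4, H.chart.eta_one]))
      · rw [h3] at h2
        have h4 := mul_left_cancel h2
        exact f0_ne ((ey H).symm.trans (by rw [← h4, H.chart.eta_z]))
    · exact h
  apply mem_W12_of_E'
  intro s hs
  rw [← hE] at hs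
  obtain ⟨y₁, hyC, ⟨a, ha, rfl⟩, rfl⟩ := mem_img.1 hs
  have h2 := H.chart.large.conj_mem _ hyC x hx
  have h3 : eta ((MulAut.conj f).toMonoidHom a * x * ((MulAut.conj f).toMonoidHom a)⁻¹ * x⁻¹) ∈ W1 := by
    have e : (MulAut.conj f).toMonoidHom a = f * a * f⁻¹ := rfl
    rw [e]
    rcases H.chart.large.comm a ha.1 _ hfx with h | h
    · have e : (f * a * f⁻¹) * x * (f * a * f⁻¹)⁻¹ * x⁻¹ = 1 := by
        calc (f * a * f⁻¹) * x * (f * a * f⁻¹)⁻¹ * x⁻¹ = f * (a * (f⁻¹ * x * f)) * a⁻¹ * f⁻¹ * x⁻¹ := by group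
          _ = f * ((f⁻¹ * x * f) * a) * a⁻¹ * f⁻¹ * x⁻¹ := by rw [h]
          _ = 1 := by group
      rw [e, H.chart.eta_one]; exact W1.zero_mem
    · have h5 := H.chart.large.comm_z a ha.1
      have h6 := H.chart.large.comm_z _ hfx
      have e : (f * a * f⁻¹) * x * (f * a * f⁻¹)⁻¹ * x⁻¹ = f * z * f⁻¹ := by
        calc (f * a * f⁻¹) * x * (f * a * f⁻¹)⁻¹ * x⁻¹ = f * (a * (f⁻¹ * x * f)) * a⁻¹ * f⁻¹ * x⁻¹ := by group
          _ = f * ((f⁻¹ * x * f) * (a * z)) * a⁻¹ * f⁻¹ * x⁻¹ := by rw [h]; group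
          _ = f * ((f⁻¹ * x * f) * (z * a)) * a⁻¹ * f⁻¹ * x⁻¹ := by rw [h5]
          _ = f * ((f⁻¹ * x * f) * z) * f⁻¹ * x⁻¹ := by group
          _ = f * (z * (f⁻¹ * x * f)) * f⁻¹ * x⁻¹ := by rw [h6]
          _ = f * z * f⁻¹ := by group
      rw [e]; exact hy.2
  rw [H.chart.eta_mul _ h2 _ (Q.inv_mem hx), H.chart.eta_inv hx, H.chart.eta_conj ⟨_, hyC⟩ x hx] at h3
  rw [sub_eq_add_neg, MonsterU.Lam2.neg_eq]
  exact h3

end Cfsg.Agent.H861.RW
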