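import Cfsg.Agent.H861.RW
import Cfsg.Agent.H861.RL

/-!
# Existence of the data on `N`
-/

set_option autoImplicit false

open Cfsg

namespace Cfsg.Agent.H861.RX

open Cfsg.Agent.MonsterU.Lam2 (L2 bf)
open Cfsg.Agent.MonsterU.CoFrameIrr (X)
open Cfsg.Spor (Co1)
open Cfsg.Agent.H861.RUtil
open Cfsg.Agent.H861.RN
open Cfsg.Agent.H861.RL
open Cfsg.Agent.H861.RM
open Cfsg.Agent.H820.SL32 (S3)

variable {G : Type*} [Group G] {C N L U Q : Subgroup G} {z : G} {eta : G → L2} {pi : C →* Co1}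
  {φ : N →* Equiv.Perm (Fin 3) × M24} {ρ : L →* S3}

/-- the data exist -/
theorem exists_NData (HC : RCh.Chart C Q z eta pi) (HN : NStr C N U φ) (HL : LStr C N L ρ) :
    ∃ (f u : G) (eta' : G → L2) (pi' : C →* Co1), NData C N U Q z eta' pi' φ f u ∧ f ∈ L := by
  obtain ⟨f, fN, fL, f3, f1, fμ⟩ := exists_f (φ := φ) HL
  obtain ⟨w, hwL, hwU, -, hne⟩ := exists_w HN HL fN fL f3 f1 fμ
  have hQ2 : IsPGroup 2 Q := IsPGroup.of_card HC.card_Q
  have nle := not_le HN HL fN fL f3 f1 fμ hQ2 HC.large.conj_mem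
  have hfin := HN.fin
  obtain ⟨m, hm⟩ := exists_prime_orderOf_dvd_card' (G := M24) (hp := ⟨by norm_num⟩) 23
    (by rw [card_M24]; norm_num)
  obtain ⟨n, hn⟩ := HN.surj (1, m)
  have hm23 : m ^ 23 = 1 := by rw [← hm]; exact pow_orderOf_eq_one m
  have h1 : ((n ^ 23 : N) : G) ∈ U := by
    refine (HN.ker (n ^ 23)).1 ?_
    rw [map_pow, hn]
    exact Prod.ext (one_pow _) hm23
  obtain ⟨k, hk⟩ := HN.U2 ⟨_, h1⟩
  have hk' : ((n : G) ^ 23) ^ 2 ^ k = 1 := congrArg Subtype.val hk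
  set u₀ : N := n ^ 2 ^ k with hu₀
  have hu23 : (u₀ : G) ^ 23 = 1 := by
    rw [hu₀, Subgroup.coe_pow, ← pow_mul, mul_comm, pow_mul]; exact hk'
  have hφ : φ u₀ = (1, m ^ 2 ^ k) := by
    rw [hu₀, map_pow, hn]
    exact Prod.ext (one_pow _) rfl
  have hmk : m ^ 2 ^ k ≠ 1 := by
    intro h
    have h2 := orderOf_dvd_of_pow_eq_one h
    rw [hm] at h2
    have h3 := (by norm_num : Nat.Prime 23).dvd_of_dvd_pow h2
    exact absurd h3 (by norm_num)
  have hu1 : (u₀ : G) ≠ 1 := by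
    intro h
    have h2 : u₀ = 1 := Subtype.ext h
    rw [h2, map_one] at hφ
    exact hmk (congrArg Prod.snd hφ).symm
  have hu₀C : (u₀ : G) ∈ C := M_le HN (by rw [hφ])
  have hpi : orderOf (pi ⟨u₀, hu₀C⟩) = 23 := by
    refine orderOf_eq_prime (hp := ⟨by norm_num⟩) ?_ ?_
    · rw [← map_pow]
      have : (⟨u₀, hu₀C⟩ : C) ^ 23 = 1 := Subtype.ext hu23
      rw [this, map_one]
    · intro h
      have h2 := (HC.pi_eq_one _).1 h
      obtain ⟨j, hj⟩ := hQ2 ⟨_, h2⟩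
      have hj' : (u₀ : G) ^ 2 ^ j = 1 := congrArg Subtype.val hj
      have h3 : (u₀ : G) ∈ (⊥ : Subgroup G) := mem_of_coprime_pow (a := 23) (b := 2 ^ j)
        (Nat.Coprime.pow_right j (by norm_num)) (by rw [hu23]; exact Subgroup.mem_bot.2 rfl)
        (by rw [hj']; exact Subgroup.mem_bot.2 rfl)
      exact hu1 (Subgroup.mem_bot.1 h3)
  obtain ⟨g, i, hgi⟩ := RCoA.exists_conj hpi
  refine ⟨f, (u₀ : G) ^ i, _, _,
    { chart := HC.smul g
      str := HN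
      fN := fN
      f3 := f3
      f1 := f1
      fμ := fμ
      fw := ⟨w, hwU, hne⟩
      nle := nle
      uN := N.pow_mem u₀.2 i
      uσ := ?_
      uC := C.pow_mem hu₀C i
      uX := ?_
      u23 := by rw [← pow_mul, mul_comm, pow_mul, hu23, one_pow] }, fL⟩
  · have e : (⟨(u₀ : G) ^ i, N.pow_mem u₀.2 i⟩ : N) = u₀ ^ i := rfl
    rw [e, map_pow, hφ]
    exact one_pow i
  · have e : (⟨(u₀ : G) ^ i, C.pow_mem hu₀C i⟩ : C) = ⟨u₀, hu₀C⟩ ^ i := rfl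
    show g * pi _ * g⁻¹ = X
    rw [e, map_pow, hgi]

end Cfsg.Agent.H861.RX
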