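import Cfsg.Agent.H861.RX
import Cfsg.Agent.H861.RFinal

/-!
# The third subgroup of the amalgam
-/

set_option autoImplicit false

open Cfsg

namespace Cfsg.Agent.H861.RY

open Cfsg.Agent.MonsterU.Lam2 (L2 bf)
open Cfsg.Agent.MonsterU.CoFrameL2 (f0 f0_ne W12 W1)
open Cfsg.Agent.MonsterU.CoFrameIrr (X card_W1)
open Cfsg.Agent.MonsterU.AmalSide (four)
open Cfsg.Spor (Co1)
open Cfsg.Agent.H861.RUtil
open Cfsg.Agent.H861.RN
open Cfsg.Agent.H861.RL
open Cfsg.Agent.H861.RM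
open Cfsg.Agent.H861.RW (fz yQ ey fy nrm eb)
open Cfsg.Agent.H861.RElts (Nrm)
open Cfsg.Agent.H861.RGen (pre pre_W1)
open Cfsg.Agent.H861.RSide (cent2 mem_cent2)
open Cfsg.Agent.H861.RGlue (Third)
open Cfsg.Agent.H820.SL32 (S3)

/-- the whole set of data -/
structure All {G : Type*} [Group G] (C N L U Q : Subgroup G) (z : G) (eta : G → L2) (pi : C →* Co1)
    (φ : N →* Equiv.Perm (Fin 3) × M24) (ρ : L →* S3) (f u : G) : Prop where
  nd : NData C N U Q z eta pi φ f u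
  ls : LStr C N L ρ
  fL : f ∈ L
  i21 : (N ⊓ C).relIndex L = 21

variable {G : Type*} [Group G] {C N L U Q : Subgroup G} {z : G} {eta : G → L2} {pi : C →* Co1}
  {φ : N →* Equiv.Perm (Fin 3) × M24} {ρ : L →* S3} {f u : G} (A : All C N L U Q z eta pi φ ρ f u)

include A

/-- elements of `L` commuting with `z` -/
theorem LC {l : G} (hl : l ∈ L) (hlz : l * z = z * l) : l ∈ C := by
  by_contra hC
  have := A.ls.fin
  let K : Subgroup L := (Subgroup.centralizer ({z} : Set G)).subgroupOf L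
  have hle : C.subgroupOf L ≤ K := fun x hx => Subgroup.mem_centralizer_singleton_iff.2 (A.nd.chart.Cz _ hx)
  have hK : K = ⊤ := eq_top_of_prime_index prime7 A.ls.idxC hle (g := ⟨l, hl⟩)
    (Subgroup.mem_centralizer_singleton_iff.2 hlz) hC
  have h1 : (⟨f, A.fL⟩ : L) ∈ K := by rw [hK]; exact Subgroup.mem_top _
  exact fz A.nd (Subgroup.mem_centralizer_singleton_iff.1 h1)

/-- `z^L` -/
def Om (L : Subgroup G) (z : G) : Set G := {x | ∃ l ∈ L, l * z * l⁻¹ = x}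

theorem card_Om : Nat.card (Om L z) = 7 := by
  have h1 : Nat.card (Om L z) = (Subgroup.centralizer ({z} : Set G)).relIndex L := card_conj L z
  have h2 : (Subgroup.centralizer ({z} : Set G)).subgroupOf L = C.subgroupOf L := by
    ext x
    constructor
    · intro hx
      exact LC A x.2 (Subgroup.mem_centralizer_singleton_iff.1 hx)
    · intro hx
      exact Subgroup.mem_centralizer_singleton_iff.2 (A.nd.chart.Cz _ hx)
  rw [h1, Subgroup.relIndex, h2]
  exact A.ls.idxC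

theorem f_notMem_C : f ∉ C := fun h => fz A.nd (A.nd.chart.Cz f h)

theorem LCN : L ≤ C ⊔ N := by
  have := A.ls.fin
  have hfC : (⟨f, A.fL⟩ : L) ∉ C.subgroupOf L := by
    intro h
    have h' : f ∈ C := h
    exact f_notMem_C A h'
  have h1 : (C ⊔ N).subgroupOf L = ⊤ := eq_top_of_prime_index prime7 A.ls.idxC
    (H := C.subgroupOf L) (fun x hx => Subgroup.mem_sup_left hx) (g := ⟨f, A.fL⟩)
    (show f ∈ C ⊔ N from Subgroup.mem_sup_right A.nd.fN) hfC
  intro x hx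
  have h2 : (⟨x, hx⟩ : L) ∈ (C ⊔ N).subgroupOf L := by rw [h1]; exact Subgroup.mem_top _
  exact h2

/-- the kernel of `L → L_3(2)` as a subgroup of the group -/
def R (ρ : L →* S3) : Subgroup G := ρ.ker.map L.subtype

omit A in
theorem mem_R {x : G} (hx : x ∈ L) : x ∈ R ρ ↔ ρ ⟨x, hx⟩ = 1 := by
  constructor
  · rintro ⟨y, hy, rfl⟩
    exact hy
  · intro h
    exact ⟨⟨x, hx⟩, h, rfl⟩

omit A in
theorem R_le : R ρ ≤ L := Subgroup.map_subtype_le _

theorem R_le_C : R ρ ≤ C := fun _ hx => ker_le_C A.ls ((mem_R (R_le hx)).1 hx)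

theorem R_le_N : R ρ ≤ N := fun _ hx => ker_le_N A.ls ((mem_R (R_le hx)).1 hx)

theorem card_R : Nat.card (R ρ) * 168 = Nat.card L := by
  have h1 : Nat.card (R ρ) = Nat.card ρ.ker := Subgroup.card_map_of_injective L.subtype_injective
  have h2 := ρ.ker.card_mul_index
  rw [Subgroup.index_ker, MonoidHom.range_eq_top.2 A.ls.surj, Subgroup.card_top,
    Cfsg.Agent.H820.SL32.card] at h2
  rw [h1]; exact h2

theorem card_R_pos : 0 < Nat.card (R ρ) := by
  have := A.ls.fin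
  have h1 := card_R A
  have h2 : 0 < Nat.card L := Nat.card_pos
  by_contra h
  have h3 : Nat.card (R ρ) = 0 := by omega
  rw [h3, zero_mul] at h1
  omega

theorem card_EL : Nat.card ↥(C ⊓ L) = 24 * Nat.card (R ρ) := by
  have h1 := card_inf_mul C L
  rw [A.ls.idxC, ← card_R A] at h1
  omega

theorem card_DL : Nat.card ↥(N ⊓ C ⊓ L) = 8 * Nat.card (R ρ) := by
  have h1 := card_inf_mul (N ⊓ C) L
  rw [A.i21, ← card_R A] at h1
  omega

theorem zy : z * (f * z * f⁻¹) = f * z * f⁻¹ * z := RPerf.zy A.nd.chart (yQ A.nd)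

/-- the elements of `N ∩ C` -/
theorem conj_y {d : G} (hC : d ∈ C) (hN : d ∈ N) : d * (f * z * f⁻¹) * d⁻¹ = f * z * f⁻¹ ∨
    d * (f * z * f⁻¹) * d⁻¹ = f * z * f⁻¹ * z :=
  RV.conj_y A.nd (yQ A.nd) (ey A.nd) hC (pi_mem_F A.nd hC hN)

/-- some element of `L ∩ N ∩ C` moves `y` -/
theorem exists_d : ∃ d ∈ N ⊓ C ⊓ L, d * (f * z * f⁻¹) ≠ f * z * f⁻¹ * d := by
  by_contra hcon
  push Not at hcon
  have hfin := A.ls.fin
  have hN := nrm A.nd
  let D : Subgroup L := (N ⊓ C ⊓ L).subgroupOf L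
  let P : Subgroup S3 := D.map ρ
  have hfD : ∀ d ∈ N ⊓ C ⊓ L, f⁻¹ * d * f ∈ N ⊓ C ⊓ L := by
    intro d hd
    have h1 : f⁻¹ * d * f ∈ N := N.mul_mem (N.mul_mem (N.inv_mem A.nd.fN) hd.1.1) A.nd.fN
    refine ⟨⟨h1, hN.NB _ h1 ?_⟩, L.mul_mem (L.mul_mem (L.inv_mem A.fL) hd.2) A.fL⟩
    have h2 := hcon d hd
    calc f⁻¹ * d * f * z = f⁻¹ * (d * (f * z * f⁻¹)) * f := by group
      _ = f⁻¹ * (f * z * f⁻¹ * d) * f := by rw [h2]
      _ = z * (f⁻¹ * d * f) := by group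
  have hker : ρ.ker ≤ D := fun x hx => ⟨⟨ker_le_N A.ls hx, ker_le_C A.ls hx⟩, x.2⟩
  have hcard : Nat.card P = 8 := by
    have h1 : D.index = 21 := by
      have h2 := D.card_mul_index
      have h3 : Nat.card D = Nat.card ↥(N ⊓ C ⊓ L) :=
        Nat.card_congr (Subgroup.subgroupOfEquivOfLe inf_le_right).toEquiv
      rw [h3, card_DL A, ← card_R A] at h2
      have h4 := card_R_pos A
      have h5 : 8 * Nat.card (R ρ) * D.index = 8 * Nat.card (R ρ) * 21 := by rw [h2]; ring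
      exact Nat.eq_of_mul_eq_mul_left (by omega) h5
    have h2 : P.index = 21 := by rw [Subgroup.index_map_eq D A.ls.surj hker, h1]
    have h3 := P.card_mul_index
    rw [h2, Cfsg.Agent.H820.SL32.card] at h3
    omega
  have hP2 : IsPGroup 2 P := IsPGroup.of_card (n := 3) (by rw [hcard]; norm_num)
  have hρ : ρ ⟨f, A.fL⟩ ≠ 1 := fun h => f_notMem_C A (ker_le_C A.ls h)
  have hρ3 : (ρ ⟨f, A.fL⟩)⁻¹ ^ 3 = 1 := by
    rw [inv_pow, ← map_pow]
    have : (⟨f, A.fL⟩ : L) ^ 3 = 1 := Subtype.ext A.nd.f3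
    rw [this, map_one, inv_one]
  rcases RSL.card_two hP2 hρ3 (by rwa [ne_eq, inv_eq_one]) (by
    rintro _ ⟨x, hx, rfl⟩
    refine ⟨(⟨f, A.fL⟩ : L)⁻¹ * x * ⟨f, A.fL⟩, ?_, by rw [map_mul, map_mul, map_inv, inv_inv]⟩
    exact hfD x hx) with h | h
  · omega
  · omega

/-- the `L ∩ C`-conjugates of `y` -/
theorem card_Om0 : Nat.card {x : G // ∃ e ∈ C ⊓ L, e * (f * z * f⁻¹) * e⁻¹ = x} = 6 := by
  set y := f * z * f⁻¹ with hy
  have hN := nrm A.nd
  have h1 := card_mul_conj (C ⊓ L) y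
  have h2 := card_mul_conj (N ⊓ C ⊓ L) y
  have h3 : Subgroup.centralizer ({y} : Set G) ⊓ (C ⊓ L) = Subgroup.centralizer ({y} : Set G) ⊓ (N ⊓ C ⊓ L) := by
    apply le_antisymm
    · intro x hx
      refine ⟨hx.1, ⟨?_, hx.2.1⟩, hx.2.2⟩
      exact hN.BN (mem_cent2.2 ⟨hx.2.1, A.nd.chart.Cz _ hx.2.1, Subgroup.mem_centralizer_singleton_iff.1 hx.1⟩)
    · intro x hx
      exact ⟨hx.1, hx.2.1.2, hx.2.2⟩
  have h4 : Nat.card {x : G // ∃ d ∈ N ⊓ C ⊓ L, d * y * d⁻¹ = x} = 2 := by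
    obtain ⟨d, hd, hne⟩ := exists_d A
    rw [Nat.card_eq_two_iff]
    refine ⟨⟨y, 1, Subgroup.one_mem _, by group⟩, ⟨d * y * d⁻¹, d, hd, rfl⟩, ?_, ?_⟩
    · intro h
      have h5 : y = d * y * d⁻¹ := congrArg Subtype.val h
      exact hne (mul_inv_eq_iff_eq_mul.1 h5.symm)
    · rw [Set.eq_univ_iff_forall]
      rintro ⟨x, c, hc, rfl⟩
      have h6 : d * y * d⁻¹ = y * z := by
        rcases conj_y A hd.1.2 hd.1.1 with h | h
        · exact absurd (mul_inv_eq_iff_eq_mul.1 h) hne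
        · exact h
      rcases conj_y A hc.1.2 hc.1.1 with h | h
      · left; exact Subtype.ext h
      · right; exact Subtype.ext (h.trans h6.symm)
  rw [h4, card_DL A, ← h3] at h2
  rw [card_EL A] at h1
  have h5 := card_R_pos A
  set c := Nat.card ↥(Subgroup.centralizer ({y} : Set G) ⊓ (C ⊓ L)) with hc
  have h6 : c = 4 * Nat.card (R ρ) := by omega
  rw [h6] at h1
  have h7 : 4 * Nat.card (R ρ) * Nat.card {x : G // ∃ e ∈ C ⊓ L, e * y * e⁻¹ = x} = 4 * Nat.card (R ρ) * 6 := by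
    rw [h1]; ring
  exact Nat.eq_of_mul_eq_mul_left (by omega) h7

/-- **`L ∩ C` is transitive on the remaining conjugates.** -/
theorem mem_Om {x : G} : x ∈ Om L z ↔ x = z ∨ ∃ e ∈ C ⊓ L, e * (f * z * f⁻¹) * e⁻¹ = x := by
  set y := f * z * f⁻¹ with hy
  have hyz : y ≠ z := fun h => fz A.nd (mul_inv_eq_iff_eq_mul.1 h)
  let S : Set G := {x | ∃ e ∈ C ⊓ L, e * y * e⁻¹ = x}
  have hS : S.ncard = 6 := by rw [← Nat.card_coe_set_eq]; exact card_Om0 A
  have hO : (Om L z).ncard = 7 := by rw [← Nat.card_coe_set_eq]; exact card_Om A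
  have hOfin : (Om L z).Finite := Set.finite_of_ncard_ne_zero (by rw [hO]; norm_num)
  have hSfin : S.Finite := Set.finite_of_ncard_ne_zero (by rw [hS]; norm_num)
  have hzS : z ∉ S := by
    rintro ⟨e, he, hez⟩
    apply hyz
    have h1 := A.nd.chart.Cz e he.1
    calc y = e⁻¹ * (e * y * e⁻¹) * e := by group
      _ = e⁻¹ * (z * e) := by rw [hez]; group
      _ = z := by rw [← h1]; group
  have hle : insert z S ⊆ Om L z := by
    rintro x (rfl | ⟨e, he, rfl⟩)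
    · exact ⟨1, L.one_mem, by group⟩
    · exact ⟨e * f, L.mul_mem he.2 A.fL, by rw [hy]; group⟩
  have heq : insert z S = Om L z := by
    refine Set.eq_of_subset_of_ncard_le hle ?_ hOfin
    rw [Set.ncard_insert_of_notMem hzS hSfin, hS, hO]
  rw [← heq]
  exact Iff.rfl

/-- the elementary abelian subgroup `{1} ∪ z^L` -/
def WW (A : All C N L U Q z eta pi φ ρ f u) : Subgroup G where
  carrier := {x | x = 1 ∨ x ∈ Om L z}
  one_mem' := Or.inl rfl
  mul_mem' := by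
    rintro a b (rfl | ha) (rfl | hb)
    · left; rw [one_mul]
    · right; rw [one_mul]; exact hb
    · right; rw [mul_one]; exact ha
    · obtain ⟨l, hl, rfl⟩ := ha
      obtain ⟨k, hk, rfl⟩ := hb
      have h1 : (l⁻¹ * k) * z * (l⁻¹ * k)⁻¹ ∈ Om L z := ⟨l⁻¹ * k, L.mul_mem (L.inv_mem hl) hk, rfl⟩
      rcases (mem_Om A).1 h1 with h2 | ⟨e, he, h2⟩
      · left
        calc l * z * l⁻¹ * (k * z * k⁻¹) = l * z * ((l⁻¹ * k) * z * (l⁻¹ * k)⁻¹) * l⁻¹ := by group
          _ = l * (z * z) * l⁻¹ := by rw [h2]; group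
          _ = 1 := by rw [A.nd.chart.large.z_sq]; group
      · right
        refine ⟨l * e * f * f, L.mul_mem (L.mul_mem (L.mul_mem hl he.2) A.fL) A.fL, ?_⟩
        have h3 := fy A.nd
        have h4 := A.nd.chart.Cz e he.1
        have h5 : z * e = e * z := h4.symm
        symm
        calc l * z * l⁻¹ * (k * z * k⁻¹) = l * z * ((l⁻¹ * k) * z * (l⁻¹ * k)⁻¹) * l⁻¹ := by group
          _ = l * (z * e) * (f * z * f⁻¹) * e⁻¹ * l⁻¹ := by rw [← h2]; group
          _ = l * e * (z * (f * z * f⁻¹)) * e⁻¹ * l⁻¹ := by rw [h5]; group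
          _ = l * e * (f * (f * z * f⁻¹) * f⁻¹) * e⁻¹ * l⁻¹ := by rw [h3]
          _ = l * e * f * f * z * (l * e * f * f)⁻¹ := by group
  inv_mem' := by
    rintro a (rfl | ⟨l, hl, rfl⟩)
    · left; rw [inv_one]
    · right
      refine ⟨l, hl, ?_⟩
      have h1 : z⁻¹ = z := inv_eq_of_mul_eq_one_left A.nd.chart.large.z_sq
      calc l * z * l⁻¹ = l * z⁻¹ * l⁻¹ := by rw [h1]
        _ = (l * z * l⁻¹)⁻¹ := by group

theorem mem_WW {x : G} : x ∈ WW A ↔ x = 1 ∨ x ∈ Om L z := Iff.rfl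

omit A in
theorem one_notMem (hz : z ≠ 1) : (1 : G) ∉ Om L z := by
  rintro ⟨l, -, h⟩
  apply hz
  calc z = l⁻¹ * (l * z * l⁻¹) * l := by group
    _ = 1 := by rw [h]; group

theorem card_WW : Nat.card (WW A) = 8 := by
  have h1 : ((WW A : Subgroup G) : Set G) = insert 1 (Om L z) := by
    ext x; exact Iff.rfl
  have hO : (Om L z).ncard = 7 := by rw [← Nat.card_coe_set_eq]; exact card_Om A
  have hOfin : (Om L z).Finite := Set.finite_of_ncard_ne_zero (by rw [hO]; norm_num)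
  have h2 : ((WW A : Subgroup G) : Set G).ncard = 8 := by
    rw [h1, Set.ncard_insert_of_notMem (one_notMem A.nd.chart.large.z_ne) hOfin, hO]
  rw [← h2, ← Nat.card_coe_set_eq]; rfl

theorem WW_norm {l x : G} (hl : l ∈ L) (hx : x ∈ WW A) : l * x * l⁻¹ ∈ WW A := by
  rcases hx with rfl | ⟨k, hk, rfl⟩
  · left; group
  · right
    exact ⟨l * k, L.mul_mem hl hk, by group⟩

theorem zW : z ∈ WW A := Or.inr ⟨1, L.one_mem, by group⟩

theorem yW : f * z * f⁻¹ ∈ WW A := Or.inr ⟨f, A.fL, rfl⟩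

theorem WW_Q {x : G} (hx : x ∈ WW A) : x ∈ Q := by
  rcases hx with rfl | h
  · exact Q.one_mem
  · rcases (mem_Om A).1 h with rfl | ⟨e, he, rfl⟩
    · exact A.nd.chart.large.z_mem
    · exact A.nd.chart.large.conj_mem e he.1 _ (yQ A.nd)

theorem four_le : four z (f * z * f⁻¹) ≤ WW A := by
  rw [four, Subgroup.closure_le]
  rintro x (rfl | hx)
  · exact zW A
  · rw [Set.mem_singleton_iff] at hx
    subst hx
    exact yW A

theorem card_four : Nat.card (four z (f * z * f⁻¹)) = 4 := by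
  rw [← pre_W1 A.nd.chart (yQ A.nd) (ey A.nd), RW.card_pre A.nd, card_W1]

theorem finW : Finite (WW A) := Nat.finite_of_card_ne_zero (by rw [card_WW A]; norm_num)

theorem exists_b : ∃ b ∈ WW A, b ∉ four z (f * z * f⁻¹) := by
  by_contra hcon
  push Not at hcon
  have h1 : WW A ≤ four z (f * z * f⁻¹) := hcon
  have h2 : Nat.card (WW A) ∣ Nat.card (four z (f * z * f⁻¹)) := Subgroup.card_dvd_of_le h1
  rw [card_WW A, card_four A] at h2
  norm_num at h2

theorem closure_eq {b : G} (hb : b ∈ WW A) (hbn : b ∉ four z (f * z * f⁻¹)) :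
    Subgroup.closure {z, f * z * f⁻¹, b} = WW A := by
  have hfin := finW A
  have hle : Subgroup.closure {z, f * z * f⁻¹, b} ≤ WW A := by
    rw [Subgroup.closure_le]
    rintro x (rfl | rfl | hx)
    · exact zW A
    · exact yW A
    · rw [Set.mem_singleton_iff] at hx
      subst hx
      exact hb
  have h4 : four z (f * z * f⁻¹) ≤ Subgroup.closure {z, f * z * f⁻¹, b} := by
    rw [four, Subgroup.closure_le]
    rintro x (rfl | hx)
    · exact Subgroup.subset_closure (by simp)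
    · rw [Set.mem_singleton_iff] at hx
      subst hx
      exact Subgroup.subset_closure (by simp)
  have hb8 : b ∈ Subgroup.closure {z, f * z * f⁻¹, b} := Subgroup.subset_closure (by simp)
  have h1 := Subgroup.card_dvd_of_le hle
  have h2 := Subgroup.card_dvd_of_le h4
  rw [card_WW A] at h1
  rw [card_four A] at h2
  have hfin8 : Finite (Subgroup.closure {z, f * z * f⁻¹, b}) := Finite.Set.subset _ hle
  have h3 : Nat.card (Subgroup.closure {z, f * z * f⁻¹, b}) ≠ 4 := by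
    intro h
    apply hbn
    have h5 := Subgroup.eq_of_le_of_card_ge h4 (by rw [card_four A, h])
    rw [h5]; exact hb8
  have h5 : Nat.card (Subgroup.closure {z, f * z * f⁻¹, b}) = 8 := by
    have key : ∀ n ≤ 8, n ∣ 8 → 4 ∣ n → n ≠ 4 → n = 8 := by decide
    exact key _ (Nat.le_of_dvd (by norm_num) h1) h1 h2 h3
  exact Subgroup.eq_of_le_of_card_ge hle (by rw [card_WW A, h5])

/-- the kernel of `L → L_3(2)` centralises `W` -/
theorem R_cent {x w : G} (hx : x ∈ R ρ) (hw : w ∈ WW A) : x * w = w * x := by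
  rcases hw with rfl | ⟨l, hl, rfl⟩
  · simp
  · have hxL := R_le hx
    have h1 : l⁻¹ * x * l ∈ C := by
      refine ker_le_C A.ls (x := (⟨l, hl⟩ : L)⁻¹ * ⟨x, hxL⟩ * ⟨l, hl⟩) ?_
      rw [map_mul, map_mul, (mem_R hxL).1 hx, mul_one, map_inv, inv_mul_cancel]
    have h2 := A.nd.chart.Cz _ h1
    calc x * (l * z * l⁻¹) = l * ((l⁻¹ * x * l) * z) * l⁻¹ := by group
      _ = l * (z * (l⁻¹ * x * l)) * l⁻¹ := by rw [h2]
      _ = l * z * l⁻¹ * x := by group

/-- the centraliser of `W` in `L` -/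
theorem cent_R {x : G} (hxL : x ∈ L) (hx : ∀ w ∈ WW A, x * w = w * x) : x ∈ R ρ := by
  rw [mem_R hxL]
  let T : Subgroup L := (Subgroup.centralizer ((WW A : Subgroup G) : Set G)).subgroupOf L
  have hT : ∀ t : L, t ∈ T ↔ ∀ w ∈ WW A, (t : G) * w = w * t := by
    intro t
    rw [Subgroup.mem_subgroupOf, Subgroup.mem_centralizer_iff]
    exact ⟨fun h w hw => (h w hw).symm, fun h w hw => (h w hw).symm⟩
  have hn : (T.map ρ).Normal := by
    constructor
    rintro _ ⟨t, ht, rfl⟩ s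
    obtain ⟨l, rfl⟩ := A.ls.surj s
    refine ⟨l * t * l⁻¹, ?_, by rw [map_mul, map_mul, map_inv]⟩
    rw [SetLike.mem_coe, hT]
    intro w hw
    have h1 : (l : G)⁻¹ * w * l ∈ WW A := by
      have := WW_norm A (L.inv_mem l.2) hw
      rwa [inv_inv] at this
    have h2 := (hT t).1 ht _ h1
    show (l : G) * t * (l : G)⁻¹ * w = w * ((l : G) * t * (l : G)⁻¹)
    calc (l : G) * t * (l : G)⁻¹ * w = l * (t * ((l : G)⁻¹ * w * l)) * (l : G)⁻¹ := by group
      _ = l * (((l : G)⁻¹ * w * l) * t) * (l : G)⁻¹ := by rw [h2]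
      _ = w * ((l : G) * t * (l : G)⁻¹) := by group
  have hs := Cfsg.Agent.H820.SL32.isSimple
  rcases hs.eq_bot_or_eq_top_of_normal (T.map ρ) hn with h | h
  · have h1 : ρ ⟨x, hxL⟩ ∈ T.map ρ := ⟨⟨x, hxL⟩, (hT _).2 hx, rfl⟩
    rw [h, Subgroup.mem_bot] at h1
    exact h1
  · exfalso
    have h1 : ρ ⟨f, A.fL⟩ ∈ T.map ρ := by rw [h]; exact Subgroup.mem_top _
    obtain ⟨t, ht, htf⟩ := h1
    have h2 : (t : G)⁻¹ * f ∈ R ρ := by
      refine (mem_R (L.mul_mem (L.inv_mem t.2) A.fL)).2 ?_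
      have e : (⟨(t : G)⁻¹ * f, L.mul_mem (L.inv_mem t.2) A.fL⟩ : L) = t⁻¹ * ⟨f, A.fL⟩ := rfl
      rw [e, map_mul, map_inv, htf, inv_mul_cancel]
    have h3 := R_cent A h2 (zW A)
    have h4 := (hT t).1 ht z (zW A)
    apply fz A.nd
    calc f * z = t * ((t : G)⁻¹ * f * z) := by group
      _ = t * (z * ((t : G)⁻¹ * f)) := by rw [h3]
      _ = (t * z) * ((t : G)⁻¹ * f) := by group
      _ = (z * t) * ((t : G)⁻¹ * f) := by rw [h4]
      _ = z * f := by group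

/-- elements of `L` normalising the four group -/
theorem LN {l : G} (hl : l ∈ L) (hn : ∀ v ∈ four z (f * z * f⁻¹), l * v * l⁻¹ ∈ four z (f * z * f⁻¹)) :
    l ∈ N := by
  by_contra hN
  have hfin := A.ls.fin
  have hfin4 : Finite (four z (f * z * f⁻¹)) := Nat.finite_of_card_ne_zero (by rw [card_four A]; norm_num)
  set V := four z (f * z * f⁻¹) with hV
  let K : Subgroup L := (Subgroup.normalizer (V : Set G)).subgroupOf L
  have hK : ∀ t : L, (∀ v ∈ V, (t : G) * v * (t : G)⁻¹ ∈ V) → t ∈ K := by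
    intro t ht
    rw [Subgroup.mem_subgroupOf, Subgroup.mem_normalizer_iff]
    intro v
    refine ⟨ht v, fun h => ?_⟩
    have h1 : V.map (MulAut.conj (t : G)).toMonoidHom = V := by
      apply Subgroup.eq_of_le_of_card_ge
      · rintro _ ⟨w, hw, rfl⟩
        exact ht w hw
      · rw [Subgroup.card_map_of_injective (MulAut.conj (t : G)).injective]
    rw [← h1] at h
    obtain ⟨w, hw, hwv⟩ := h
    have h2 : (t : G) * w * (t : G)⁻¹ = t * v * (t : G)⁻¹ := hwv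
    have h3 : w = v := by
      have := mul_right_cancel h2
      exact mul_left_cancel this
    rw [← h3]; exact hw
  have hle : N.subgroupOf L ≤ K := fun x hx => hK x fun v hv => (nrm A.nd).NV _ hx v hv
  have hKt : K = ⊤ := eq_top_of_prime_index prime7 A.ls.idxN hle (g := ⟨l, hl⟩) (hK _ hn) hN
  have h1 : (Om L z) ⊆ (V : Set G) := by
    rintro _ ⟨k, hk, rfl⟩
    have h2 : (⟨k, hk⟩ : L) ∈ K := by rw [hKt]; exact Subgroup.mem_top _
    have hz : z ∈ V := Subgroup.subset_closure (by simp)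
    exact (Subgroup.mem_normalizer_iff.1 h2 z).1 hz
  have h2 : (Om L z).ncard ≤ (V : Set G).ncard := Set.ncard_le_ncard h1
  have hO : (Om L z).ncard = 7 := by rw [← Nat.card_coe_set_eq]; exact card_Om A
  have hV4 : (V : Set G).ncard = 4 := by
    rw [← Nat.card_coe_set_eq]; exact card_four A
  omega

/-- the centraliser in `L` of `z, y` is transitive on `W ∖ ⟨z, y⟩` -/
theorem trans_b {b b' : G} (hb : b ∈ WW A) (hbn : b ∉ four z (f * z * f⁻¹)) (hb' : b' ∈ WW A)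
    (hbn' : b' ∉ four z (f * z * f⁻¹)) :
    ∃ c ∈ C ⊓ L, c * (f * z * f⁻¹) = f * z * f⁻¹ * c ∧ c * b * c⁻¹ = b' := by
  set y := f * z * f⁻¹ with hy
  have hfin := finW A
  let D : Subgroup G := Subgroup.centralizer ({y} : Set G) ⊓ (C ⊓ L)
  have h1 := card_mul_conj (C ⊓ L) y
  rw [card_Om0 A, card_EL A] at h1
  have hD : Nat.card D = 4 * Nat.card (R ρ) := by
    show Nat.card ↥(Subgroup.centralizer ({y} : Set G) ⊓ (C ⊓ L)) = _
    omega
  have h2 := card_mul_conj D b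
  have h3 : Subgroup.centralizer ({b} : Set G) ⊓ D = R ρ := by
    apply le_antisymm
    · intro x hx
      have hxC := hx.2.2.1
      have hxL := hx.2.2.2
      apply cent_R A hxL
      intro w hw
      have h4 : Subgroup.closure {z, y, b} ≤ Subgroup.centralizer ({x} : Set G) := by
        rw [Subgroup.closure_le]
        rintro t (rfl | rfl | ht)
        · exact Subgroup.mem_centralizer_singleton_iff.2 (A.nd.chart.Cz _ hxC).symm
        · exact Subgroup.mem_centralizer_singleton_iff.2 (Subgroup.mem_centralizer_singleton_iff.1 hx.2.1).symm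
        · rw [Set.mem_singleton_iff] at ht
          subst ht
          exact Subgroup.mem_centralizer_singleton_iff.2 (Subgroup.mem_centralizer_singleton_iff.1 hx.1).symm
      rw [closure_eq A hb hbn] at h4
      exact (Subgroup.mem_centralizer_singleton_iff.1 (h4 hw)).symm
    · intro x hx
      exact ⟨Subgroup.mem_centralizer_singleton_iff.2 (R_cent A hx hb),
        Subgroup.mem_centralizer_singleton_iff.2 (R_cent A hx (yW A)), R_le_C A hx, R_le hx⟩
  rw [h3, hD] at h2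
  have hpos := card_R_pos A
  have h4 : Nat.card {x : G // ∃ d ∈ D, d * b * d⁻¹ = x} = 4 := by
    have h5 : Nat.card (R ρ) * Nat.card {x : G // ∃ d ∈ D, d * b * d⁻¹ = x} = Nat.card (R ρ) * 4 := by
      rw [h2]; ring
    exact Nat.eq_of_mul_eq_mul_left hpos h5
  let S : Set G := {x | ∃ d ∈ D, d * b * d⁻¹ = x}
  let S' : Set G := (WW A : Set G) \ (four z y : Set G)
  have hS : S.ncard = 4 := by rw [← Nat.card_coe_set_eq]; exact h4
  have hW : ((WW A : Subgroup G) : Set G).ncard = 8 := by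
    rw [← Nat.card_coe_set_eq]; exact card_WW A
  have hV : ((four z y : Subgroup G) : Set G).ncard = 4 := by
    rw [← Nat.card_coe_set_eq]; exact card_four A
  have hWfin : ((WW A : Subgroup G) : Set G).Finite := Set.toFinite _
  have hVfin : ((four z y : Subgroup G) : Set G).Finite := hWfin.subset (four_le A)
  have hS' : S'.ncard = 4 := by
    show (((WW A : Subgroup G) : Set G) \ ((four z y : Subgroup G) : Set G)).ncard = 4
    rw [Set.ncard_sdiff (four_le A) hVfin, hW, hV]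
  have hle : S ⊆ S' := by
    rintro x ⟨d, hd, rfl⟩
    refine ⟨WW_norm A hd.2.2 hb, fun h => hbn ?_⟩
    have hdC := hd.2.1
    have hdy := Subgroup.mem_centralizer_singleton_iff.1 hd.1
    have h5 : d * b * d⁻¹ ∈ Subgroup.centralizer ({d} : Set G) := by
      have h6 : four z y ≤ Subgroup.centralizer ({d} : Set G) := by
        rw [four, Subgroup.closure_le]
        rintro t (rfl | ht)
        · exact Subgroup.mem_centralizer_singleton_iff.2 (A.nd.chart.Cz _ hdC).symm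
        · rw [Set.mem_singleton_iff] at ht
          subst ht
          exact Subgroup.mem_centralizer_singleton_iff.2 hdy.symm
      exact h6 h
    have h7 := Subgroup.mem_centralizer_singleton_iff.1 h5
    have h8 : d * b * d⁻¹ = b := by
      calc d * b * d⁻¹ = d⁻¹ * (d * (d * b * d⁻¹)) := by group
        _ = d⁻¹ * ((d * b * d⁻¹) * d) := by rw [h7]
        _ = b := by group
    rw [← h8]; exact h
  have heq : S = S' := Set.eq_of_subset_of_ncard_le hle (by rw [hS, hS']) (hWfin.subset Set.sdiff_subset)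
  have h5 : b' ∈ S := by rw [heq]; exact ⟨hb', hbn'⟩
  obtain ⟨c, hc, hcb⟩ := h5
  exact ⟨c, hc.2, Subgroup.mem_centralizer_singleton_iff.1 hc.1, hcb⟩

/-- **`L` induces all automorphisms of `W`.** -/
theorem full {b : G} (hb : b ∈ WW A) (hbn : b ∉ four z (f * z * f⁻¹)) (g : WW A ≃* WW A) :
    ∃ l ∈ L, ∀ w : WW A, l * (w : G) * l⁻¹ = g w := by
  have hyz : f * z * f⁻¹ ≠ z := fun h => fz A.nd (mul_inv_eq_iff_eq_mul.1 h)
  have hz1 := A.nd.chart.large.z_ne
  -- the image of `z`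
  have h1 : (g ⟨z, zW A⟩ : G) ∈ Om L z := by
    rcases (g ⟨z, zW A⟩).2 with h | h
    · exfalso
      have h2 : g ⟨z, zW A⟩ = 1 := Subtype.ext h
      rw [map_eq_one_iff g g.injective] at h2
      exact hz1 (congrArg Subtype.val h2)
    · exact h
  obtain ⟨l₁, hl₁, e₁⟩ := h1
  -- the image of `y`
  have h2 : l₁⁻¹ * (g ⟨f * z * f⁻¹, yW A⟩ : G) * l₁ ∈ WW A := by
    have := WW_norm A (L.inv_mem hl₁) (g ⟨f * z * f⁻¹, yW A⟩).2
    rwa [inv_inv] at this
  have h3 : ∃ e ∈ C ⊓ L, e * (f * z * f⁻¹) * e⁻¹ = l₁⁻¹ * (g ⟨f * z * f⁻¹, yW A⟩ : G) * l₁ := by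
    rcases h2 with h | h
    · exfalso
      have h4 : (g ⟨f * z * f⁻¹, yW A⟩ : G) = 1 := by
        calc (g ⟨f * z * f⁻¹, yW A⟩ : G) = l₁ * (l₁⁻¹ * (g ⟨f * z * f⁻¹, yW A⟩ : G) * l₁) * l₁⁻¹ := by group
          _ = 1 := by rw [h]; group
      have h5 : g ⟨f * z * f⁻¹, yW A⟩ = 1 := Subtype.ext h4
      rw [map_eq_one_iff g g.injective] at h5
      have h6 : f * z * f⁻¹ = 1 := congrArg Subtype.val h5
      apply hz1
      calc z = f⁻¹ * (f * z * f⁻¹) * f := by group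
        _ = 1 := by rw [h6]; group
    · rcases (mem_Om A).1 h with h4 | h4
      · exfalso
        have h5 : (g ⟨f * z * f⁻¹, yW A⟩ : G) = g ⟨z, zW A⟩ := by
          rw [← e₁]
          calc (g ⟨f * z * f⁻¹, yW A⟩ : G) = l₁ * (l₁⁻¹ * (g ⟨f * z * f⁻¹, yW A⟩ : G) * l₁) * l₁⁻¹ := by group
            _ = l₁ * z * l₁⁻¹ := by rw [h4]
        have h6 := g.injective (Subtype.ext h5)
        exact hyz (congrArg Subtype.val h6)
      · exact h4
  obtain ⟨e, he, e₂⟩ := h3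
  set l₂ := l₁ * e with hl₂
  have hl₂L : l₂ ∈ L := L.mul_mem hl₁ he.2
  have k1 : l₂ * z * l₂⁻¹ = g ⟨z, zW A⟩ := by
    have h4 := A.nd.chart.Cz e he.1
    rw [← e₁, hl₂]
    calc l₁ * e * z * (l₁ * e)⁻¹ = l₁ * (e * z) * e⁻¹ * l₁⁻¹ := by group
      _ = l₁ * (z * e) * e⁻¹ * l₁⁻¹ := by rw [h4]
      _ = l₁ * z * l₁⁻¹ := by group
  have k2 : l₂ * (f * z * f⁻¹) * l₂⁻¹ = g ⟨f * z * f⁻¹, yW A⟩ := by
    calc l₂ * (f * z * f⁻¹) * l₂⁻¹ = l₁ * (e * (f * z * f⁻¹) * e⁻¹) * l₁⁻¹ := by rw [hl₂]; group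
      _ = l₁ * (l₁⁻¹ * (g ⟨f * z * f⁻¹, yW A⟩ : G) * l₁) * l₁⁻¹ := by rw [e₂]
      _ = g ⟨f * z * f⁻¹, yW A⟩ := by group
  -- the image of `b`
  have h5 : l₂⁻¹ * (g ⟨b, hb⟩ : G) * l₂ ∈ WW A := by
    have := WW_norm A (L.inv_mem hl₂L) (g ⟨b, hb⟩).2
    rwa [inv_inv] at this
  have h6 : l₂⁻¹ * (g ⟨b, hb⟩ : G) * l₂ ∉ four z (f * z * f⁻¹) := by
    intro h
    have hgb : (g ⟨b, hb⟩ : G) = l₂ * (l₂⁻¹ * (g ⟨b, hb⟩ : G) * l₂) * l₂⁻¹ := by group
    have key : ∀ v (hv : v ∈ four z (f * z * f⁻¹)), l₂ * v * l₂⁻¹ = g ⟨v, four_le A hv⟩ := by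
      intro v hv
      rcases (RPerf.mem_four A.nd.chart (yQ A.nd) (ey A.nd)).1 hv with rfl | rfl | rfl | rfl
      · have e : (⟨1, four_le A hv⟩ : WW A) = 1 := rfl
        rw [e, map_one]
        show l₂ * 1 * l₂⁻¹ = 1
        group
      · exact k1
      · exact k2
      · have e : (⟨z * (f * z * f⁻¹), four_le A hv⟩ : WW A) = ⟨z, zW A⟩ * ⟨f * z * f⁻¹, yW A⟩ := rfl
        rw [e, map_mul]
        show l₂ * (z * (f * z * f⁻¹)) * l₂⁻¹ = (g ⟨z, zW A⟩ : G) * (g ⟨f * z * f⁻¹, yW A⟩ : G)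
        rw [← k1, ← k2]; group
    rw [key _ h] at hgb
    have h7 := g.injective (Subtype.ext hgb)
    have h8 : b = l₂⁻¹ * (g ⟨b, hb⟩ : G) * l₂ := congrArg Subtype.val h7
    apply hbn
    rw [h8]; exact h
  obtain ⟨c, hc, hcy, hcb⟩ := trans_b A hb hbn h5 h6
  refine ⟨l₂ * c, L.mul_mem hl₂L hc.2, ?_⟩
  have m1 : l₂ * c * z * (l₂ * c)⁻¹ = g ⟨z, zW A⟩ := by
    have h4 := A.nd.chart.Cz c hc.1
    rw [← k1]
    calc l₂ * c * z * (l₂ * c)⁻¹ = l₂ * (c * z) * c⁻¹ * l₂⁻¹ := by group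
      _ = l₂ * (z * c) * c⁻¹ * l₂⁻¹ := by rw [h4]
      _ = l₂ * z * l₂⁻¹ := by group
  have m2 : l₂ * c * (f * z * f⁻¹) * (l₂ * c)⁻¹ = g ⟨f * z * f⁻¹, yW A⟩ := by
    rw [← k2]
    calc l₂ * c * (f * z * f⁻¹) * (l₂ * c)⁻¹ = l₂ * (c * (f * z * f⁻¹)) * c⁻¹ * l₂⁻¹ := by group
      _ = l₂ * (f * z * f⁻¹ * c) * c⁻¹ * l₂⁻¹ := by rw [hcy]
      _ = l₂ * (f * z * f⁻¹) * l₂⁻¹ := by group
  have m3 : l₂ * c * b * (l₂ * c)⁻¹ = g ⟨b, hb⟩ := by
    calc l₂ * c * b * (l₂ * c)⁻¹ = l₂ * (c * b * c⁻¹) * l₂⁻¹ := by group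
      _ = l₂ * (l₂⁻¹ * (g ⟨b, hb⟩ : G) * l₂) * l₂⁻¹ := by rw [hcb]
      _ = g ⟨b, hb⟩ := by group
  set l := l₂ * c with hl
  -- the equaliser
  let T : Subgroup G :=
    { carrier := {x | ∃ hx : x ∈ WW A, l * x * l⁻¹ = g ⟨x, hx⟩}
      one_mem' := ⟨(WW A).one_mem, by
        have e : (⟨1, (WW A).one_mem⟩ : WW A) = 1 := rfl
        rw [e, map_one]
        show l * 1 * l⁻¹ = 1
        group⟩
      mul_mem' := by
        rintro p q ⟨hp, ep⟩ ⟨hq, eq⟩
        refine ⟨(WW A).mul_mem hp hq, ?_⟩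
        have e : (⟨p * q, (WW A).mul_mem hp hq⟩ : WW A) = ⟨p, hp⟩ * ⟨q, hq⟩ := rfl
        rw [e, map_mul]
        show l * (p * q) * l⁻¹ = (g ⟨p, hp⟩ : G) * (g ⟨q, hq⟩ : G)
        rw [← ep, ← eq]; group
      inv_mem' := by
        rintro p ⟨hp, ep⟩
        refine ⟨(WW A).inv_mem hp, ?_⟩
        have e : (⟨p⁻¹, (WW A).inv_mem hp⟩ : WW A) = (⟨p, hp⟩ : WW A)⁻¹ := rfl
        rw [e, map_inv]
        show l * p⁻¹ * l⁻¹ = (g ⟨p, hp⟩ : G)⁻¹
        rw [← ep]; group }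
  have hT : Subgroup.closure {z, f * z * f⁻¹, b} ≤ T := by
    rw [Subgroup.closure_le]
    rintro t (rfl | rfl | ht)
    · exact ⟨zW A, m1⟩
    · exact ⟨yW A, m2⟩
    · rw [Set.mem_singleton_iff] at ht
      subst ht
      exact ⟨hb, m3⟩
  rw [closure_eq A hb hbn] at hT
  intro w
  obtain ⟨hx, hw⟩ := hT w.2
  exact hw

/-- **The group is the Monster.** -/
theorem isoM (hgen : C ⊔ N ⊔ L = ⊤) : Cfsg.Spor.IsoM G := by
  obtain ⟨b, hb, hbn⟩ := exists_b A
  have hbO : ∃ e ∈ C ⊓ L, e * (f * z * f⁻¹) * e⁻¹ = b := by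
    rcases hb with h | h
    · exfalso; apply hbn; rw [h]; exact Subgroup.one_mem _
    · rcases (mem_Om A).1 h with h | h
      · exfalso; apply hbn; rw [h]; exact Subgroup.subset_closure (by simp)
      · exact h
  obtain ⟨e, he, hee⟩ := hbO
  refine RFinal.isoM (C := C) (N' := N) (L := L) (Q' := Q) (z' := z) (y' := f * z * f⁻¹) (b' := b)
    (eta' := eta) (pi' := pi)
    { chart := A.nd.chart
      yQ := yQ A.nd
      ey := ey A.nd
      nrm := nrm A.nd
      t := ⟨f, A.nd.fN, rfl, fy A.nd⟩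
      bQ := WW_Q A hb
      eb := eb A.nd (WW_Q A hb) (WW_Q A (by
        have := WW_norm A (L.inv_mem A.fL) hb
        rwa [inv_inv] at this))
      bn := hbn
      bc := ⟨e, he.1, hee⟩
      third := ?_
      LCN := LCN A
      gen := hgen }
  rw [closure_eq A hb hbn]
  exact
    { zW := zW A
      LC := fun l hl h => LC A hl h
      LN := fun l hl h => LN A hl h
      full := fun g => full A hb hbn g }

end Cfsg.Agent.H861.RY
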