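import Cfsg.Agent.H861.RM
import Cfsg.Agent.H861.RGen

/-!
# `z ∈ O_2(N)`, `Q ≤ N` and `Q ∩ O_2(N)` is the preimage of `W23`
-/

set_option autoImplicit false

open Cfsg

namespace Cfsg.Agent.H861.RZ

open Cfsg.Agent.MonsterU.Lam2 (L2 bf)
open Cfsg.Agent.MonsterU.CoFrameL2 (f0 f0_ne mem_W1 W1 W12 W23 W1_le_W12 W12_le_W23)
open Cfsg.Agent.MonsterU.CoFrameIrr (X card_W1 card_W12 card_W23 uniserial fix_E irr_E)
open Cfsg.Agent.MonsterU.CoFrameF (F card_F E_le_F)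
open Cfsg.Agent.CoOneType.CoOneE (pr E card_E)
open Cfsg.Spor (Co1)
open Cfsg.Agent.H861.RUtil
open Cfsg.Agent.H861.RN
open Cfsg.Agent.H861.RM

variable {G : Type*} [Group G] {C N U Q : Subgroup G} {z : G} {eta : G → L2} {pi : C →* Co1}
  {φ : N →* Equiv.Perm (Fin 3) × M24} {f u : G} (H : NData C N U Q z eta pi φ f u)

include H

theorem fU {x : G} (hx : x ∈ U) : f * x * f⁻¹ ∈ U := Unorm H.str H.fN hx

theorem uU {x : G} (hx : x ∈ U) : u * x * u⁻¹ ∈ U := Unorm H.str H.uN hx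

theorem uM : u ∈ MM φ := (mem_MM H.uN).2 H.uσ

theorem hfu : f * u * f⁻¹ * u⁻¹ ∈ U := by
  refine (H.str.ker (⟨f, H.fN⟩ * ⟨u, H.uN⟩ * ⟨f, H.fN⟩⁻¹ * ⟨u, H.uN⟩⁻¹)).1 ?_
  rw [map_mul, map_mul, map_mul, map_inv, map_inv]
  apply Prod.ext
  · show (φ ⟨f, H.fN⟩).1 * (φ ⟨u, H.uN⟩).1 * ((φ ⟨f, H.fN⟩).1)⁻¹ * ((φ ⟨u, H.uN⟩).1)⁻¹ = 1
    rw [H.uσ]; group
  · show (φ ⟨f, H.fN⟩).2 * (φ ⟨u, H.uN⟩).2 * ((φ ⟨f, H.fN⟩).2)⁻¹ * ((φ ⟨u, H.uN⟩).2)⁻¹ = 1
    rw [H.fμ]; group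

/-- a `u`-invariant subgroup of `U` has image `1` or `E` -/
theorem img_cases {T : Subgroup G} (hT : T ≤ U) (hu : ∀ x ∈ T, u * x * u⁻¹ ∈ T) :
    T ≤ Q ∨ img pi T = E := by
  have h1 : img pi T ≤ E := by rw [← img_U H]; exact Subgroup.map_mono (fun x hx => hT hx)
  rcases irr_E (img pi T) h1 (by
    intro s hs
    obtain ⟨x, hx, hxT, rfl⟩ := mem_img.1 hs
    refine mem_img.2 ⟨u * x * u⁻¹, C.mul_mem (C.mul_mem H.uC hx) (C.inv_mem H.uC), hu x hxT, ?_⟩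
    rw [← H.uX, ← map_inv, ← map_mul, ← map_mul]; rfl) with h | h
  · left
    intro x hx
    have h2 : pi ⟨x, U_le H.str (hT hx)⟩ ∈ img pi T := mem_img.2 ⟨x, U_le H.str (hT hx), hx, rfl⟩
    rw [h, Subgroup.mem_bot] at h2
    exact (H.chart.pi_eq_one _).1 h2
  · right; exact h

/-- `u` is irreducible on `U / (Q ∩ U)` -/
theorem irrU (T : Subgroup G) (h1 : Q ⊓ U ≤ T) (h2 : T ≤ U) (hu : ∀ x ∈ T, u * x * u⁻¹ ∈ T) :
    T = Q ⊓ U ∨ T = U := by
  rcases img_cases H h2 hu with h | h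
  · left; exact le_antisymm (le_inf h h2) h1
  · right
    refine le_antisymm h2 fun x hx => ?_
    have h3 : pi ⟨x, U_le H.str hx⟩ ∈ img pi T := by
      rw [h, ← img_U H]
      exact mem_img.2 ⟨x, U_le H.str hx, hx, rfl⟩
    obtain ⟨t, ht, htT, htx⟩ := mem_img.1 h3
    have h4 : (t : G)⁻¹ * x ∈ Q := H.chart.pi_eq.1 htx
    have h5 := T.mul_mem htT (h1 ⟨h4, U.mul_mem (U.inv_mem (h2 htT)) hx⟩)
    rwa [mul_inv_cancel_left] at h5

theorem commU {x y : G} (hx : x ∈ U) (hy : y ∈ U) : x * y * x⁻¹ * y⁻¹ ∈ Q ⊓ U := by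
  refine ⟨?_, U.mul_mem (U.mul_mem (U.mul_mem hx hy) (U.inv_mem hx)) (U.inv_mem hy)⟩
  have hxC := U_le H.str hx
  have hyC := U_le H.str hy
  have h1 : pi ⟨x, hxC⟩ ∈ E := by rw [← img_U H]; exact mem_img.2 ⟨x, hxC, hx, rfl⟩
  have h2 : pi ⟨y, hyC⟩ ∈ E := by rw [← img_U H]; exact mem_img.2 ⟨y, hyC, hy, rfl⟩
  refine (H.chart.pi_eq_one (⟨x, hxC⟩ * ⟨y, hyC⟩ * ⟨x, hxC⟩⁻¹ * ⟨y, hyC⟩⁻¹)).1 ?_
  rw [map_mul, map_mul, map_mul, map_inv, map_inv, MonsterU.CoFrameF.comm_of_mem_E h1 h2]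
  group

theorem card_U : Nat.card U = 2 ^ 11 * Nat.card ↥(Q ⊓ U) := by
  have h1 := card_img H (U_le H.str)
  rw [img_U H, card_E] at h1
  rw [← h1]; norm_num; ring

theorem zC {x : G} (hx : x ∈ U) : x * z = z * x := H.chart.Cz x (U_le H.str hx)

theorem uQU {x : G} (hx : x ∈ Q ⊓ U) : u * x * u⁻¹ ∈ Q ⊓ U :=
  ⟨H.chart.large.conj_mem u H.uC x hx.1, uU H hx.2⟩

theorem fin_QU : Nat.card ↥(Q ⊓ U) ≠ 0 := by
  have := H.chart.fin
  have : Finite ↥(Q ⊓ U) := Set.Finite.subset (Set.toFinite (Q : Set G)) (fun x hx => hx.1)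
  exact Nat.card_pos.ne'

/-- `f` centralises `U` if it normalises and centralises `Q ∩ U` -/
theorem false_of_cent (hf : ∀ x ∈ Q ⊓ U, f * x * f⁻¹ ∈ Q ⊓ U) (hc : ∀ x ∈ Q ⊓ U, f * x = x * f) : False := by
  have h1 := section_trivial (U := U) (A := Q ⊓ U) (B := U) inf_le_right le_rfl H.f3 (hfu H) hf
    (fun x hx => fU H hx) (fun x hx => uQU H hx) (fun x hx => uU H hx) (fun g hg x hx => commU H hg hx)
    (irrU H) (card_U H) (fin_QU H)
  obtain ⟨w, hw, hne⟩ := H.fw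
  exact hne (comm_of_section H.str.U2 inf_le_right H.f3 hc (h1 w hw))

/-- the centre of `U` -/
def Zc (U : Subgroup G) : Subgroup G := U ⊓ Subgroup.centralizer (U : Set G)

omit H in
theorem mem_Zc {x : G} : x ∈ Zc U ↔ x ∈ U ∧ ∀ y ∈ U, y * x = x * y := by
  rw [Zc, Subgroup.mem_inf, Subgroup.mem_centralizer_iff]; rfl

theorem Zc_norm {n x : G} (hn : n ∈ N) (hx : x ∈ Zc U) : n * x * n⁻¹ ∈ Zc U := by
  rw [mem_Zc] at hx ⊢
  refine ⟨Unorm H.str hn hx.1, fun y hy => ?_⟩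
  have h1 := hx.2 (n⁻¹ * y * n) (by
    have := Unorm H.str (N.inv_mem hn) hy
    rwa [inv_inv] at this)
  calc y * (n * x * n⁻¹) = n * ((n⁻¹ * y * n) * x) * n⁻¹ := by group
    _ = n * (x * (n⁻¹ * y * n)) * n⁻¹ := by rw [h1]
    _ = n * x * n⁻¹ * y := by group

/-- **`Q ∩ U` is not contained in `⟨z⟩`.** -/
theorem claimB (hle : ∀ x ∈ Q ⊓ U, x = 1 ∨ x = z) : False := by
  have hZ0 : Q ⊓ U ≤ Zc U := by
    intro x hx
    rw [mem_Zc]
    refine ⟨hx.2, fun y hy => ?_⟩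
    rcases hle x hx with rfl | rfl
    · simp
    · exact zC H hy
  have hf : ∀ x ∈ Q ⊓ U, f * x * f⁻¹ ∈ Q ⊓ U := by
    rcases img_cases H (T := Zc U) inf_le_left (fun x hx => Zc_norm H H.uN hx) with h | h
    · -- the centre is `Q ⊓ U`
      intro x hx
      have h1 := Zc_norm H H.fN (hZ0 hx)
      exact ⟨h h1, h1.1⟩
    · -- `U` is abelian
      have hab : ∀ x ∈ U, ∀ y ∈ U, x * y = y * x := by
        intro x hx y hy
        have h1 : Zc U = U := by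
          rcases irrU H (Zc U) hZ0 inf_le_left (fun x hx => Zc_norm H H.uN hx) with h2 | h2
          · exfalso
            have h3 : img pi (Zc U) = ⊥ := by
              rw [h2, eq_bot_iff]
              intro s hs
              obtain ⟨t, ht, htT, rfl⟩ := mem_img.1 hs
              rw [Subgroup.mem_bot]
              exact (H.chart.pi_eq_one _).2 htT.1
            rw [h] at h3
            have h4 := card_E
            rw [h3, Subgroup.card_bot] at h4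
            norm_num at h4
          · exact h2
        rw [← h1] at hx
        exact ((mem_Zc.1 hx).2 y hy).symm
      intro x hx
      have hxu : u * x = x * u := by
        rcases hle x hx with rfl | rfl
        · simp
        · exact H.chart.Cz u H.uC
      have h1 : f * x * f⁻¹ ∈ U := fU H hx.2
      have h2 : u * (f * x * f⁻¹) = f * x * f⁻¹ * u := by
        set w := f * u * f⁻¹ * u⁻¹ with hw
        have e1 : u * (f * x * f⁻¹) * u⁻¹ = w⁻¹ * (f * (u * x * u⁻¹) * f⁻¹) * w := by rw [hw]; group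
        have e2 : u * x * u⁻¹ = x := by rw [hxu]; group
        have e3 := hab w (hfu H) _ h1
        rw [← mul_inv_eq_iff_eq_mul, e1, e2, mul_assoc, ← e3]; group
      refine ⟨?_, h1⟩
      have hC := U_le H.str h1
      have h3 : pi ⟨f * x * f⁻¹, hC⟩ ∈ E := by
        rw [← img_U H]; exact mem_img.2 ⟨_, hC, h1, rfl⟩
      have h4 : X * pi ⟨f * x * f⁻¹, hC⟩ * X⁻¹ = pi ⟨f * x * f⁻¹, hC⟩ := by
        rw [mul_inv_eq_iff_eq_mul, ← H.uX, ← map_mul, ← map_mul]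
        congr 1
        exact Subtype.ext h2
      exact (H.chart.pi_eq_one _).1 (fix_E h3 h4)
  refine false_of_cent H hf fun x hx => ?_
  have h1 := hf x hx
  rw [← mul_inv_eq_iff_eq_mul]
  rcases hle x hx with rfl | rfl
  · group
  · rcases hle _ h1 with h2 | h2
    · exfalso
      apply H.chart.large.z_ne
      calc x = f⁻¹ * (f * x * f⁻¹) * f := by group
        _ = 1 := by rw [h2]; group
    · exact h2

omit H in
/-- the centre of `M_24` is trivial -/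
theorem cent_M24 {m : M24} (h : ∀ x : M24, x * m = m * x) : m = 1 := by
  have h1 : m ∈ Subgroup.center M24 := Subgroup.mem_center_iff.2 h
  rcases (inferInstance : IsSimpleGroup M24).eq_bot_or_eq_top_of_normal (Subgroup.center M24) inferInstance with
    h2 | h2
  · rw [h2, Subgroup.mem_bot] at h1; exact h1
  · exfalso
    have h3 := MonsterU.CoFrameF.commutator_M24
    have h4 : commutator M24 = ⊥ := by
      rw [commutator_def, Subgroup.commutator_eq_bot_iff_le_centralizer]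
      intro x _
      rw [Subgroup.mem_centralizer_iff]
      intro y _
      have hx : x ∈ Subgroup.center M24 := by rw [h2]; exact Subgroup.mem_top x
      exact Subgroup.mem_center_iff.1 hx y
    rw [h4] at h3
    have h5 := card_M24
    rw [← Subgroup.card_top (G := M24), ← h3, Subgroup.card_bot] at h5
    norm_num at h5

omit H in
theorem perm_fact : ∀ r s : Equiv.Perm (Fin 3), r * r * r = 1 → r ≠ 1 → s * s = 1 → s ≠ 1 →
    r * s * r⁻¹ * s⁻¹ = r * r := by decide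

/-- **`z ∈ N` implies `z ∈ U`.** -/
theorem claimA (hz : z ∈ N) : z ∈ U := by
  have hfσ : (φ ⟨f, H.fN⟩).1 ≠ 1 := by
    intro h
    have h1 : f ∈ C := M_le H.str (n := ⟨f, H.fN⟩) h
    exact notMem_C H.str (f := ⟨f, H.fN⟩) H.f3 H.f1 H.fμ h1
  have hfσ3 : (φ ⟨f, H.fN⟩).1 * (φ ⟨f, H.fN⟩).1 * (φ ⟨f, H.fN⟩).1 = 1 := by
    have h1 : (⟨f, H.fN⟩ : N) * ⟨f, H.fN⟩ * ⟨f, H.fN⟩ = 1 := Subtype.ext (by
      show f * f * f = 1
      rw [← H.f3, pow_succ, pow_two])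
    have h2 := congrArg (fun x => (φ x).1) h1
    simp only [map_mul, map_one] at h2
    exact h2
  have h2 : (φ ⟨z, hz⟩).2 = 1 := by
    apply cent_M24
    intro m
    obtain ⟨n, hn⟩ := H.str.surj (1, m)
    have hnC : (n : G) ∈ C := M_le H.str (by rw [hn])
    have h3 : n * ⟨z, hz⟩ = ⟨z, hz⟩ * n := Subtype.ext (H.chart.Cz _ hnC)
    have h4 := congrArg (fun x => (φ x).2) h3
    simp only [map_mul] at h4
    have h5 : (φ n).2 = m := by rw [hn]
    rw [← h5]; exact h4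
  have h1 : (φ ⟨z, hz⟩).1 * (φ ⟨z, hz⟩).1 = 1 := by
    have h3 : (⟨z, hz⟩ : N) * ⟨z, hz⟩ = 1 := Subtype.ext H.chart.large.z_sq
    have h4 := congrArg (fun x => (φ x).1) h3
    simp only [map_mul, map_one] at h4
    exact h4
  by_cases hs : (φ ⟨z, hz⟩).1 = 1
  · exact (H.str.ker ⟨z, hz⟩).1 (Prod.ext hs h2)
  · exfalso
    -- `g = [f, z]` centralises `U`
    have hzU : ∀ x ∈ U, z * x = x * z := fun x hx => (zC H hx).symm
    have hgU : ∀ x ∈ U, (f * z * f⁻¹ * z⁻¹) * x = x * (f * z * f⁻¹ * z⁻¹) := by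
      intro x hx
      have hx' : f⁻¹ * x * f ∈ U := by
        have := Unorm H.str (N.inv_mem H.fN) hx
        rwa [inv_inv] at this
      have e1 : z⁻¹ * x = x * z⁻¹ := by
        rw [inv_mul_eq_iff_eq_mul, ← mul_assoc, hzU x hx]; group
      have e2 := hzU _ hx'
      calc (f * z * f⁻¹ * z⁻¹) * x = f * z * f⁻¹ * (z⁻¹ * x) := by group
        _ = f * (z * (f⁻¹ * x * f)) * f⁻¹ * z⁻¹ := by rw [e1]; group
        _ = f * ((f⁻¹ * x * f) * z) * f⁻¹ * z⁻¹ := by rw [e2]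
        _ = x * (f * z * f⁻¹ * z⁻¹) := by group
    have hv : (f * z * f⁻¹ * z⁻¹)⁻¹ * (f * f) ∈ U := by
      refine (H.str.ker ((⟨f, H.fN⟩ * ⟨z, hz⟩ * ⟨f, H.fN⟩⁻¹ * ⟨z, hz⟩⁻¹)⁻¹ * (⟨f, H.fN⟩ * ⟨f, H.fN⟩))).1 ?_
      simp only [map_mul, map_inv]
      apply Prod.ext
      · have e := perm_fact _ _ hfσ3 hfσ h1 hs
        show ((φ ⟨f, H.fN⟩).1 * (φ ⟨z, hz⟩).1 * ((φ ⟨f, H.fN⟩).1)⁻¹ * ((φ ⟨z, hz⟩).1)⁻¹)⁻¹ *
          ((φ ⟨f, H.fN⟩).1 * (φ ⟨f, H.fN⟩).1) = 1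
        rw [e, inv_mul_cancel]
      · show ((φ ⟨f, H.fN⟩).2 * (φ ⟨z, hz⟩).2 * ((φ ⟨f, H.fN⟩).2)⁻¹ * ((φ ⟨z, hz⟩).2)⁻¹)⁻¹ *
          ((φ ⟨f, H.fN⟩).2 * (φ ⟨f, H.fN⟩).2) = 1
        rw [H.fμ, h2]; group
    set g := f * z * f⁻¹ * z⁻¹ with hg
    -- in the quotient by the centraliser
    have hgS : g ∈ Subgroup.centralizer (U : Set G) := by
      rw [Subgroup.mem_centralizer_iff]
      intro x hx
      exact (hgU x hx).symm
    have hf6 : (f * f) ^ 3 = 1 := by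
      rw [← pow_two, ← pow_mul, mul_comm, pow_mul, H.f3, one_pow]
    obtain ⟨k, hk⟩ := H.str.U2 ⟨g⁻¹ * (f * f), hv⟩
    have hk' : (g⁻¹ * (f * f)) ^ 2 ^ k = 1 := congrArg Subtype.val hk
    -- `g` commutes with `v = g⁻¹ f²`
    have hgv : Commute g (g⁻¹ * (f * f)) := hgU _ hv
    have hff : f * f = g * (g⁻¹ * (f * f)) := by group
    have h3 : (f * f) ^ 2 ^ k ∈ Subgroup.centralizer (U : Set G) := by
      rw [hff, hgv.mul_pow, hk', mul_one]
      exact Subgroup.pow_mem _ hgS _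
    have h4 : f * f ∈ Subgroup.centralizer (U : Set G) := mem_of_coprime_pow (a := 3) (b := 2 ^ k)
      (Nat.Coprime.pow_right k (by norm_num)) (by rw [hf6]; exact Subgroup.one_mem _) h3
    have h5 : f ∈ Subgroup.centralizer (U : Set G) := by
      have h6 : f = (f * f) * (f * f) := by
        calc f = f ^ 3 * f := by rw [H.f3, one_mul]
          _ = (f * f) * (f * f) := by rw [pow_succ, pow_two]; group
      rw [h6]; exact Subgroup.mul_mem _ h4 h4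
    obtain ⟨w, hw, hne⟩ := H.fw
    exact hne (Subgroup.mem_centralizer_iff.1 h5 w hw).symm

/-! ### The image in the lattice -/

/-- the image in `Λ/2Λ` of a subgroup of `Q` -/
def et (H : NData C N U Q z eta pi φ f u) (S : Subgroup G) (hS : S ≤ Q) : AddSubgroup L2 where
  carrier := {v | ∃ x ∈ S, eta x = v}
  zero_mem' := ⟨1, S.one_mem, H.chart.eta_one⟩
  add_mem' := by
    rintro _ _ ⟨x, hx, rfl⟩ ⟨y, hy, rfl⟩
    exact ⟨x * y, S.mul_mem hx hy, H.chart.eta_mul x (hS hx) y (hS hy)⟩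
  neg_mem' := by
    rintro _ ⟨x, hx, rfl⟩
    exact ⟨x⁻¹, S.inv_mem hx, by rw [H.chart.eta_inv (hS hx), MonsterU.Lam2.neg_eq]⟩

/-- the homomorphism `S → Λ/2Λ` -/
def eh (H : NData C N U Q z eta pi φ f u) (S : Subgroup G) (hS : S ≤ Q) : S →* Multiplicative L2 where
  toFun x := Multiplicative.ofAdd (eta (x : G))
  map_one' := H.chart.eta_one
  map_mul' x y := H.chart.eta_mul x (hS x.2) y (hS y.2)

theorem card_et {S : Subgroup G} (hS : S ≤ Q) :
    Nat.card S = Nat.card (eh H S hS).ker * Nat.card (et H S hS) := by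
  have h1 := (eh H S hS).ker.card_mul_index
  rw [Subgroup.index_ker] at h1
  have h2 : Nat.card (eh H S hS).range = Nat.card (et H S hS) := by
    refine Nat.card_congr
      { toFun := fun x => ⟨Multiplicative.toAdd (x : Multiplicative L2), ?_⟩
        invFun := fun x => ⟨Multiplicative.ofAdd (x : L2), ?_⟩
        left_inv := fun x => rfl
        right_inv := fun x => rfl }
    · obtain ⟨y, hy⟩ := x.2
      exact ⟨y, y.2, congrArg Multiplicative.toAdd hy⟩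
    · obtain ⟨y, hy, hyx⟩ := x.2
      exact ⟨⟨y, hy⟩, congrArg Multiplicative.ofAdd hyx⟩
  rw [h2] at h1
  exact h1.symm

theorem mem_ker {S : Subgroup G} (hS : S ≤ Q) (x : S) : x ∈ (eh H S hS).ker ↔ (x : G) = 1 ∨ (x : G) = z := by
  rw [MonoidHom.mem_ker]
  exact H.chart.eta_zero x (hS x.2)

theorem card_et_of_mem {S : Subgroup G} (hS : S ≤ Q) (hz : z ∈ S) : Nat.card S = 2 * Nat.card (et H S hS) := by
  rw [card_et H hS]
  congr 1
  rw [Nat.card_eq_two_iff]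
  refine ⟨1, ⟨⟨z, hz⟩, (mem_ker H hS _).2 (Or.inr rfl)⟩, ?_, ?_⟩
  · intro h
    apply H.chart.large.z_ne
    exact (congrArg (fun t : (eh H S hS).ker => ((t : S) : G)) h).symm
  · rw [Set.eq_univ_iff_forall]
    intro x
    rcases (mem_ker H hS _).1 x.2 with h | h
    · left; exact Subtype.ext (Subtype.ext h)
    · right; exact Subtype.ext (Subtype.ext h)

theorem card_et_of_not {S : Subgroup G} (hS : S ≤ Q) (hz : z ∉ S) : Nat.card S = Nat.card (et H S hS) := by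
  rw [card_et H hS]
  have h1 : Nat.card (eh H S hS).ker = 1 := by
    rw [Subgroup.card_eq_one, eq_bot_iff]
    intro x hx
    rcases (mem_ker H hS _).1 hx with h | h
    · exact Subtype.ext h
    · exact absurd (h ▸ x.2) hz
  rw [h1, one_mul]

theorem et_inv {S : Subgroup G} (hS : S ≤ Q) (hn : ∀ m ∈ MM φ, ∀ x ∈ S, m * x * m⁻¹ ∈ S) :
    ∀ s ∈ F, ∀ v ∈ et H S hS, s • v ∈ et H S hS := by
  rintro s hs _ ⟨x, hx, rfl⟩
  rw [← img_M H] at hs
  obtain ⟨m, hm, hmM, rfl⟩ := mem_img.1 hs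
  exact ⟨m * x * m⁻¹, hn m hmM x hx, H.chart.eta_conj ⟨m, hm⟩ x (hS hx)⟩

omit H in
theorem card_top' : Nat.card (⊤ : AddSubgroup L2) = 2 ^ 24 := by
  rw [← MonsterU.Lam2.card_L2]
  exact Nat.card_congr AddSubgroup.topEquiv.toEquiv

/-- the possible images -/
theorem et_cases {S : Subgroup G} (hS : S ≤ Q) (hn : ∀ m ∈ MM φ, ∀ x ∈ S, m * x * m⁻¹ ∈ S) :
    (et H S hS = ⊥ ∧ Nat.card (et H S hS) = 1) ∨ (et H S hS = W1 ∧ Nat.card (et H S hS) = 2) ∨
    (et H S hS = W12 ∧ Nat.card (et H S hS) = 2 ^ 12) ∨ (et H S hS = W23 ∧ Nat.card (et H S hS) = 2 ^ 23) ∨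
    (et H S hS = ⊤ ∧ Nat.card (et H S hS) = 2 ^ 24) := by
  rcases uniserial (et H S hS) (et_inv H hS hn) with h | h | h | h | h
  · left; exact ⟨h, by rw [h]; exact AddSubgroup.card_bot⟩
  · right; left; exact ⟨h, by rw [h, card_W1]⟩
  · right; right; left; exact ⟨h, by rw [h, card_W12]⟩
  · right; right; right; left; exact ⟨h, by rw [h, card_W23]⟩
  · right; right; right; right; exact ⟨h, by rw [h, card_top']⟩

theorem QU_norm : ∀ m ∈ MM φ, ∀ x ∈ Q ⊓ U, m * x * m⁻¹ ∈ Q ⊓ U := fun m hm x hx =>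
  ⟨H.chart.large.conj_mem m (MM_le_C H.str hm) x hx.1, Unorm H.str (MM_le hm) hx.2⟩

theorem QN_norm : ∀ m ∈ MM φ, ∀ x ∈ Q ⊓ N, m * x * m⁻¹ ∈ Q ⊓ N := fun m hm x hx =>
  ⟨H.chart.large.conj_mem m (MM_le_C H.str hm) x hx.1,
    N.mul_mem (N.mul_mem (MM_le hm) hx.2) (N.inv_mem (MM_le hm))⟩

omit H in
/-- `W23` contains a non-orthogonal pair. -/
theorem exists_pair : ∃ a ∈ W23, ∃ b ∈ W23, bf a b = 1 := by
  have h1 : ∃ a ∈ W23, a ∉ W12 := by
    by_contra hcon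
    push Not at hcon
    have h2 : Nat.card W23 ∣ Nat.card W12 := AddSubgroup.card_dvd_of_le hcon
    rw [card_W12, card_W23] at h2
    norm_num at h2
  obtain ⟨a, ha, ha'⟩ := h1
  by_contra hcon
  push Not at hcon
  apply ha'
  apply MonsterU.AmalGen.mem_W12_of_bf
  intro y hy
  have h2 := hcon a ha y (W12_le_W23 hy)
  have key : ∀ t : ZMod 2, t ≠ 1 → t = 0 := by decide
  exact key _ h2

/-- **The position of `Q`.** -/
theorem main : z ∈ U ∧ Q ≤ N ∧ ∀ x ∈ Q, (x ∈ U ↔ eta x ∈ W23) := by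
  have hcard := card_QN H
  have c1 := et_cases H inf_le_left (QU_norm H)
  have c2 := et_cases H inf_le_left (QN_norm H)
  by_cases hz : z ∈ N
  · have hzU := claimA H hz
    have e1 := card_et_of_mem H inf_le_left (⟨H.chart.large.z_mem, hzU⟩ : z ∈ Q ⊓ U)
    have e2 := card_et_of_mem H inf_le_left (⟨H.chart.large.z_mem, hz⟩ : z ∈ Q ⊓ N)
    have e3 : Nat.card (et H (Q ⊓ N) inf_le_left) = 2 * Nat.card (et H (Q ⊓ U) inf_le_left) := by omega
    have hB : Nat.card (et H (Q ⊓ U) inf_le_left) ≠ 1 := by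
      intro h1
      apply claimB H
      intro x hx
      have h2 : et H (Q ⊓ U) inf_le_left = ⊥ := AddSubgroup.card_eq_one.1 h1
      have h3 : eta x ∈ et H (Q ⊓ U) inf_le_left := ⟨x, hx, rfl⟩
      rw [h2, AddSubgroup.mem_bot] at h3
      exact (H.chart.eta_zero x hx.1).1 h3
    have hfin : et H (Q ⊓ U) inf_le_left = W23 ∧ et H (Q ⊓ N) inf_le_left = ⊤ := by
      rcases c1 with ⟨-, h⟩ | ⟨-, h⟩ | ⟨-, h⟩ | ⟨h', h⟩ | ⟨-, h⟩
      · exact absurd h hB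
      · rw [h] at e3
        rcases c2 with ⟨-, h2⟩ | ⟨-, h2⟩ | ⟨-, h2⟩ | ⟨-, h2⟩ | ⟨-, h2⟩ <;> rw [h2] at e3 <;> norm_num at e3
      · rw [h] at e3
        rcases c2 with ⟨-, h2⟩ | ⟨-, h2⟩ | ⟨-, h2⟩ | ⟨-, h2⟩ | ⟨-, h2⟩ <;> rw [h2] at e3 <;> norm_num at e3
      · refine ⟨h', ?_⟩
        rw [h] at e3
        rcases c2 with ⟨-, h2⟩ | ⟨-, h2⟩ | ⟨-, h2⟩ | ⟨-, h2⟩ | ⟨h2', h2⟩
        · rw [h2] at e3; norm_num at e3
        · rw [h2] at e3; norm_num at e3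
        · rw [h2] at e3; norm_num at e3
        · rw [h2] at e3; norm_num at e3
        · exact h2'
      · rw [h] at e3
        rcases c2 with ⟨-, h2⟩ | ⟨-, h2⟩ | ⟨-, h2⟩ | ⟨-, h2⟩ | ⟨-, h2⟩ <;> rw [h2] at e3 <;> norm_num at e3
    refine ⟨hzU, ?_, ?_⟩
    · intro x hx
      have h3 : eta x ∈ et H (Q ⊓ N) inf_le_left := by rw [hfin.2]; exact AddSubgroup.mem_top _
      obtain ⟨y, hy, hyx⟩ := h3
      rcases (H.chart.eta_eq hx hy.1).1 hyx.symm with h | h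
      · rw [h]; exact hy.2
      · rw [h]; exact N.mul_mem hy.2 hz
    · intro x hx
      constructor
      · intro hxU
        rw [← hfin.1]
        exact ⟨x, ⟨hx, hxU⟩, rfl⟩
      · intro h3
        rw [← hfin.1] at h3
        obtain ⟨y, hy, hyx⟩ := h3
        rcases (H.chart.eta_eq hx hy.1).1 hyx.symm with h | h
        · rw [h]; exact hy.2
        · rw [h]; exact U.mul_mem hy.2 hzU
  · exfalso
    have hzU : z ∉ U := fun h => hz (H.str.UN h)
    have e1 := card_et_of_not H inf_le_left (fun h => hzU h.2 : z ∉ Q ⊓ U)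
    have e2 := card_et_of_not H inf_le_left (fun h => hz h.2 : z ∉ Q ⊓ N)
    have e3 : Nat.card (et H (Q ⊓ N) inf_le_left) = 2 * Nat.card (et H (Q ⊓ U) inf_le_left) := by omega
    have hB : Nat.card (et H (Q ⊓ U) inf_le_left) ≠ 1 := by
      intro h1
      apply claimB H
      intro x hx
      have h2 : et H (Q ⊓ U) inf_le_left = ⊥ := AddSubgroup.card_eq_one.1 h1
      have h3 : eta x ∈ et H (Q ⊓ U) inf_le_left := ⟨x, hx, rfl⟩
      rw [h2, AddSubgroup.mem_bot] at h3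
      exact (H.chart.eta_zero x hx.1).1 h3
    rcases c1 with ⟨-, h⟩ | ⟨-, h⟩ | ⟨-, h⟩ | ⟨h', h⟩ | ⟨-, h⟩
    · exact absurd h hB
    · rw [h] at e3
      rcases c2 with ⟨-, h2⟩ | ⟨-, h2⟩ | ⟨-, h2⟩ | ⟨-, h2⟩ | ⟨-, h2⟩ <;> rw [h2] at e3 <;> norm_num at e3
    · rw [h] at e3
      rcases c2 with ⟨-, h2⟩ | ⟨-, h2⟩ | ⟨-, h2⟩ | ⟨-, h2⟩ | ⟨-, h2⟩ <;> rw [h2] at e3 <;> norm_num at e3
    · obtain ⟨a, ha, b, hb, hab⟩ := exists_pair
      rw [← h'] at ha hb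
      obtain ⟨x, hx, rfl⟩ := ha
      obtain ⟨y, hy, rfl⟩ := hb
      have h3 := (H.chart.comm_z_iff hx.1 hy.1).2 hab
      apply hzU
      have e : z = (y * x)⁻¹ * (x * y) := by rw [h3]; group
      rw [e]
      exact U.mul_mem (U.inv_mem (U.mul_mem hy.2 hx.2)) (U.mul_mem hx.2 hy.2)
    · rw [h] at e3
      rcases c2 with ⟨-, h2⟩ | ⟨-, h2⟩ | ⟨-, h2⟩ | ⟨-, h2⟩ | ⟨-, h2⟩ <;> rw [h2] at e3 <;> norm_num at e3

end Cfsg.Agent.H861.RZ
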