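import Cfsg.Agent.H861.RY
import Cfsg.Agent.H861.RChartOf

/-!
# From the hypotheses of the statement to the data
-/

set_option autoImplicit false

open Cfsg

namespace Cfsg.Agent.H861.RZZ

open Cfsg.Agent.Lib
open Cfsg.Agent.H861.RUtil
open Cfsg.Agent.H861.RN
open Cfsg.Agent.H861.RL
open Cfsg.Agent.H820.SL32 (S3)

/-- the complement of a direct factor -/
theorem exists_proj {K : Type*} [Group K] (A B : Subgroup K) (hB : B.Normal) (hAB : A ⊓ B = ⊥)
    (hsup : A ⊔ B = ⊤) (e : A ≃* S3) : ∃ r : K →* S3, Function.Surjective r := by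
  let κ : A →* K ⧸ B := (QuotientGroup.mk' B).comp A.subtype
  have hinj : Function.Injective κ := by
    rw [← MonoidHom.ker_eq_bot_iff, eq_bot_iff]
    intro a ha
    have h1 : (a : K) ∈ B := (QuotientGroup.eq_one_iff (a : K)).1 ha
    have h2 : (a : K) ∈ A ⊓ B := ⟨a.2, h1⟩
    rw [hAB, Subgroup.mem_bot] at h2
    exact Subtype.ext h2
  have hsurj : Function.Surjective κ := by
    intro q
    obtain ⟨x, rfl⟩ := QuotientGroup.mk_surjective q
    have hx : x ∈ A ⊔ B := by rw [hsup]; exact Subgroup.mem_top x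
    obtain ⟨a, ha, b, hb, rfl⟩ := Subgroup.mem_sup_of_normal_right.1 hx
    refine ⟨⟨a, ha⟩, ?_⟩
    show (QuotientGroup.mk a : K ⧸ B) = QuotientGroup.mk (a * b)
    rw [QuotientGroup.eq]
    have e : a⁻¹ * (a * b) = b := by group
    rw [e]; exact hb
  let κe := MulEquiv.ofBijective κ ⟨hinj, hsurj⟩
  refine ⟨(e.toMonoidHom.comp κe.symm.toMonoidHom).comp (QuotientGroup.mk' B), ?_⟩
  exact (e.surjective.comp κe.symm.surjective).comp (QuotientGroup.mk'_surjective B)

/-- `N` -/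
theorem nStr {G : Type*} [Group G] (C N : Subgroup G) (hfin : Finite N)
    (hN : Nonempty (↥N ⧸ Cfsg.pCore 2 ↥N ≃* Equiv.Perm (Fin 3) × ↥Cfsg.M24)) (hNC : C.relIndex N = 3) :
    ∃ φ : N →* Equiv.Perm (Fin 3) × M24, NStr C N ((Cfsg.pCore 2 ↥N).map N.subtype) φ := by
  obtain ⟨e⟩ := hN
  refine ⟨e.toMonoidHom.comp (QuotientGroup.mk' (Cfsg.pCore 2 ↥N)),
    { UN := Subgroup.map_subtype_le _
      U2 := (Cores.pCore_isPGroup 2).map _
      surj := e.surjective.comp (QuotientGroup.mk'_surjective _)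
      ker := ?_
      idx := hNC
      fin := hfin }⟩
  intro n
  show e (QuotientGroup.mk' _ n) = 1 ↔ _
  rw [map_eq_one_iff e e.injective]
  constructor
  · intro h
    exact ⟨n, (QuotientGroup.eq_one_iff n).1 h, rfl⟩
  · rintro ⟨m, hm, hmn⟩
    have h1 : m = n := Subtype.ext hmn
    rw [← h1]
    exact (QuotientGroup.eq_one_iff m).2 hm

/-- `L` -/
theorem lStr {G : Type*} [Group G] (C N L : Subgroup G) (hfin : Finite L)
    (hL : ∃ A B : Subgroup (↥L ⧸ Cfsg.pCore 2 ↥L), A.Normal ∧ B.Normal ∧ A ⊓ B = ⊥ ∧ A ⊔ B = ⊤ ∧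
      Nonempty (↥A ≃* Matrix.SpecialLinearGroup (Fin 3) (ZMod 2)) ∧ Nat.card ↥B = 2160)
    (hLN : N.relIndex L = 7) (hLC : C.relIndex L = 7) : ∃ ρ : L →* S3, LStr C N L ρ := by
  obtain ⟨A, B, -, hB, hAB, hsup, ⟨e⟩, hcB⟩ := hL
  obtain ⟨r, hr⟩ := exists_proj A B hB hAB hsup e
  have hQn : (Cfsg.pCore 2 ↥L).Normal := Cores.pCore_normal 2
  let ρ : L →* S3 := r.comp (QuotientGroup.mk' (Cfsg.pCore 2 ↥L))
  have hρ : Function.Surjective ρ := hr.comp (QuotientGroup.mk'_surjective _)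
  obtain ⟨k, hk⟩ := IsPGroup.iff_card.1 (Cores.pCore_isPGroup (G := L) 2)
  have hfinK : Finite (↥L ⧸ Cfsg.pCore 2 ↥L) := inferInstance
  -- the order of the quotient
  have h1 : Nat.card (↥L ⧸ Cfsg.pCore 2 ↥L) = 168 * 2160 := by
    have h2 : Nat.card A = 168 := by
      rw [Nat.card_congr e.toEquiv]; exact Cfsg.Agent.H820.SL32.card
    have h3 := card_sup_mul A B
    rw [hsup, Subgroup.card_top, inf_comm, hAB, Subgroup.card_bot, mul_one, h2, hcB] at h3
    exact h3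
  have h2 : Nat.card L = 168 * 2160 * 2 ^ k := by
    rw [Subgroup.card_eq_card_quotient_mul_card_subgroup (Cfsg.pCore 2 ↥L), h1, hk]
  have h3 : Nat.card ρ.ker = 2160 * 2 ^ k := by
    have h4 := ρ.ker.card_mul_index
    rw [Subgroup.index_ker, MonoidHom.range_eq_top.2 hρ, Subgroup.card_top,
      Cfsg.Agent.H820.SL32.card, h2] at h4
    have h5 : Nat.card ρ.ker * 168 = (2160 * 2 ^ k) * 168 := by rw [h4]; ring
    exact Nat.eq_of_mul_eq_mul_right (by norm_num) h5
  refine ⟨ρ,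
    { surj := hρ
      not7 := ?_
      d81 := ?_
      idxN := hLN
      idxC := hLC
      fin := hfin }⟩
  · rw [h3]
    intro h
    rcases (Nat.Prime.dvd_mul prime7).1 h with h4 | h4
    · norm_num at h4
    · have h5 := prime7.dvd_of_dvd_pow h4
      norm_num at h5
  · rw [h2]
    exact Dvd.dvd.mul_right (by norm_num) _

end Cfsg.Agent.H861.RZZ
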